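import Cfsg.Agent.Lib.Geometric.SOTensor.Four

/-!
The second factor of dimension four without totally singular planes: the case of an involution
whose moved plane lies in the tensor product with a hyperbolic line.
-/

set_option autoImplicit false
set_option linter.unusedSectionVars false

namespace CfsgLib.Geometric.SOTensor.Data

open Matrix Tensor

variable {ι : Type} [Fintype ι] [DecidableEq ι] {F : Type*} [Field F]
variable {f : (ι → F) → (ι → F) → F} {n : ℕ} {e : ι ≃ Fin 2 × Fin n} {P : GL ι F}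
  {f₁ : (Fin 2 → F) → (Fin 2 → F) → F} {f₂ : (Fin n → F) → (Fin n → F) → F}
variable [Finite F] (hT : Data f e P f₁ f₂)
include hT

omit hT in
/-- A frame adapted to an elliptic plane: two vectors of non-zero value and a hyperbolic pair. -/
structure Frame (hT : Data f e P f₁ f₂) (a a' s t : Fin n → F) : Prop where
  aa' : f₂ a a' = 0
  Qa : f₂ a a ≠ 0
  Qa' : f₂ a' a' ≠ 0
  Qs : f₂ s s = 0
  Qt : f₂ t t = 0
  st : f₂ s t = 1
  as_ : f₂ a s = 0
  at_ : f₂ a t = 0
  a's : f₂ a' s = 0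
  a't : f₂ a' t = 0

omit hT in
/-- The hyperbolic pair completing an elliptic plane. -/
lemma exists_hyperbolic (hT : Data f e P f₁ f₂) (hn : n = 4) {a a' : Fin n → F}
    (haa' : f₂ a a' = 0) (h : ¬IsSquare (-(f₂ a a * f₂ a' a'))) :
    ∃ s t, hT.Frame a a' s t := by
  have hQa : f₂ a a ≠ 0 := fun h0 => h ⟨0, by rw [h0]; ring⟩
  have hQa' : f₂ a' a' ≠ 0 := fun h0 => h ⟨0, by rw [h0]; ring⟩
  obtain ⟨s, hs, hQs, hsa, hsa'⟩ := hT.exists_singular_perp_two hn haa' h
  obtain ⟨t, ht, hQt⟩ := hT.exists_partner hs hQs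
  have has : f₂ a s = 0 := by rw [hT.symm₂.symm]; exact hsa
  have ha's : f₂ a' s = 0 := by rw [hT.symm₂.symm]; exact hsa'
  set t₁ := t + (-(f₂ t a / f₂ a a)) • a + (-(f₂ t a' / f₂ a' a')) • a'
  have ht₁a : f₂ t₁ a = 0 := by
    simp only [t₁, hT.symm₂.bilinear.add_left, hT.symm₂.bilinear.smul_left, hT.symm₂.symm a' a, haa']
    field_simp
    ring
  have ht₁a' : f₂ t₁ a' = 0 := by
    simp only [t₁, hT.symm₂.bilinear.add_left, hT.symm₂.bilinear.smul_left, haa']
    field_simp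
    ring
  have ht₁s : f₂ t₁ s = 1 := by
    simp only [t₁, hT.symm₂.bilinear.add_left, hT.symm₂.bilinear.smul_left, has, ha's, ht,
      mul_zero, add_zero]
  set t₂ := t₁ + (-(f₂ t₁ t₁) / 2) • s with ht₂
  refine ⟨s, t₂, haa', hQa, hQa', hQs, ?_, ?_, has, ?_, ha's, ?_⟩
  · rw [ht₂, hT.q_add_smul, hQs, ht₁s]
    have := hT.two
    field_simp
    ring
  · rw [ht₂, hT.symm₂.bilinear.add_right, hT.symm₂.bilinear.smul_right, hQs, hT.symm₂.symm s t₁,
      ht₁s, mul_zero, add_zero]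
  · rw [ht₂, hT.symm₂.bilinear.add_right, hT.symm₂.bilinear.smul_right, has, hT.symm₂.symm a t₁,
      ht₁a, mul_zero, add_zero]
  · rw [ht₂, hT.symm₂.bilinear.add_right, hT.symm₂.bilinear.smul_right, ha's, hT.symm₂.symm a' t₁,
      ht₁a', mul_zero, add_zero]

variable {a a' s t : Fin n → F}

/-- The coordinates in a frame. -/
lemma Frame.decomp (hn : n = 4) (hF : hT.Frame a a' s t) (y : Fin n → F) :
    y = (f₂ y a / f₂ a a) • a + (f₂ y a' / f₂ a' a') • a' + f₂ y t • s + f₂ y s • t := by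
  let ψ : (Fin n → F) →ₗ[F] (F × F) × (F × F) :=
    ((hT.fr a).prod (hT.fr a')).prod ((hT.fr t).prod (hT.fr s))
  have hsur : Function.Surjective ψ := by
    rintro ⟨⟨c, c'⟩, ⟨g, g'⟩⟩
    refine ⟨(c / f₂ a a) • a + (c' / f₂ a' a') • a' + g • s + g' • t, ?_⟩
    have := hF.Qa
    have := hF.Qa'
    simp only [ψ, LinearMap.prod_apply, Function.prod, fr_apply, hT.symm₂.bilinear.add_left,
      hT.symm₂.bilinear.smul_left, hT.symm₂.symm a' a, hT.symm₂.symm s a, hT.symm₂.symm t a,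
      hT.symm₂.symm s a', hT.symm₂.symm t a', hT.symm₂.symm t s, hF.aa', hF.Qs, hF.Qt, hF.st,
      hF.as_, hF.at_, hF.a's, hF.a't, mul_zero, add_zero, zero_add, mul_one]
    refine Prod.ext (Prod.ext ?_ ?_) rfl
    · field_simp
    · field_simp
  have hinj : Function.Injective ψ :=
    (LinearMap.injective_iff_surjective_of_finrank_eq_finrank (by simp [hn])).mpr hsur
  apply hinj
  have := hF.Qa
  have := hF.Qa'
  simp only [ψ, LinearMap.prod_apply, Function.prod, fr_apply, hT.symm₂.bilinear.add_left,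
    hT.symm₂.bilinear.smul_left, hT.symm₂.symm a' a, hT.symm₂.symm s a, hT.symm₂.symm t a,
    hT.symm₂.symm s a', hT.symm₂.symm t a', hT.symm₂.symm t s, hF.aa', hF.Qs, hF.Qt, hF.st,
    hF.as_, hF.at_, hF.a's, hF.a't, mul_zero, add_zero, zero_add, mul_one]
  refine Prod.ext (Prod.ext ?_ ?_) rfl
  · field_simp
  · field_simp

omit hT in
/-- The action of an involution in a frame. -/
structure Shape (hT : Data f e P f₁ f₂) (k : GL ι F) (A : (Fin 2 → F) →ₗ[F] (Fin 2 → F))
    (κ κ' : F) (a a' s t : Fin n → F) : Prop where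
  fix : ∀ u, ap k (pt e P u a) = pt e P u a ∧ ap k (pt e P u a') = pt e P u a'
  ks : ∀ u, ap k (pt e P u s) = pt e P (A u) s + pt e P (κ • u) t
  kt : ∀ u, ap k (pt e P u t) = pt e P (κ' • u) s + pt e P (-A u) t
  sq : ∀ x, ap k (ap k x) = x

variable {M : Subgroup (GL ι F)} {k : GL ι F} {A : (Fin 2 → F) →ₗ[F] (Fin 2 → F)} {κ κ' : F}

/-- The square of the linear part. -/
lemma Shape.mul_self (hF : hT.Frame a a' s t) (hS : hT.Shape k A κ κ' a a' s t) (u : Fin 2 → F) :
    A (A u) = (1 - κ * κ') • u := by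
  have h := congrArg (hT.cc t) (hS.sq (pt e P u s))
  rw [hS.ks, ap_add, hS.ks, hS.kt] at h
  simp only [map_add, cc_pt, hT.symm₂.symm t s, hF.st, hF.Qt, one_smul, zero_smul, add_zero,
    smul_smul] at h
  linear_combination (norm := module) h

/-- The linear part is anti-self-adjoint. -/
lemma Shape.adj (hF : hT.Frame a a' s t) (hS : hT.Shape k A κ κ' a a' s t) (hk : k ∈ isom f)
    (hκ : κ ≠ 0) (u v : Fin 2 → F) : f₁ (A u) v + f₁ u (A v) = 0 := by
  have h := mem_isom_iff.mp hk (pt e P u s) (pt e P v s)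
  rw [hS.ks, hS.ks] at h
  simp only [hT.symp.bilinear.add_left, hT.symp.bilinear.add_right, hT.form, hF.Qs, hF.Qt,
    hT.symm₂.symm t s, hF.st, hT.symp₁.bilinear.smul_left, hT.symp₁.bilinear.smul_right] at h
  exact (mul_eq_zero.mp (show κ * (f₁ (A u) v + f₁ u (A v)) = 0 by linear_combination h)).resolve_left hκ

/-- The linear part multiplies the form by a constant. -/
lemma Shape.form_map (hF : hT.Frame a a' s t) (hS : hT.Shape k A κ κ' a a' s t) (hk : k ∈ isom f)
    (u v : Fin 2 → F) : f₁ (A u) (A v) = (κ * κ' - 1) * f₁ u v := by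
  have h := mem_isom_iff.mp hk (pt e P u s) (pt e P v t)
  rw [hS.ks, hS.kt] at h
  simp only [hT.symp.bilinear.add_left, hT.symp.bilinear.add_right, hT.form, hF.Qs, hF.Qt,
    hT.symm₂.symm t s, hF.st, hT.symp₁.bilinear.smul_left, hT.symp₁.bilinear.smul_right,
    Symp.neg_right hT.symp₁] at h
  linear_combination -h

/-- The linear part is not scalar. -/
lemma Shape.not_scalar (hn : n = 4) (hF : hT.Frame a a' s t) (hS : hT.Shape k A κ κ' a a' s t)
    (hk : k ∈ isom f) (hκ : κ ≠ 0) (hkT : k ∉ Cfsg.Geo.tensorProductSubgroup 2 n e P) (μ : F) :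
    ∃ u, A u ≠ μ • u := by
  by_contra hA
  push Not at hA
  obtain ⟨u₁, u₂, h12, -⟩ := hT.exists_basis₁
  have hu₁ : u₁ ≠ 0 := fun h => one_ne_zero (α := F) (by
    rw [← h12, h, Symp.zero_left hT.symp₁])
  have hμ : μ = 0 := by
    have h := hS.adj hT hF hk hκ u₁ u₂
    rw [hA, hA, hT.symp₁.bilinear.smul_left, hT.symp₁.bilinear.smul_right, h12, mul_one,
      ← two_mul] at h
    exact (mul_eq_zero.mp h).resolve_left hT.two
  have hA0 : ∀ u, A u = 0 := fun u => by rw [hA, hμ, zero_smul]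
  have hκκ : κ * κ' = 1 := by
    have h := hS.mul_self hT hF u₁
    rw [hA0] at h
    have h' := (smul_eq_zero.mp h.symm).resolve_right hu₁
    linear_combination -h'
  set v₀ := s + (-κ) • t
  have hQ : f₂ v₀ v₀ = -(2 * κ) := by
    rw [hT.q_add_smul, hF.Qs, hF.Qt, hF.st]; ring
  have hQ0 : f₂ v₀ v₀ ≠ 0 := by rw [hQ]; exact neg_ne_zero.mpr (mul_ne_zero hT.two hκ)
  refine hkT ?_
  have hk1 : k = kron e P (1 : GL (Fin 2) F) (hT.r hQ0) := gl_ext_pt e P fun u y => by
    rw [ap_kron, ap_one, hT.ap_r]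
    conv_lhs => rw [hF.decomp hT hn y]
    simp only [pt_add_right, pt_smul_right, ap_add, ap_smul, (hS.fix _).1, (hS.fix _).2, hS.ks,
      hS.kt, hA0, neg_zero, pt_zero_left, add_zero, zero_add, pt_sub_right, pt_smul_left]
    conv_rhs => arg 1; rw [hF.decomp hT hn y]
    simp only [pt_add_right, pt_smul_right, hQ, v₀, hT.symm₂.bilinear.add_right,
      hT.symm₂.bilinear.smul_right]
    have h2 := hT.two
    have h1 : κ' = κ⁻¹ := eq_inv_of_mul_eq_one_right hκκ
    subst h1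
    match_scalars <;> field_simp <;> ring
  rw [hk1]
  exact kron_mem e P _ _

/-- The generic value: a reflection of the second factor moves the involution to one fixing a
singular slice. -/
lemma Shape.hasFix_generic (hn : n = 4) (hH : ∀ a ∈ isom f₁, ∀ b ∈ isom f₂, kron e P a b ∈ M)
    (hM : M ≤ isom f) (hkM : k ∈ M) (hF : hT.Frame a a' s t) (hS : hT.Shape k A κ κ' a a' s t)
    (hκ : κ ≠ 0) (hkT : k ∉ Cfsg.Geo.tensorProductSubgroup 2 n e P) {ν : F} (hν : ¬IsSquare ν)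
    (hα : 2 * f₂ a a = ν - (κ + κ') * (κ + κ')) (hne : f₂ a a + 2 ≠ 0)
    (hns : ¬IsSquare (-(f₂ a a * f₂ a' a'))) :
    hT.HasFix M := by
  obtain ⟨r, hr⟩ := CfsgLib.Forms.isSquare_mul_of_not hν hns
  have hQa := hF.Qa
  have hQa' := hF.Qa'
  set v := a + s + t with hv
  have hva : f₂ v a = f₂ a a := by
    simp only [hv, hT.symm₂.bilinear.add_left, hT.symm₂.symm s a, hT.symm₂.symm t a, hF.as_,
      hF.at_, add_zero]
  have hvs : f₂ s v = 1 := by
    simp only [hv, hT.symm₂.bilinear.add_right, hT.symm₂.symm s a, hF.as_, hF.Qs, hF.st, zero_add]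
  have hvt : f₂ t v = 1 := by
    simp only [hv, hT.symm₂.bilinear.add_right, hT.symm₂.symm t a, hF.at_, hF.Qt,
      hT.symm₂.symm t s, hF.st, add_zero, zero_add]
  have hva' : f₂ a' v = 0 := by
    simp only [hv, hT.symm₂.bilinear.add_right, hT.symm₂.symm a' a, hF.aa', hF.a's, hF.a't,
      add_zero]
  have hQv : f₂ v v = f₂ a a + 2 := by
    conv_lhs => arg 1; rw [hv]
    rw [hT.symm₂.bilinear.add_left, hT.symm₂.bilinear.add_left, hT.symm₂.symm a v, hva, hvs, hvt]
    ring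
  have hQv0 : f₂ v v ≠ 0 := by rw [hQv]; exact hne
  set z := r / (f₂ a a * f₂ a' a') with hz
  set c := (κ + κ') / f₂ a a with hc
  set σ := z • a' + s + t + (-c) • a with hσ
  have hQσ : f₂ σ σ = 0 := by
    simp only [hσ, hT.symm₂.bilinear.add_left, hT.symm₂.bilinear.add_right,
      hT.symm₂.bilinear.smul_left, hT.symm₂.bilinear.smul_right, hT.symm₂.symm a' a,
      hT.symm₂.symm t s, hT.symm₂.symm s a, hT.symm₂.symm t a, hT.symm₂.symm s a',
      hT.symm₂.symm t a', hF.aa', hF.as_, hF.at_, hF.a's, hF.a't, hF.Qs, hF.Qt, hF.st]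
    rw [hz, hc]
    field_simp
    linear_combination -hr + f₂ a a * f₂ a' a' * hα
  have hσt : f₂ σ t = 1 := by
    simp only [hσ, hT.symm₂.bilinear.add_left, hT.symm₂.bilinear.smul_left, hF.a't, hF.st, hF.Qt,
      hF.at_]
    ring
  have hσ0 : σ ≠ 0 := fun h => one_ne_zero (α := F) (by rw [← hσt, h, hT.zero_left₂])
  set R := kron e P (1 : GL (Fin 2) F) (hT.r hQv0) with hR
  have hRM : R ∈ M := hH 1 (one_mem _) _ (hT.r_mem hQv0)
  have hRx : ∀ x, ap R x = x - (2 / f₂ v v) • pt e P (hT.cc v x) v := hT.ap_kron_r hQv0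
  set k' := k * R * k with hk'
  have hσk : ∀ u, ap k (pt e P u σ) =
      z • pt e P u a' + (-c) • pt e P u a + pt e P (A u + κ' • u) s + pt e P (κ • u - A u) t := by
    intro u
    simp only [hσ, pt_add_right, pt_smul_right, ap_add, ap_smul, (hS.fix _).1, (hS.fix _).2, hS.ks,
      hS.kt, pt_add_left, pt_sub_left, pt_smul_left, ← neg_one_smul F (A u)]
    module
  have hfix : ∀ u, ap k' (pt e P u σ) = pt e P u σ := by
    intro u
    have hcv : hT.cc v (ap k (pt e P u σ)) = 0 := by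
      rw [hσk]
      simp only [map_add, map_smul, cc_pt, hva', hvs, hvt, hT.symm₂.symm a v, hva]
      rw [hc]
      match_scalars <;> field_simp <;> ring
    rw [hk', ap_mul, ap_mul, hRx, hcv, pt_zero_left, smul_zero, sub_zero, hS.sq]
  refine ⟨k', M.mul_mem (M.mul_mem hkM hRM) hkM, fun hT' => ?_, σ, hσ0, hQσ, hfix⟩
  obtain ⟨b, hb⟩ := hT.of_fix_slice hT' hσ0 hfix
  -- this makes the linear part scalar
  set c' := 2 / f₂ v v with hc'
  have hc'0 : c' ≠ 0 := div_ne_zero hT.two hQv0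
  obtain ⟨u, hu⟩ := hS.not_scalar hT hn hF (hM hkM) hκ hkT
    (-(f₂ (ap b s) a / (c' * f₂ a a)) - κ)
  apply hu
  have h := congrArg (hT.cc a) (hb u s)
  rw [hk', ap_mul, ap_mul, hRx, ap_sub, hS.sq, ap_smul] at h
  have e1 : hT.cc v (ap k (pt e P u s)) = A u + κ • u := by
    simp only [hS.ks, map_add, cc_pt, hvs, hvt, one_smul]
  have e2 : ∀ w, hT.cc a (ap k (pt e P w v)) = f₂ a a • w := fun w => by
    simp only [hv, pt_add_right, ap_add, (hS.fix _).1, hS.ks, hS.kt, map_add, cc_pt,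
      hT.symm₂.symm s a, hF.as_, hT.symm₂.symm t a, hF.at_, zero_smul, add_zero]
  rw [map_sub, map_smul, e2, e1, cc_pt, cc_pt, hT.symm₂.symm s a, hF.as_, zero_smul, zero_sub] at h
  have h' : (c' * f₂ a a) • A u = -((c' * f₂ a a * κ) + f₂ (ap b s) a) • u := by
    linear_combination (norm := module) -h
  have h'' := congrArg (fun x => (c' * f₂ a a)⁻¹ • x) h'
  simp only [smul_smul, inv_mul_cancel₀ (mul_ne_zero hc'0 hQa), one_smul] at h''
  rw [h'']
  congr 1
  field_simp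
  ring

/-- The field of three elements. -/
lemma Shape.hasFix_three (hn : n = 4) (hH : ∀ a ∈ isom f₁, ∀ b ∈ isom f₂, kron e P a b ∈ M)
    (hM : M ≤ isom f) (hkM : k ∈ M) (hF : hT.Frame a a' s t) (hS : hT.Shape k A κ κ' a a' s t)
    (hκ : κ * κ = 1) (hκ' : κ' = -κ) (h3 : (3 : F) = 0) (hnsq : ¬IsSquare (-1 : F)) :
    hT.HasFix M := by
  have hκ0 : κ ≠ 0 := fun h => zero_ne_one (α := F) (by rw [← hκ, h, zero_mul])
  have hA2 : ∀ u, A (A u) = -u := fun u => by
    rw [hS.mul_self hT hF, show (1 : F) - κ * κ' = -1 by rw [hκ']; linear_combination hκ + h3]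
    exact neg_one_smul F u
  have hAf : ∀ u v, f₁ (A u) (A v) = f₁ u v := fun u v => by
    rw [hS.form_map hT hF (hM hkM), hκ']
    linear_combination (-f₁ u v) * hκ - f₁ u v * h3
  obtain ⟨u₀, hu₀⟩ := hT.exists_nonzero 2 two_pos
  set γ := f₁ u₀ (A u₀) with hγdef
  have hγ : γ ≠ 0 := by
    intro h
    obtain ⟨p, hp⟩ := (hT.symp₁.nondegenerate u₀ hu₀).2
    have h1 := hT.plane_id (A u₀) u₀ p
    rw [hT.symp₁.skew (A u₀) u₀, ← hγdef, h, neg_zero, zero_smul, sub_zero] at h1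
    set r := f₁ (A u₀) p / f₁ u₀ p
    have hr : A u₀ = r • u₀ := by
      rw [show r • u₀ = (f₁ u₀ p)⁻¹ • f₁ (A u₀) p • u₀ by
        rw [smul_smul, inv_mul_eq_div], ← h1, smul_smul, inv_mul_cancel₀ hp, one_smul]
    have h2 := hA2 u₀
    rw [hr, map_smul, hr, smul_smul, ← neg_one_smul F u₀] at h2
    exact hnsq ⟨r, (smul_left_injective F hu₀ h2).symm⟩
  -- a map anticommuting with the linear part
  let K : (Fin 2 → F) →ₗ[F] (Fin 2 → F) :=
    (γ⁻¹ • Symp.fl hT.symp₁ (A u₀)).smulRight (u₀ + A u₀) -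
      (γ⁻¹ • Symp.fl hT.symp₁ u₀).smulRight (u₀ - A u₀)
  have hK : ∀ c, K c = (f₁ c (A u₀) / γ) • (u₀ + A u₀) - (f₁ c u₀ / γ) • (u₀ - A u₀) := fun c => by
    simp [K, div_eq_inv_mul]
  have hdec : ∀ c, c = (f₁ c (A u₀) / γ) • u₀ - (f₁ c u₀ / γ) • A u₀ := fun c => by
    have h := hT.plane_id c u₀ (A u₀)
    rw [div_eq_inv_mul, div_eq_inv_mul, ← smul_smul, ← smul_smul, ← smul_sub, ← h, smul_smul,
      inv_mul_cancel₀ hγ, one_smul]
  have hKisom : ∀ c c', f₁ (K c) (K c') = f₁ c c' := by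
    intro c c'
    have h21 : f₁ (A u₀) u₀ = -γ := by rw [hT.symp₁.skew, ← hγdef]
    conv_rhs => rw [hdec c, hdec c']
    simp only [hK, sub_eq_add_neg, ← neg_smul, ← neg_one_smul F (A u₀), hT.symp₁.bilinear.add_left,
      hT.symp₁.bilinear.add_right, hT.symp₁.bilinear.smul_left, hT.symp₁.bilinear.smul_right,
      hT.symp₁.alternating, h21, ← hγdef]
    field_simp
    linear_combination
      (γ * (f₁ c (A u₀) * f₁ c' u₀ - f₁ c u₀ * f₁ c' (A u₀))) * h3
  have hKinj : Function.Injective K := (injective_iff_map_eq_zero _).mpr fun c hc => by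
    by_contra hne
    obtain ⟨p, hp⟩ := (hT.symp₁.nondegenerate c hne).2
    exact hp (by rw [← hKisom, hc, Symp.zero_left hT.symp₁])
  have hKA : ∀ c, K (A c) = -A (K c) := by
    intro c
    have hK0 : K u₀ = u₀ + A u₀ := by
      rw [hK, hT.symp₁.alternating, ← hγdef, div_self hγ, one_smul, zero_div, zero_smul, sub_zero]
    have hK1 : K (A u₀) = u₀ - A u₀ := by
      rw [hK, hT.symp₁.alternating, hT.symp₁.skew (A u₀) u₀, ← hγdef, neg_div, div_self hγ,
        zero_div, zero_smul, neg_smul, one_smul, zero_sub, neg_neg]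
    conv_lhs => rw [hdec c]
    conv_rhs => rw [hdec c]
    simp only [map_sub, map_smul, map_neg, map_add, hA2, hK0, hK1]
    module
  set kK : GL (Fin 2) F := ofEquiv (LinearEquiv.ofInjectiveEndo K hKinj) with hkK
  have hkKap : ∀ c, ap kK c = K c := fun c => by rw [hkK, ap_ofEquiv]; rfl
  have hkKI : kK ∈ isom f₁ := fun x y => by
    change f₁ (ap kK x) (ap kK y) = f₁ x y
    rw [hkKap, hkKap, hKisom]
  let B : (Fin 2 → F) →ₗ[F] (Fin 2 → F) := (-κ) • A
  have hBap : ∀ c, B c = (-κ) • A c := fun c => rfl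
  have hBisom : ∀ c c', f₁ (B c) (B c') = f₁ c c' := fun c c' => by
    rw [hBap, hBap, hT.symp₁.bilinear.smul_left, hT.symp₁.bilinear.smul_right, hAf]
    linear_combination f₁ c c' * hκ
  have hBinj : Function.Injective B := (injective_iff_map_eq_zero _).mpr fun c hc => by
    by_contra hne
    obtain ⟨p, hp⟩ := (hT.symp₁.nondegenerate c hne).2
    exact hp (by rw [← hBisom, hc, Symp.zero_left hT.symp₁])
  set kB : GL (Fin 2) F := ofEquiv (LinearEquiv.ofInjectiveEndo B hBinj) with hkB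
  have hkBap : ∀ c, ap kB c = (-κ) • A c := fun c => by rw [hkB, ap_ofEquiv]; rfl
  have hkBI : kB ∈ isom f₁ := fun x y => by
    change f₁ (ap kB x) (ap kB y) = f₁ x y
    rw [hkBap, hkBap]; exact hBisom x y
  set v := s + (-1 : F) • t with hv
  have hQv : f₂ v v = -2 := by rw [hv, hT.q_add_smul, hF.Qs, hF.Qt, hF.st]; ring
  have hQv0 : f₂ v v ≠ 0 := by rw [hQv]; exact neg_ne_zero.mpr hT.two
  have hcoef : 2 / f₂ v v = -1 := by rw [hQv, div_neg, div_self hT.two]
  have hra : ap (hT.r hQv0) a = a := by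
    have h0 : f₂ a v = 0 := by
      rw [hv, hT.symm₂.bilinear.add_right, hT.symm₂.bilinear.smul_right, hF.as_, hF.at_]; ring
    rw [hT.ap_r, h0, mul_zero, zero_smul, sub_zero]
  have hrs : ap (hT.r hQv0) s = t := by
    rw [hT.ap_r, hcoef, hv, hT.symm₂.bilinear.add_right, hT.symm₂.bilinear.smul_right, hF.Qs,
      hF.st]
    module
  have ha' : ap (hT.r hQv0) a' = a' := by
    have h0 : f₂ a' v = 0 := by
      rw [hv, hT.symm₂.bilinear.add_right, hT.symm₂.bilinear.smul_right, hF.a's, hF.a't]; ring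
    rw [hT.ap_r, h0, mul_zero, zero_smul, sub_zero]
  set C := kron e P kK (1 : GL (Fin n) F) with hC
  have hCM : C ∈ M := hH _ hkKI _ (one_mem _)
  have hCap : ∀ u y, ap C (pt e P u y) = pt e P (K u) y := fun u y => by
    rw [hC, ap_kron, ap_one, hkKap]
  have hCinv : ∀ u y, ap C⁻¹ (pt e P (K u) y) = pt e P u y := fun u y => by
    apply ap_injective C
    rw [ap_ap_inv, hCap]
  have hKsur := LinearMap.surjective_of_injective hKinj
  set m := k * (C * k * C⁻¹) * kron e P (1 : GL (Fin 2) F) (hT.r hQv0) *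
    kron e P kB (1 : GL (Fin n) F) with hm
  have hmM : m ∈ M := M.mul_mem (M.mul_mem (M.mul_mem hkM (M.mul_mem (M.mul_mem hCM hkM)
    (M.inv_mem hCM))) (hH 1 (one_mem _) _ (hT.r_mem hQv0))) (hH _ hkBI _ (one_mem _))
  have hconjs : ∀ u, ap (C * k * C⁻¹) (pt e P u t) =
      pt e P (κ' • u) s + pt e P (A u) t := by
    intro u
    obtain ⟨p, rfl⟩ := hKsur u
    rw [ap_mul, ap_mul, hCinv, hS.kt, ap_add, hCap, hCap, map_smul, map_neg, hKA, neg_neg]
  have hconja : ∀ u, ap (C * k * C⁻¹) (pt e P u a) = pt e P u a := by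
    intro u
    obtain ⟨p, rfl⟩ := hKsur u
    rw [ap_mul, ap_mul, hCinv, (hS.fix p).1, hCap]
  have hms : ∀ u, ap m (pt e P u s) = pt e P u s := by
    intro u
    rw [hm, ap_mul, ap_mul, ap_mul, ap_kron, ap_one, hkBap, ap_kron, ap_one, hrs, hconjs, ap_add,
      hS.ks, hS.kt]
    simp only [map_smul, map_neg, hA2, hκ', smul_neg, neg_neg, ← ptl_apply e P t, ← ptl_apply e P s]
    match_scalars
    · linear_combination (-2 : F) * hκ - h3
    · linear_combination κ * hκ
  have hma : ∀ u, ap m (pt e P u a) = pt e P ((-κ) • A u) a := by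
    intro u
    rw [hm, ap_mul, ap_mul, ap_mul, ap_kron, ap_one, hkBap, ap_kron, ap_one, hra, hconja,
      (hS.fix _).1]
  have hs0 : s ≠ 0 := fun h => one_ne_zero (α := F) (by rw [← hF.st, h, hT.zero_left₂])
  refine ⟨m, hmM, fun hT' => ?_, s, hs0, hF.Qs, hms⟩
  obtain ⟨b, hb⟩ := hT.of_fix_slice hT' hs0 hms
  have h := congrArg (hT.cc a) (hb u₀ a)
  rw [hma, cc_pt, cc_pt, smul_smul] at h
  have h1 := congrArg (fun x => f₁ x u₀) h
  simp only [hT.symp₁.bilinear.smul_left, hT.symp₁.alternating, mul_zero,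
    hT.symp₁.skew (A u₀) u₀, ← hγdef, mul_eq_zero, neg_eq_zero, hγ, hF.Qa, hκ0, or_false,
    false_or] at h1

/-- An element fixing pointwise a slice of a singular vector, second factor of dimension four. -/
theorem exists_fix_singular_four (hn : n = 4) (hM : M ≤ isom f)
    (hH : ∀ a ∈ isom f₁, ∀ b ∈ isom f₂, kron e P a b ∈ M) {g : GL ι F} (hg : g ∈ M)
    (hgT : g ∉ Cfsg.Geo.tensorProductSubgroup 2 n e P) :
    hT.HasFix M := by
  obtain ⟨k, hkM, hkT, E, φ, hEφ, hk'⟩ := hT.exists_involution hM hH hg hgT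
  have hφE : f φ E = -1 := by rw [hT.symp.skew, hEφ]
  have hfixed : ∀ {E φ : ι → F}, (∀ x, ap k x = x - (2 : F) • (f x φ • E - f x E • φ)) →
      ∀ y, hT.cc y E = 0 → hT.cc y φ = 0 → ∀ u, ap k (pt e P u y) = pt e P u y := by
    intro E φ hk' y h1 h2 u
    rw [hk', hT.pt_f, hT.pt_f, h1, h2, Symp.zero_right hT.symp₁, zero_smul, zero_smul, sub_zero,
      smul_zero, sub_zero]
  by_cases hcase : ∃ y, hT.cc y E = 0 ∧ hT.cc y φ ≠ 0
  · obtain ⟨y, hy, hyφ⟩ := hcase
    exact hT.hasFix_of_contraction hn hH hM hkM hEφ hk' hy hyφ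
  push Not at hcase
  let K : (Fin n → F) →ₗ[F] (Fin 2 → F) :=
    { toFun := fun y => hT.cc y E
      map_add' := fun a b => by rw [hT.cc_add]; rfl
      map_smul' := fun c a => by rw [hT.cc_smul]; rfl }
  set N := LinearMap.ker K with hNdef
  have hmemN : ∀ y, y ∈ N ↔ hT.cc y E = 0 := fun y => Iff.rfl
  have hN : 2 ≤ Module.finrank F N := by
    have h1 := LinearMap.finrank_range_add_finrank_ker K
    have h2 := Submodule.finrank_le (LinearMap.range K)
    rw [Module.finrank_fin_fun] at h1 h2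
    rw [hNdef]
    omega
  by_cases hsing : ∃ σ ∈ N, σ ≠ 0 ∧ f₂ σ σ = 0
  · obtain ⟨σ, hσ, hσ0, hQσ⟩ := hsing
    exact ⟨k, hkM, hkT, σ, hσ0, hQσ,
      hfixed hk' σ ((hmemN σ).mp hσ) (hcase σ ((hmemN σ).mp hσ))⟩
  push Not at hsing
  have hno : ∀ σ ∈ N, f₂ σ σ = 0 → σ = 0 := fun σ hσ h0 => by
    by_contra hne
    exact hsing σ hσ hne h0
  -- an orthogonal basis with a given value
  have hbasis : ∀ α : F, α ≠ 0 → ∃ a a', a ∈ N ∧ a' ∈ N ∧ f₂ a a' = 0 ∧ f₂ a a = α ∧
      ¬IsSquare (-(f₂ a a * f₂ a' a')) := by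
    intro α hα
    obtain ⟨a, ha, hQa⟩ := hT.plane_value hn hN hno α
    have h1 := Orth.finrank_le_inf_ker N (hT.fr a)
    obtain ⟨⟨a', ha'⟩, ha'0⟩ := Module.finrank_pos_iff_exists_ne_zero.mp
      (show 0 < Module.finrank F ↥(N ⊓ LinearMap.ker (hT.fr a)) by omega)
    have haa' : f₂ a a' = 0 := by rw [hT.symm₂.symm]; exact ha'.2
    exact ⟨a, a', ha, ha'.1, haa', hQa, hT.not_isSquare_of_no_singular hno ha ha'.1
      (fun h => ha'0 (Subtype.ext h))
      (fun h => hα (by rw [← hQa, h, hT.zero_left₂])) haa'⟩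
  obtain ⟨a₀, a₀', ha₀, ha₀', haa₀, -, hns₀⟩ := hbasis 1 one_ne_zero
  obtain ⟨s, t, hF₀⟩ := hT.exists_hyperbolic hn haa₀ hns₀
  have hs0 : s ≠ 0 := fun h => one_ne_zero (α := F) (by rw [← hF₀.st, h, hT.zero_left₂])
  -- the plane is the orthogonal of the hyperbolic line
  have hNst : ∀ y ∈ N, f₂ y s = 0 ∧ f₂ y t = 0 := by
    intro y hy
    set p := f₂ y t • s + f₂ y s • t with hp
    have hpN : p ∈ N := by
      have he : p = y - (f₂ y a₀ / f₂ a₀ a₀) • a₀ - (f₂ y a₀' / f₂ a₀' a₀') • a₀' := by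
        conv_rhs => arg 1; arg 1; rw [hF₀.decomp hT hn y]
        rw [hp]; abel
      rw [he]
      exact N.sub_mem (N.sub_mem hy (N.smul_mem _ ha₀)) (N.smul_mem _ ha₀')
    have hpa : f₂ a₀ p = 0 ∧ f₂ a₀' p = 0 := by
      simp [hp, hT.symm₂.bilinear.add_right, hT.symm₂.bilinear.smul_right, hF₀.as_, hF₀.at_,
        hF₀.a's, hF₀.a't]
    have hp0 : p = 0 := by
      by_contra hne
      clear_value p
      clear hp
      -- three pairwise orthogonal vectors contain a singular one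
      have hQp : f₂ p p ≠ 0 := fun h => hne (hno p hpN h)
      obtain ⟨c, c', hc⟩ := Orth.exists_combination hF₀.Qa hF₀.Qa' hT.two (-f₂ p p)
      have h0 := hno (p + (c • a₀ + c' • a₀'))
        (N.add_mem hpN (N.add_mem (N.smul_mem _ ha₀) (N.smul_mem _ ha₀'))) (by
          rw [hT.q_add, hT.q_add_smul, hT.q_smul, hT.symm₂.bilinear.smul_left,
            hT.symm₂.bilinear.add_right, hT.symm₂.bilinear.smul_right,
            hT.symm₂.bilinear.smul_right, hT.symm₂.symm p a₀, hpa.1, hT.symm₂.symm p a₀', hpa.2,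
            haa₀]
          linear_combination hc)
      have := congrArg (fun x => f₂ x p) h0
      simp [hT.symm₂.bilinear.add_left, hT.symm₂.bilinear.smul_left, hpa.1, hpa.2,
        hT.zero_left₂] at this
      exact hQp this
    have e1 := congrArg (fun x => f₂ x s) hp0
    have e2 := congrArg (fun x => f₂ x t) hp0
    simp [hp, hT.symm₂.bilinear.add_left, hT.symm₂.bilinear.smul_left, hF₀.Qs, hF₀.Qt, hF₀.st,
      hT.symm₂.symm t s, hT.zero_left₂] at e1 e2
    exact ⟨e1, e2⟩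
  -- the two vectors in the frame
  set e₁ := hT.cc t E with he₁
  set e₂ := hT.cc s E with he₂
  set p₁ := hT.cc t φ with hp₁
  set p₂ := hT.cc s φ with hp₂
  have hexp : ∀ v : ι → F, (∀ y, hT.cc y E = 0 → hT.cc y v = 0) →
      v = pt e P (hT.cc t v) s + pt e P (hT.cc s v) t := by
    intro v hv
    refine (sub_eq_zero.mp (hT.eq_zero_of_cc fun y => ?_))
    rw [map_sub, map_add, cc_pt, cc_pt]
    conv_lhs => arg 1; rw [hF₀.decomp hT hn y]
    simp only [hT.cc_add, hT.cc_smul, LinearMap.add_apply, LinearMap.smul_apply,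
      hv a₀ ((hmemN a₀).mp ha₀), hv a₀' ((hmemN a₀').mp ha₀'), smul_zero, zero_add]
    rw [hT.symm₂.symm s y, hT.symm₂.symm t y]
    abel
  have hE : E = pt e P e₁ s + pt e P e₂ t := hexp E fun y h => h
  have hφ : φ = pt e P p₁ s + pt e P p₂ t := hexp φ hcase
  have h1eq : f₁ e₁ p₂ + f₁ e₂ p₁ = 1 := by
    rw [← hEφ, hE, hφ]
    simp only [hT.symp.bilinear.add_left, hT.symp.bilinear.add_right, hT.form, hF₀.Qs, hF₀.Qt,
      hT.symm₂.symm t s, hF₀.st]
    ring
  let A : (Fin 2 → F) →ₗ[F] (Fin 2 → F) :=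
    LinearMap.id - (2 : F) • (Symp.fl hT.symp₁ p₂).smulRight e₁ +
      (2 : F) • (Symp.fl hT.symp₁ e₂).smulRight p₁
  have hA : ∀ u, A u = u - (2 * f₁ u p₂) • e₁ + (2 * f₁ u e₂) • p₁ := fun u => by
    simp [A, smul_smul]
  set κ := -(2 * f₁ e₂ p₂) with hκdef
  set κ' := -(2 * f₁ e₁ p₁) with hκ'def
  have hks : ∀ u, ap k (pt e P u s) = pt e P (A u) s + pt e P (κ • u) t := by
    intro u
    have h2 : κ • u = -((2 * f₁ u p₂) • e₂) + (2 * f₁ u e₂) • p₂ := by
      have := hT.plane_id u e₂ p₂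
      rw [hκdef, ← neg_mul, ← smul_smul, this]
      module
    rw [hk', hT.pt_f, hT.pt_f, ← he₂, ← hp₂, hA, h2]
    conv_lhs => rw [hE, hφ]
    simp only [pt_add_left, pt_sub_left, ← neg_smul, pt_smul_left]
    module
  have hkt : ∀ u, ap k (pt e P u t) = pt e P (κ' • u) s + pt e P (-A u) t := by
    intro u
    have h2 : κ' • u = -((2 * f₁ u p₁) • e₁) + (2 * f₁ u e₁) • p₁ := by
      have := hT.plane_id u e₁ p₁
      rw [hκ'def, ← neg_mul, ← smul_smul, this]
      module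
    have hA' : -A u = u - (2 * f₁ u p₁) • e₂ + (2 * f₁ u e₁) • p₂ := by
      have e1 := hT.plane_id u e₁ p₂
      have e2 := hT.plane_id u e₂ p₁
      have e3 : (f₁ e₁ p₂ + f₁ e₂ p₁) • u = u := by rw [h1eq, one_smul]
      rw [add_smul, e1, e2] at e3
      rw [hA]
      linear_combination (norm := module) (2 : F) • e3
    rw [hk', hT.pt_f, hT.pt_f, ← he₁, ← hp₁, hA', h2]
    conv_lhs => rw [hE, hφ]
    simp only [pt_add_left, pt_sub_left, ← neg_smul, pt_smul_left]
    module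
  have hsq : ∀ x, ap k (ap k x) = x := fun x => by
    rw [hk', hk']
    simp only [Symp.sub_left hT.symp, hT.symp.bilinear.smul_left, hEφ, hφE, hT.symp.alternating]
    match_scalars <;> ring
  by_cases hκ : κ = 0
  · -- a vector of the moved plane is pure at a singular vector
    have h0 : f₁ e₂ p₂ = 0 :=
      (mul_eq_zero.mp (neg_eq_zero.mp hκ)).resolve_left hT.two
    by_cases he0 : e₂ = 0
    · exact absurd (hno s ((hmemN s).mpr he0) hF₀.Qs) hs0
    obtain ⟨p, hp⟩ := (hT.symp₁.nondegenerate e₂ he0).2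
    have h2 := hT.plane_id p₂ e₂ p
    rw [hT.symp₁.skew p₂ e₂, h0, neg_zero, zero_smul, sub_zero] at h2
    set r := f₁ p₂ p / f₁ e₂ p with hr
    have hr' : p₂ = r • e₂ := by
      rw [hr, div_eq_inv_mul, ← smul_smul, ← h2, smul_smul, inv_mul_cancel₀ hp, one_smul]
    set E' := φ - r • E with hE'
    have hk2 : ∀ x, ap k x = x - (2 : F) • (f x (-E) • E' - f x E' • (-E)) := fun x => by
      rw [hk', hE', Symp.neg_right hT.symp, sub_eq_add_neg φ, ← neg_smul,
        hT.symp.bilinear.add_right, hT.symp.bilinear.smul_right]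
      module
    have hEφ' : f E' (-E) = 1 := by
      rw [hE', Symp.neg_right hT.symp, Symp.sub_left hT.symp, hT.symp.bilinear.smul_left, hφE,
        hT.symp.alternating]
      ring
    have hsE : hT.cc s E' = 0 := by
      rw [hE', map_sub, map_smul, ← hp₂, ← he₂, hr', sub_self]
    by_cases hc : ∃ y, hT.cc y E' = 0 ∧ hT.cc y (-E) ≠ 0
    · obtain ⟨y, hy, hyφ⟩ := hc
      exact hT.hasFix_of_contraction hn hH hM hkM hEφ' hk2 hy hyφ
    push Not at hc
    exact ⟨k, hkM, hkT, s, hs0, hF₀.Qs, hfixed hk2 s hsE (hc s hsE)⟩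
  -- the frame adapted to a value
  have hshape : ∀ a a', a ∈ N → a' ∈ N → hT.Shape k A κ κ' a a' s t := fun a a' ha ha' =>
    ⟨fun u => ⟨hfixed hk' a ((hmemN a).mp ha) (hcase a ((hmemN a).mp ha)) u,
      hfixed hk' a' ((hmemN a').mp ha') (hcase a' ((hmemN a').mp ha')) u⟩, hks, hkt, hsq⟩
  have hframe : ∀ a a', a ∈ N → a' ∈ N → f₂ a a' = 0 → ¬IsSquare (-(f₂ a a * f₂ a' a')) →
      hT.Frame a a' s t := fun a a' ha ha' haa' hns =>
    ⟨haa', fun h => hns ⟨0, by rw [h]; ring⟩, fun h => hns ⟨0, by rw [h]; ring⟩, hF₀.Qs, hF₀.Qt,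
      hF₀.st, (hNst a ha).1, (hNst a ha).2, (hNst a' ha').1, (hNst a' ha').2⟩
  by_cases hgen : ∃ ν : F, ¬IsSquare ν ∧ ν ≠ (κ + κ') * (κ + κ') - 4
  · obtain ⟨ν, hν, hne⟩ := hgen
    set α := (ν - (κ + κ') * (κ + κ')) / 2 with hα
    have h2 := hT.two
    have hα0 : α ≠ 0 := div_ne_zero (sub_ne_zero.mpr fun h => hν ⟨κ + κ', h⟩) hT.two
    obtain ⟨a, a', ha, ha', haa', hQa, hns⟩ := hbasis α hα0
    refine (hshape a a' ha ha').hasFix_generic hT hn hH hM hkM (hframe a a' ha ha' haa' hns) hκ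
      hkT hν ?_ ?_ hns
    · rw [hQa, hα]; field_simp
    · rw [hQa, hα]
      intro h
      field_simp at h
      exact hne (by linear_combination h)
  push Not at hgen
  obtain ⟨ν, hν⟩ := FiniteField.exists_nonsquare (F := F)
    fun h => hT.two (by have := ringChar.spec F 2; rw [h] at this; simpa using this)
  have hν0 : ν ≠ 0 := fun h => hν (h ▸ IsSquare.zero)
  have hone : ∀ g : F, g ≠ 0 → g * g = 1 := fun g hg => by
    have hns : ¬IsSquare (ν * (g * g)) := fun ⟨r, hr⟩ => hν ⟨r / g, by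
      field_simp
      linear_combination hr⟩
    exact mul_left_cancel₀ hν0 (by rw [hgen _ hns, mul_one, hgen _ hν])
  have h3 : (3 : F) = 0 := by linear_combination hone 2 hT.two
  have hν1 : ν = -1 := by
    have h := hone ν hν0
    rcases mul_eq_zero.mp (show (ν - 1) * (ν + 1) = 0 by linear_combination h) with h' | h'
    · exact absurd ⟨1, by linear_combination h'⟩ hν
    · linear_combination h'
  have hc0 : κ + κ' = 0 := by
    have h := hgen ν hν
    rw [hν1] at h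
    exact mul_self_eq_zero.mp (by linear_combination h3 - h)
  exact (hshape a₀ a₀' ha₀ ha₀').hasFix_three hT hn hH hM hkM hF₀ (hone κ hκ)
    (by linear_combination hc0) h3 (hν1 ▸ hν)

end CfsgLib.Geometric.SOTensor.Data
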