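import Cfsg.Agent.Lib.Geometric.SOTensor.Transv
import Cfsg.Agent.Lib.Geometric.SOTensor.FourFix
import Cfsg.Agent.Lib.Geometric.Orth.TensorThree
import Cfsg.Agent.Lib.Geometric.Orth.DecompStabMax

/-!
The stabiliser of a tensor product of a two-dimensional symplectic space and an orthogonal space of
dimension at least five, or of dimension four and minus type, is maximal in the symplectic group, in
odd characteristic.
-/

set_option autoImplicit false
set_option linter.unusedSectionVars false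

namespace CfsgLib.Geometric

open Matrix Tensor

variable {ι : Type} [Fintype ι] [DecidableEq ι] {F : Type*} [Field F]

namespace Symp

variable {f : (ι → F) → (ι → F) → F} (hf : Cfsg.Geo.IsSymplecticForm f)
include hf

/-- A group whose set of transvection centres contains a connected spanning set contains every
transvection. -/
theorem T_mem_of_connected (h2 : (2 : F) ≠ 0) {M : Subgroup (GL ι F)} (hM : M ≤ isom f)
    {Pset : Set (ι → F)} (hP : ∀ p ∈ Pset, ∀ c, T hf p c ∈ M)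
    (hsep : ∀ v, v ≠ 0 → ∃ p ∈ Pset, f v p ≠ 0)
    (hcon : ∀ p ∈ Pset, ∀ p' ∈ Pset, p ≠ 0 → p' ≠ 0 → ∃ r ∈ Pset, f p r ≠ 0 ∧ f p' r ≠ 0)
    (v : ι → F) (c : F) : T hf v c ∈ M := by
  let K : Set (ι → F) := {x | ∀ c, T hf x c ∈ M}
  have hsm : ∀ (a : F) x, x ∈ K → a • x ∈ K := fun a x hx c => by rw [T_smul hf]; exact hx _
  have h0 : (0 : ι → F) ∈ K := fun c => by
    rw [show T hf 0 c = 1 from gl_ext fun x => by simp [ap_T hf]]; exact one_mem M
  have one : ∀ x y (a : F), x ∈ K → y ∈ K → f x y ≠ 0 → x + a • y ∈ K := by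
    intro x y a hx hy hne c
    have h := mul_mem (mul_mem (hy (a / f x y)) (hx c)) (inv_mem (hy (a / f x y)))
    rwa [conj_T hf (hM (hy _)), ap_T hf, div_mul_cancel₀ _ hne] at h
  have three : ∀ x y z, x ∈ K → y ∈ K → z ∈ K → f x z ≠ 0 → f y z ≠ 0 → f (x + y) z ≠ 0 →
      x + y ∈ K := by
    intro x y z hx hy hz h1 h2' h3
    by_cases hxy : f x y = 0
    swap
    · simpa using one x y 1 hx hy hxy
    have ha := one x z 1 hx hz h1
    have hb := one _ y 1 ha hy (by
      rw [one_smul, hf.bilinear.add_left, hxy, zero_add, hf.skew, neg_ne_zero]; exact h2')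
    have hc := one _ z (-1) hb hz (by
      simp only [one_smul, hf.bilinear.add_left, hf.alternating z, add_zero]
      rwa [← hf.bilinear.add_left])
    rwa [show x + (1 : F) • z + (1 : F) • y + (-1 : F) • z = x + y by module] at hc
  have wit : ∀ x y, x ∈ K → y ∈ K → x ≠ 0 → y ≠ 0 → f x y = 0 →
      ∃ z ∈ K, f x z ≠ 0 ∧ f y z ≠ 0 := by
    intro x y _ _ hx0 hy0 _
    obtain ⟨p, hp, hxp⟩ := hsep x hx0
    obtain ⟨q, hq, hyq⟩ := hsep y hy0
    by_cases hyp : f y p ≠ 0
    · exact ⟨p, hP p hp, hxp, hyp⟩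
    by_cases hxq : f x q ≠ 0
    · exact ⟨q, hP q hq, hxq, hyq⟩
    push Not at hyp hxq
    have hp0 : p ≠ 0 := fun h => hxp (by rw [h, zero_right hf])
    have hq0 : q ≠ 0 := fun h => hyq (by rw [h, zero_right hf])
    by_cases hpq : f p q ≠ 0
    · refine ⟨p + (1 : F) • q, one p q 1 (hP p hp) (hP q hq) hpq, ?_, ?_⟩
      · rw [one_smul, hf.bilinear.add_right, hxq, add_zero]; exact hxp
      · rw [one_smul, hf.bilinear.add_right, hyp, zero_add]; exact hyq
    push Not at hpq
    obtain ⟨r, hr, hpr, hqr⟩ := hcon p hp q hq hp0 hq0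
    by_cases hxr : f x r ≠ 0
    · by_cases hyr : f y r ≠ 0
      · exact ⟨r, hP r hr, hxr, hyr⟩
      push Not at hyr
      refine ⟨r + (1 : F) • q, one r q 1 (hP r hr) (hP q hq)
        (by rw [hf.skew, neg_ne_zero]; exact hqr), ?_, ?_⟩
      · rw [one_smul, hf.bilinear.add_right, hxq, add_zero]; exact hxr
      · rw [one_smul, hf.bilinear.add_right, hyr, zero_add]; exact hyq
    push Not at hxr
    by_cases hyr : f y r ≠ 0
    · refine ⟨p + (1 : F) • r, one p r 1 (hP p hp) (hP r hr) hpr, ?_, ?_⟩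
      · rw [one_smul, hf.bilinear.add_right, hxr, add_zero]; exact hxp
      · rw [one_smul, hf.bilinear.add_right, hyp, zero_add]; exact hyr
    push Not at hyr
    refine ⟨p + (1 : F) • r + (1 : F) • q, one _ q 1 (one p r 1 (hP p hp) (hP r hr) hpr) (hP q hq)
      ?_, ?_, ?_⟩
    · rw [one_smul, hf.bilinear.add_left, hpq, zero_add, hf.skew, neg_ne_zero]; exact hqr
    · simp only [one_smul, hf.bilinear.add_right, hxr, hxq, add_zero]; exact hxp
    · simp only [one_smul, hf.bilinear.add_right, hyp, hyr, add_zero, zero_add]; exact hyq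
  have hadd : ∀ x y, x ∈ K → y ∈ K → x + y ∈ K := by
    intro x y hx hy
    by_cases hv0 : x + y = 0
    · rw [hv0]; exact h0
    by_cases hx0 : x = 0
    · rwa [hx0, zero_add]
    by_cases hy0 : y = 0
    · rwa [hy0, add_zero]
    by_cases hxy : f x y = 0
    swap
    · simpa using one x y 1 hx hy hxy
    obtain ⟨z, hz, hxz, hyz⟩ := wit x y hx hy hx0 hy0 hxy
    by_cases hs : f (x + y) z ≠ 0
    · exact three x y z hx hy hz hxz hyz hs
    push Not at hs
    obtain ⟨p, hp, hvp⟩ := hsep _ hv0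
    -- moving the witness off the orthogonal of the sum
    have key : ∀ x y z, x ∈ K → y ∈ K → z ∈ K → f x y = 0 → f x z ≠ 0 → f y z ≠ 0 →
        f (x + y) z = 0 → f x p ≠ 0 → f (x + y) p ≠ 0 → x + y ∈ K := by
      intro x y z hx hy hz hxy hxz hyz hs hxp hvp
      by_cases hyp : f y p = 0
      swap
      · exact three x y p hx hy (hP p hp) hxp hyp hvp
      have hw : x + (1 : F) • p ∈ K := one x p 1 hx (hP p hp) hxp
      -- a direction moving the witness
      obtain ⟨w, hwK, hzw, hxw, hyw⟩ : ∃ w ∈ K, f z w ≠ 0 ∧ f x w = f x p ∧ f y w = 0 := by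
        by_cases hzp : f z p = 0
        · refine ⟨x + (1 : F) • p, hw, ?_, ?_, ?_⟩
          · rw [one_smul, hf.bilinear.add_right, hzp, add_zero]
            exact fun h => hxz ((eq_zero_comm hf).mp h)
          · rw [one_smul, hf.bilinear.add_right, hf.alternating, zero_add]
          · rw [one_smul, hf.bilinear.add_right, (eq_zero_comm hf).mp hxy, hyp, add_zero]
        · exact ⟨p, hP p hp, hzp, rfl, hyp⟩
      obtain ⟨a, ha, hax⟩ : ∃ a : F, a ≠ 0 ∧ f x z + a * f x p ≠ 0 := by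
        by_cases h1 : f x z + f x p = 0
        · refine ⟨-1, by simp, fun h => hxz (mul_left_cancel₀ h2 ?_)⟩
          linear_combination h + h1
        · exact ⟨1, one_ne_zero, by simpa using h1⟩
      refine three x y _ hx hy (one z w a hz hwK hzw) ?_ ?_ ?_
      · rwa [hf.bilinear.add_right, hf.bilinear.smul_right, hxw]
      · rw [hf.bilinear.add_right, hf.bilinear.smul_right, hyw, mul_zero, add_zero]; exact hyz
      · rw [hf.bilinear.add_right, hs, zero_add, hf.bilinear.smul_right, hf.bilinear.add_left,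
          hxw, hyw, add_zero]
        exact mul_ne_zero ha hxp
    by_cases hxp : f x p = 0
    · have hyp : f y p ≠ 0 := fun h => hvp (by rw [hf.bilinear.add_left, hxp, h, add_zero])
      rw [add_comm] at hs hvp ⊢
      exact key y x z hy hx hz ((eq_zero_comm hf).mp hxy) hyz hxz hs hyp hvp
    · exact key x y z hx hy hz hxy hxz hyz hs hxp hvp
  let S : Submodule F (ι → F) :=
    { carrier := K, add_mem' := fun ha hb => hadd _ _ ha hb, zero_mem' := h0, smul_mem' := hsm }
  have htop : v ∈ S := by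
    by_contra hv
    obtain ⟨w, hw, hvw⟩ := exists_perp_ne hf (U := S) (x := v) hv
    have hw0 : w ≠ 0 := fun h => hvw (by rw [h, zero_right hf])
    obtain ⟨p, hp, hwp⟩ := hsep w hw0
    exact hwp (hw p (hP p hp))
  exact htop c

end Symp

namespace SOTensor.Data

variable {f : (ι → F) → (ι → F) → F} {n : ℕ} {e : ι ≃ Fin 2 × Fin n} {P : GL ι F}
  {f₁ : (Fin 2 → F) → (Fin 2 → F) → F} {f₂ : (Fin n → F) → (Fin n → F) → F}
variable [Finite F] (hT : Data f e P f₁ f₂)
include hT

/-- Two non-zero singular vectors pair non-trivially with a common singular vector. -/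
lemma exists_common {σ τ : Fin n → F} (hσ : σ ≠ 0) (hQσ : f₂ σ σ = 0) (hτ : τ ≠ 0)
    (hQτ : f₂ τ τ = 0) : ∃ r, r ≠ 0 ∧ f₂ r r = 0 ∧ f₂ σ r ≠ 0 ∧ f₂ τ r ≠ 0 := by
  have h2 := hT.two
  by_cases hd : τ ∈ Submodule.span F {σ}
  · obtain ⟨a, rfl⟩ := Submodule.mem_span_singleton.mp hd
    obtain ⟨r, hr, hQr⟩ := hT.exists_partner hσ hQσ
    have ha : a ≠ 0 := fun h => hτ (by rw [h, zero_smul])
    refine ⟨r, fun h => one_ne_zero (α := F) (by rw [← hr, h, hT.zero_left₂]), hQr, ?_, ?_⟩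
    · rw [hT.symm₂.symm, hr]; exact one_ne_zero
    · rw [hT.symm₂.bilinear.smul_left, hT.symm₂.symm, hr, mul_one]; exact ha
  by_cases hst : f₂ σ τ = 0
  · obtain ⟨φ, hφ, hφτ⟩ := exists_functional_eq_one hd
    obtain ⟨ψ, -, hψσ⟩ := exists_functional_eq_one (U := ⊥) (x := σ) (by simpa using hσ)
    have hφσ : φ σ = 0 := hφ σ (Submodule.mem_span_singleton_self _)
    obtain ⟨y, hy⟩ := hT.exists_eq_fr (ψ + (1 - ψ τ) • φ)
    have h1 : f₂ σ y = 1 := by
      rw [← fr_apply hT y, hy]; simp [hψσ, hφσ]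
    have h1' : f₂ τ y = 1 := by
      rw [← fr_apply hT y, hy]; simp [hφτ]
    set r := y + (-(f₂ y y) / 2) • σ with hr
    have e1 : f₂ σ r = 1 := by
      rw [hr, hT.symm₂.bilinear.add_right, hT.symm₂.bilinear.smul_right, hQσ, h1, mul_zero,
        add_zero]
    have e2 : f₂ τ r = 1 := by
      rw [hr, hT.symm₂.bilinear.add_right, hT.symm₂.bilinear.smul_right, hT.symm₂.symm τ σ, hst,
        h1', mul_zero, add_zero]
    refine ⟨r, fun h => one_ne_zero (α := F) (by rw [← e1, h, hT.zero_right₂]), ?_,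
      by rw [e1]; exact one_ne_zero, by rw [e2]; exact one_ne_zero⟩
    rw [hr, hT.q_add_smul, hQσ, hT.symm₂.symm y σ, h1]
    field_simp
    ring
  · obtain ⟨w, hwσ, hwτ, hw⟩ := hT.exists_aniso_perp σ τ
    set l := -(f₂ w w) / (2 * f₂ σ τ) with hl
    set r := τ + l • σ + w with hr
    have e1 : f₂ σ r = f₂ σ τ := by
      rw [hr, hT.symm₂.bilinear.add_right, hT.symm₂.bilinear.add_right,
        hT.symm₂.bilinear.smul_right, hQσ, hT.symm₂.symm σ w, hwσ, mul_zero, add_zero, add_zero]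
    have e2 : f₂ τ r = l * f₂ σ τ := by
      rw [hr, hT.symm₂.bilinear.add_right, hT.symm₂.bilinear.add_right,
        hT.symm₂.bilinear.smul_right, hQτ, hT.symm₂.symm τ w, hwτ, hT.symm₂.symm τ σ, zero_add,
        add_zero]
    refine ⟨r, fun h => hst (by rw [← e1, h, hT.zero_right₂]), ?_, by rw [e1]; exact hst, ?_⟩
    · rw [hr, hT.q_add, hT.q_add_smul, hQσ, hQτ, hT.symm₂.bilinear.add_left,
        hT.symm₂.bilinear.smul_left, hT.symm₂.symm τ w, hwτ, hT.symm₂.symm σ w, hwσ,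
        hT.symm₂.symm τ σ, hl]
      field_simp
      ring
    · rw [e2, hl]
      exact mul_ne_zero (div_ne_zero (neg_ne_zero.mpr hw) (mul_ne_zero h2 hst)) hst

/-- One transvection at a pure tensor gives all transvections. -/
theorem T_mem_of_one {M : Subgroup (GL ι F)} (hM : M ≤ isom f)
    (hH : ∀ a ∈ isom f₁, ∀ b ∈ isom f₂, kron e P a b ∈ M) {s : Fin n → F} (hs : s ≠ 0)
    (hQs : f₂ s s = 0) {u : Fin 2 → F} {κ : F} (hu : u ≠ 0) (hκ : κ ≠ 0)
    (h : Symp.T hT.symp (pt e P u s) κ ∈ M) (v : ι → F) (c : F) : Symp.T hT.symp v c ∈ M := by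
  have hmove : ∀ {a : GL (Fin 2) F} {b : GL (Fin n) F}, a ∈ isom f₁ → b ∈ isom f₂ →
      ∀ (x : Fin 2 → F) (y : Fin n → F) (t : F), Symp.T hT.symp (pt e P x y) t ∈ M →
        Symp.T hT.symp (pt e P (ap a x) (ap b y)) t ∈ M := by
    intro a b ha hb x y t ht
    have := M.mul_mem (M.mul_mem (hH a ha b hb) ht) (M.inv_mem (hH a ha b hb))
    rwa [Symp.conj_T hT.symp (hT.kron_isom ha hb), ap_kron] at this
  -- all transvections at the slice of `s`
  have hsl : ∀ (x : Fin 2 → F) (t : F), Symp.T hT.symp (pt e P x s) t ∈ M := by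
    intro x t
    by_cases hx : x = 0
    · rw [show Symp.T hT.symp (pt e P x s) t = 1 from gl_ext fun z => by
        simp [Symp.ap_T, hx, pt_zero_left]]
      exact one_mem M
    have hsq : ∀ a : F, Symp.T hT.symp (pt e P x s) (a * a * κ) ∈ M := by
      intro a
      by_cases ha : a = 0
      · simp [ha, Symp.T_zero_right]
      obtain ⟨g, hg, hgx⟩ := Symp.exists_isom_map hT.symp₁ hu (smul_ne_zero ha hx)
      have := hmove hg (one_mem _) u s κ h
      rwa [hgx, ap_one, pt_smul_left, Symp.T_smul] at this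
    obtain ⟨a, b, hab⟩ := Orth.exists_combination (F := F) one_ne_zero one_ne_zero hT.two (t / κ)
    have := M.mul_mem (hsq a) (hsq b)
    rw [Symp.T_mul] at this
    convert this using 2
    field_simp at hab
    linear_combination -hab
  -- all singular vectors
  have hone : ∀ σ τ : Fin n → F, f₂ σ σ = 0 → f₂ τ τ = 0 → f₂ σ τ ≠ 0 →
      (∀ x t, Symp.T hT.symp (pt e P x σ) t ∈ M) → ∀ x t, Symp.T hT.symp (pt e P x τ) t ∈ M := by
    intro σ τ hσ hτ hne hall x t
    have hq : f₂ (σ + (-1 : F) • τ) (σ + (-1 : F) • τ) = -(2 * f₂ σ τ) := by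
      rw [hT.q_add_smul, hσ, hτ]; ring
    have hq0 : f₂ (σ + (-1 : F) • τ) (σ + (-1 : F) • τ) ≠ 0 := by
      rw [hq]; exact neg_ne_zero.mpr (mul_ne_zero hT.two hne)
    have := hmove (one_mem (isom f₁)) (hT.r_mem hq0) x σ t (hall x t)
    rw [ap_one, hT.ap_r] at this
    have e1 : f₂ σ (σ + (-1 : F) • τ) = -f₂ σ τ := by
      rw [hT.symm₂.bilinear.add_right, hT.symm₂.bilinear.smul_right, hσ]; ring
    rw [hq, e1] at this
    have h2 := hT.two
    have e2 : σ - (2 / -(2 * f₂ σ τ) * -f₂ σ τ) • (σ + (-1 : F) • τ) = τ := by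
      rw [show 2 / -(2 * f₂ σ τ) * -f₂ σ τ = 1 by field_simp]
      module
    rwa [e2] at this
  have hall : ∀ τ : Fin n → F, τ ≠ 0 → f₂ τ τ = 0 → ∀ x t, Symp.T hT.symp (pt e P x τ) t ∈ M := by
    intro τ hτ hQτ
    obtain ⟨r, -, hQr, h1, h2⟩ := hT.exists_common hs hQs hτ hQτ
    exact hone r τ hQr hQτ (by rw [hT.symm₂.symm]; exact h2) (hone s r hQs hQr h1 hsl)
  refine Symp.T_mem_of_connected hT.symp hT.two hM
    (Pset := {p | ∃ x σ, σ ≠ 0 ∧ f₂ σ σ = 0 ∧ pt e P x σ = p}) ?_ ?_ ?_ v c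
  · rintro _ ⟨x, σ, hσ, hQσ, rfl⟩ t
    exact hall σ hσ hQσ x t
  · intro z hz
    by_contra hc
    push Not at hc
    have hsing : ∀ σ : Fin n → F, σ ≠ 0 → f₂ σ σ = 0 → hT.cc σ z = 0 := by
      intro σ hσ hQσ
      by_contra hne
      obtain ⟨x, hx⟩ := (hT.symp₁.nondegenerate _ hne).2
      exact hx (by rw [← hT.f_pt]; exact hc _ ⟨x, σ, hσ, hQσ, rfl⟩)
    have hcs : hT.cc s z = 0 := hsing s hs hQs
    have hns : ∀ y, f₂ y s ≠ 0 → hT.cc y z = 0 := by
      intro y hy
      set l := -(f₂ y y) / (2 * f₂ y s) with hl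
      have hσ : f₂ (y + l • s) (y + l • s) = 0 := by
        rw [hT.q_add_smul, hQs, hl]
        have := hT.two
        field_simp
        ring
      have hσ0 : y + l • s ≠ 0 := fun h0 => hy (by
        rw [eq_neg_of_add_eq_zero_left h0, ← neg_smul, hT.symm₂.bilinear.smul_left, hQs, mul_zero])
      have := hsing _ hσ0 hσ
      rwa [hT.cc_add, hT.cc_smul, LinearMap.add_apply, LinearMap.smul_apply, hcs, smul_zero,
        add_zero] at this
    have hall' : ∀ y, hT.cc y z = 0 := by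
      intro y
      by_cases hy : f₂ y s = 0
      · obtain ⟨t, ht, -⟩ := hT.exists_partner hs hQs
        have := hns (y + t) (by rw [hT.symm₂.bilinear.add_left, hy, ht, zero_add]; exact one_ne_zero)
        rwa [hT.cc_add, LinearMap.add_apply, hns t (by rw [ht]; exact one_ne_zero), add_zero] at this
      · exact hns y hy
    obtain ⟨w, hw⟩ := (hT.symp.nondegenerate z hz).2
    refine hw (LinearMap.congr_fun (ext_pt e P (f := (Symp.fl hT.symp).flip z) (g := 0)
      fun a y => ?_) w)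
    rw [LinearMap.flip_apply, Symp.fl_apply, hT.f_pt, hall', Symp.zero_left hT.symp₁,
      LinearMap.zero_apply]
  · rintro _ ⟨x, σ, hσ, hQσ, rfl⟩ _ ⟨y, τ, hτ, hQτ, rfl⟩ hp hq
    have hx : x ≠ 0 := fun h => hp (by rw [h, pt_zero_left])
    have hy : y ≠ 0 := fun h => hq (by rw [h, pt_zero_left])
    obtain ⟨r, hr, hQr, h1, h2⟩ := hT.exists_common hσ hQσ hτ hQτ
    have hk : ∀ x : Fin 2 → F, x ≠ 0 → ¬ (⊤ : Submodule F (Fin 2 → F)) ≤
        LinearMap.ker ((Symp.fl hT.symp₁).flip x) := fun x hx hle => by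
      obtain ⟨p, hp⟩ := (hT.symp₁.nondegenerate x hx).2
      exact hp (hle (Submodule.mem_top (x := p)))
    obtain ⟨z, -, hz1, hz2⟩ := exists_mem_notMem_notMem (hk x hx) (hk y hy)
    refine ⟨pt e P z r, ⟨z, r, hr, hQr, rfl⟩, ?_, ?_⟩
    · rw [hT.form]; exact mul_ne_zero hz1 h1
    · rw [hT.form]; exact mul_ne_zero hz2 h2

/-- The stabiliser of the tensor decomposition is maximal. -/
theorem isMaximalIn :
    Cfsg.Geo.IsMaximalIn (isom f) (Cfsg.Geo.tensorProductSubgroup 2 n e P ⊓ isom f) := by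
  refine ⟨lt_of_le_of_ne inf_le_right fun he => ?_, fun M hHM hMS => ?_⟩
  · obtain ⟨s, -, hs, hQs⟩ := hT.exists_singular (N := ⊤)
      (by rw [finrank_top, Module.finrank_fin_fun]; have := hT.four; omega)
    obtain ⟨u₁, u₂, h12, -⟩ := hT.exists_basis₁
    obtain ⟨t, ht, hQt⟩ := hT.exists_partner hs hQs
    have hm := (inf_eq_right.mp he) (Symp.T_mem_isom hT.symp (pt e P u₁ s) 1)
    obtain ⟨b, hb⟩ := hT.of_fix_slice hm hs fun u => by
      rw [Symp.ap_T, hT.form, hQs, mul_zero, mul_zero, zero_smul, add_zero]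
    have hu1 : u₁ ≠ 0 := fun h => one_ne_zero (α := F) (by
      rw [← h12, h, Symp.zero_left hT.symp₁])
    have hu2 : u₂ ≠ 0 := fun h => one_ne_zero (α := F) (by
      rw [← h12, h, Symp.zero_right hT.symp₁])
    have h1 := hb u₁ t
    rw [Symp.ap_T, hT.form, hT.symp₁.alternating, zero_mul, mul_zero, zero_smul, add_zero] at h1
    have h2 := hb u₂ t
    rw [← pt_inj_right e P hu1 h1, Symp.ap_T, hT.form, ht, mul_one, one_mul, add_eq_left,
      hT.symp₁.skew, h12, smul_eq_zero] at h2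
    exact h2.elim (fun h => one_ne_zero (neg_eq_zero.mp h)) (pt_ne_zero e P hu1 hs)
  have hH : ∀ a ∈ isom f₁, ∀ b ∈ isom f₂, kron e P a b ∈ M := fun a ha b hb =>
    hHM ⟨kron_mem e P a b, hT.kron_isom ha hb⟩
  by_cases hM : M ≤ Cfsg.Geo.tensorProductSubgroup 2 n e P
  · exact Or.inl (le_antisymm (le_inf hM hMS) hHM)
  obtain ⟨g, hg, hgT⟩ := SetLike.not_le_iff_exists.mp hM
  obtain ⟨k, hk, hkT, s, hs, hQs, hfix⟩ : hT.HasFix M := by
    by_cases h5 : 5 ≤ n
    · exact hT.exists_fix_singular h5 hMS hH hg hgT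
    · exact hT.exists_fix_singular_four (by have := hT.four; omega) hMS hH hg hgT
  obtain ⟨u, κ, hu, hκ, hTm⟩ := hT.exists_transvection hs hQs hMS hH hk hkT hfix
  exact Or.inr (le_antisymm hMS
    (Symp.isom_le_of_T_mem hT.symp fun v c => hT.T_mem_of_one hMS hH hs hQs hu hκ hTm v c))

end SOTensor.Data

lemma isSymmetricForm_const_mul {n : ℕ} {f₂ : (Fin n → F) → (Fin n → F) → F}
    (hf₂ : Cfsg.Geo.IsSymmetricForm f₂) {c : F} (hc : c ≠ 0) :
    Cfsg.Geo.IsSymmetricForm (fun x y => c * f₂ x y) :=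
  { bilinear :=
      { add_left := fun x y v => by rw [hf₂.bilinear.add_left, mul_add]
        smul_left := fun a x v => by rw [hf₂.bilinear.smul_left, mul_left_comm]
        add_right := fun v x y => by rw [hf₂.bilinear.add_right, mul_add]
        smul_right := fun a v x => by rw [hf₂.bilinear.smul_right, mul_left_comm] }
    symm := fun x y => by rw [hf₂.symm]
    nondegenerate := fun v hv =>
      ⟨(hf₂.nondegenerate v hv).1.imp fun x hx => mul_ne_zero hc hx,
        (hf₂.nondegenerate v hv).2.imp fun x hx => mul_ne_zero hc hx⟩ }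

/-- The data from a tensor form structure. -/
theorem symp_two_tensor_isMaximalIn [Fintype F] {f : (ι → F) → (ι → F) → F} {n : ℕ}
    (hf : Cfsg.Geo.IsSymplecticForm f) (hodd : Odd (Fintype.card F)) (hn : 5 ≤ n)
    {e : ι ≃ Fin 2 × Fin n} {P : GL ι F} {f₁ : (Fin 2 → F) → (Fin 2 → F) → F}
    {f₂ : (Fin n → F) → (Fin n → F) → F} (hf₁ : Cfsg.Geo.IsSymplecticForm f₁)
    (hf₂ : Cfsg.Geo.IsSymmetricForm f₂)
    (hT : Cfsg.Geo.IsTensorFormStructure id f f₁ f₂ e P) :
    Cfsg.Geo.IsMaximalIn (isom f) (Cfsg.Geo.tensorProductSubgroup 2 n e P ⊓ isom f) := by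
  obtain ⟨c, hc, hform⟩ := Tensor.form_pt e P (σ := RingHom.id F)
    (Orth.bilinear_eq_formOfGram hf₁.bilinear) (Orth.bilinear_eq_formOfGram hf₂.bilinear) hT
  exact SOTensor.Data.isMaximalIn (f₁ := f₁) (f₂ := fun x y => c * f₂ x y)
    { symp := hf, symp₁ := hf₁, symm₂ := isSymmetricForm_const_mul hf₂ hc,
      two := Orth.two_ne_zero_of_odd hodd, four := by omega,
      witt := fun h => absurd h (by omega),
      form := fun x x' y y' => by rw [hform]; ring }

/-- The second factor of dimension four and minus type. -/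
theorem symp_two_four_tensor_isMaximalIn [Fintype F] {f : (ι → F) → (ι → F) → F}
    (hf : Cfsg.Geo.IsSymplecticForm f) (hodd : Odd (Fintype.card F))
    {e : ι ≃ Fin 2 × Fin 4} {P : GL ι F} {f₁ : (Fin 2 → F) → (Fin 2 → F) → F}
    {f₂ : (Fin 4 → F) → (Fin 4 → F) → F} (hf₁ : Cfsg.Geo.IsSymplecticForm f₁)
    (hf₂ : Cfsg.Geo.IsSymmetricForm f₂)
    (hminus : ¬ Cfsg.Geo.IsPlusTypeOn (fun v : Fin 4 → F => f₂ v v) ⊤)
    (hT : Cfsg.Geo.IsTensorFormStructure id f f₁ f₂ e P) :
    Cfsg.Geo.IsMaximalIn (isom f) (Cfsg.Geo.tensorProductSubgroup 2 4 e P ⊓ isom f) := by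
  obtain ⟨c, hc, hform⟩ := Tensor.form_pt e P (σ := RingHom.id F)
    (Orth.bilinear_eq_formOfGram hf₁.bilinear) (Orth.bilinear_eq_formOfGram hf₂.bilinear) hT
  refine SOTensor.Data.isMaximalIn (f₁ := f₁) (f₂ := fun x y => c * f₂ x y)
    { symp := hf, symp₁ := hf₁, symm₂ := isSymmetricForm_const_mul hf₂ hc,
      two := Orth.two_ne_zero_of_odd hodd, four := le_rfl, witt := fun _ N hN => ?_,
      form := fun x x' y y' => by rw [hform]; ring }
  by_contra hcon
  push Not at hcon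
  refine hminus ?_
  obtain ⟨v, hv⟩ := exists_linearIndependent_of_le_finrank hN
  have hvi : LinearIndependent F fun i => (v i : Fin 4 → F) := hv.map' N.subtype N.ker_subtype
  refine ⟨Submodule.span F (Set.range fun i => (v i : Fin 4 → F)), le_top, fun w hw => ?_, ?_⟩
  · have hwN : w ∈ N := Submodule.span_le.mpr (Set.range_subset_iff.mpr fun i => (v i).2) hw
    exact (mul_eq_zero.mp (hcon w hwN)).resolve_left hc
  · rw [finrank_span_eq_card hvi, Fintype.card_fin, finrank_top, Module.finrank_fin_fun]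

end CfsgLib.Geometric
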