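import Cfsg.Agent.Lib.Geometric.TensorMaps
import Cfsg.Agent.Lib.Geometric.SympAlgebra
import Cfsg.Agent.Lib.Geometric.Orth.Values

/-!
A symplectic form that is the tensor product of a symplectic form on `F^2` and a symmetric form on
`F^n`, in odd characteristic: contractions, factorwise isometries, vectors with prescribed values.
-/

set_option autoImplicit false
set_option linter.unusedSectionVars false

namespace CfsgLib.Geometric.SOTensor

open Matrix Tensor

variable {ι : Type} [Fintype ι] [DecidableEq ι] {F : Type*} [Field F]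
variable {f : (ι → F) → (ι → F) → F} {n : ℕ} {e : ι ≃ Fin 2 × Fin n} {P : GL ι F}
  {f₁ : (Fin 2 → F) → (Fin 2 → F) → F} {f₂ : (Fin n → F) → (Fin n → F) → F}

/-- `f` is the tensor product of `f₁` and `f₂`. -/
structure Data (f : (ι → F) → (ι → F) → F) (e : ι ≃ Fin 2 × Fin n) (P : GL ι F)
    (f₁ : (Fin 2 → F) → (Fin 2 → F) → F) (f₂ : (Fin n → F) → (Fin n → F) → F) : Prop where
  symp : Cfsg.Geo.IsSymplecticForm f
  symp₁ : Cfsg.Geo.IsSymplecticForm f₁
  symm₂ : Cfsg.Geo.IsSymmetricForm f₂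
  two : (2 : F) ≠ 0
  four : 4 ≤ n
  witt : n ≤ 4 → ∀ N : Submodule F (Fin n → F), 2 ≤ Module.finrank F N → ∃ x ∈ N, f₂ x x ≠ 0
  form : ∀ x x' y y', f (pt e P x y) (pt e P x' y') = f₁ x x' * f₂ y y'

namespace Data

variable (hT : Data f e P f₁ f₂)
include hT

lemma zero_right₂ (v : Fin n → F) : f₂ v 0 = 0 := by
  simpa using hT.symm₂.bilinear.smul_right 0 v 0

lemma zero_left₂ (v : Fin n → F) : f₂ 0 v = 0 := by
  simpa using hT.symm₂.bilinear.smul_left 0 0 v

omit hT in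
/-- The linear map `v ↦ f₂(·, v)`. -/
def fr (hT : Data f e P f₁ f₂) : (Fin n → F) →ₗ[F] Module.Dual F (Fin n → F) :=
  LinearMap.mk₂ F (fun v x => f₂ x v) (fun v v' x => hT.symm₂.bilinear.add_right x v v')
    (fun c v x => hT.symm₂.bilinear.smul_right c x v)
    (fun v x x' => hT.symm₂.bilinear.add_left x x' v)
    (fun c v x => hT.symm₂.bilinear.smul_left c x v)

@[simp] lemma fr_apply (v x : Fin n → F) : hT.fr v x = f₂ x v := rfl

lemma exists_eq_fr (φ : Module.Dual F (Fin n → F)) : ∃ v, hT.fr v = φ := by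
  have hinj : Function.Injective hT.fr := by
    rw [injective_iff_map_eq_zero]
    intro v hv
    by_contra h
    obtain ⟨x, hx⟩ := (hT.symm₂.nondegenerate v h).1
    exact hx (by simpa using congrArg (fun φ : Module.Dual F (Fin n → F) => φ x) hv)
  exact (LinearMap.injective_iff_surjective_of_finrank_eq_finrank
    Subspace.dual_finrank_eq.symm).mp hinj φ

omit hT in
/-- Contraction with `f₂(·, v)`. -/
def cc (hT : Data f e P f₁ f₂) (v : Fin n → F) : (ι → F) →ₗ[F] (Fin 2 → F) :=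
  con e P (hT.fr v)

@[simp] lemma cc_pt (v : Fin n → F) (a : Fin 2 → F) (y : Fin n → F) :
    hT.cc v (pt e P a y) = f₂ y v • a := by simp [cc]

lemma cc_add (v v' : Fin n → F) : hT.cc (v + v') = hT.cc v + hT.cc v' := by
  rw [cc, map_add, con_add]; rfl

lemma cc_smul (c : F) (v : Fin n → F) : hT.cc (c • v) = c • hT.cc v := by
  rw [cc, map_smul, con_smul]; rfl

/-- Pairing with a pure tensor. -/
lemma f_pt (x : ι → F) (u : Fin 2 → F) (y : Fin n → F) :
    f x (pt e P u y) = f₁ (hT.cc y x) u := by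
  have h : Symp.fl hT.symp (pt e P u y) = (Symp.fl hT.symp₁ u).comp (hT.cc y) :=
    ext_pt e P fun a z => by
      simp only [Symp.fl_apply, LinearMap.comp_apply, cc_pt, hT.form,
        hT.symp₁.bilinear.smul_left]
      ring
  simpa using LinearMap.congr_fun h x

lemma pt_f (x : ι → F) (u : Fin 2 → F) (y : Fin n → F) :
    f (pt e P u y) x = f₁ u (hT.cc y x) := by
  rw [hT.symp.skew, hT.f_pt, hT.symp₁.skew u]

lemma kron_isom {a : GL (Fin 2) F} {b : GL (Fin n) F} (ha : a ∈ isom f₁) (hb : b ∈ isom f₂) :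
    kron e P a b ∈ isom f := by
  let B : (ι → F) →ₗ[F] (ι → F) →ₗ[F] F := (Symp.fl hT.symp).flip
  have h : B.compl₁₂ (apEquiv (kron e P a b)).toLinearMap (apEquiv (kron e P a b)).toLinearMap = B :=
    ext_pt e P fun u z => ext_pt e P fun u' z' => by
      simp only [B, LinearMap.compl₁₂_apply, LinearEquiv.coe_coe, apEquiv_apply, ap_kron,
        LinearMap.flip_apply, Symp.fl_apply, hT.form, mem_isom_iff.mp ha u u',
        mem_isom_iff.mp hb z z']
  exact fun x y => LinearMap.congr_fun (LinearMap.congr_fun h x) y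

/-- The quadratic values of a sum. -/
lemma q_add (x y : Fin n → F) : f₂ (x + y) (x + y) = f₂ x x + 2 * f₂ x y + f₂ y y := by
  rw [hT.symm₂.bilinear.add_left, hT.symm₂.bilinear.add_right, hT.symm₂.bilinear.add_right,
    hT.symm₂.symm y x]
  ring

lemma q_add_smul (x y : Fin n → F) (t : F) :
    f₂ (x + t • y) (x + t • y) = f₂ x x + 2 * t * f₂ x y + t * t * f₂ y y := by
  rw [hT.q_add, hT.symm₂.bilinear.smul_right, hT.symm₂.bilinear.smul_left,
    hT.symm₂.bilinear.smul_right]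
  ring

lemma q_smul (c : F) (x : Fin n → F) : f₂ (c • x) (c • x) = c * c * f₂ x x := by
  rw [hT.symm₂.bilinear.smul_left, hT.symm₂.bilinear.smul_right, mul_assoc]

/-- A space of vectors of value zero is totally isotropic. -/
lemma f_eq_zero_of_singular {N : Submodule F (Fin n → F)} (h : ∀ x ∈ N, f₂ x x = 0) {x y : Fin n → F}
    (hx : x ∈ N) (hy : y ∈ N) : f₂ x y = 0 := by
  have := h _ (N.add_mem hx hy)
  rw [hT.q_add, h x hx, h y hy, zero_add, add_zero, mul_eq_zero] at this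
  exact this.resolve_left hT.two

/-- A large subspace has a vector of non-zero value. -/
lemma exists_aniso {N : Submodule F (Fin n → F)} (hN : n < 2 * Module.finrank F N) :
    ∃ x ∈ N, f₂ x x ≠ 0 := by
  by_contra hc
  push Not at hc
  let ψ := hT.fr ∘ₗ N.subtype
  have hinj : Function.Injective ψ := by
    rw [injective_iff_map_eq_zero]
    intro w hw
    refine Subtype.ext (by_contra fun hne => ?_)
    obtain ⟨x, hx⟩ := (hT.symm₂.nondegenerate (w : Fin n → F) hne).1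
    exact hx (LinearMap.congr_fun hw x)
  have hle : LinearMap.range ψ ≤ N.dualAnnihilator := by
    rintro _ ⟨w, rfl⟩
    rw [Submodule.mem_dualAnnihilator]
    exact fun x hx => hT.f_eq_zero_of_singular hc hx w.2
  have h1 := Subspace.finrank_add_finrank_dualAnnihilator_eq N
  rw [Module.finrank_fin_fun] at h1
  have h2 := Submodule.finrank_mono hle
  rw [LinearMap.finrank_range_of_inj hinj] at h2
  omega

/-- The vectors orthogonal to two given ones. -/
lemma finrank_perp_two (a b : Fin n → F) :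
    n ≤ Module.finrank F (LinearMap.ker ((hT.fr a).prod (hT.fr b))) + 2 := by
  have h1 := LinearMap.finrank_range_add_finrank_ker ((hT.fr a).prod (hT.fr b))
  have h2 := Submodule.finrank_le (LinearMap.range ((hT.fr a).prod (hT.fr b)))
  rw [Module.finrank_fin_fun] at h1
  rw [Module.finrank_prod, Module.finrank_self] at h2
  omega

lemma exists_aniso_perp (a b : Fin n → F) :
    ∃ w, f₂ w a = 0 ∧ f₂ w b = 0 ∧ f₂ w w ≠ 0 := by
  have h := hT.finrank_perp_two a b
  have := hT.four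
  obtain ⟨w, hw, hne⟩ : ∃ w ∈ LinearMap.ker ((hT.fr a).prod (hT.fr b)), f₂ w w ≠ 0 := by
    by_cases h4 : n ≤ 4
    · exact hT.witt h4 _ (by omega)
    · exact hT.exists_aniso (by omega)
  have hw' : f₂ w a = 0 ∧ f₂ w b = 0 := Prod.mk_eq_zero.mp hw
  exact ⟨w, hw'.1, hw'.2, hne⟩

/-- A singular vector pairing to one with a singular vector. -/
lemma exists_partner {s : Fin n → F} (hs : s ≠ 0) (hQ : f₂ s s = 0) :
    ∃ t, f₂ t s = 1 ∧ f₂ t t = 0 := by
  obtain ⟨y, hy⟩ := (hT.symm₂.nondegenerate s hs).1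
  set y' := (f₂ y s)⁻¹ • y
  have hy' : f₂ y' s = 1 := by rw [hT.symm₂.bilinear.smul_left, inv_mul_cancel₀ hy]
  refine ⟨y' + (-(f₂ y' y') / 2) • s, ?_, ?_⟩
  · rw [hT.symm₂.bilinear.add_left, hy', hT.symm₂.bilinear.smul_left, hQ, mul_zero, add_zero]
  · rw [hT.q_add_smul, hQ, hy']
    have := hT.two
    field_simp
    ring

omit hT in
/-- The reflection at `v` of the second factor. -/
noncomputable def rmap (hT : Data f e P f₁ f₂) (v : Fin n → F) :
    (Fin n → F) →ₗ[F] (Fin n → F) :=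
  LinearMap.id - ((2 / f₂ v v) • hT.fr v).smulRight v

lemma rmap_apply (v x : Fin n → F) : hT.rmap v x = x - (2 / f₂ v v * f₂ x v) • v := by
  simp [rmap]

lemma rmap_rmap {v : Fin n → F} (hv : f₂ v v ≠ 0) (x : Fin n → F) :
    hT.rmap v (hT.rmap v x) = x := by
  have h : f₂ (x - (2 / f₂ v v * f₂ x v) • v) v = -f₂ x v := by
    rw [sub_eq_add_neg, ← neg_smul, hT.symm₂.bilinear.add_left, hT.symm₂.bilinear.smul_left]
    field_simp
    ring
  rw [hT.rmap_apply, hT.rmap_apply, h]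
  module

omit hT in
/-- The reflection as an invertible matrix. -/
noncomputable def r (hT : Data f e P f₁ f₂) {v : Fin n → F} (hv : f₂ v v ≠ 0) : GL (Fin n) F :=
  ofEquiv (LinearEquiv.ofLinearMap (hT.rmap v) (hT.rmap v)
    (LinearMap.ext (hT.rmap_rmap hv)) (LinearMap.ext (hT.rmap_rmap hv)))

lemma ap_r {v : Fin n → F} (hv : f₂ v v ≠ 0) (x : Fin n → F) :
    ap (hT.r hv) x = x - (2 / f₂ v v * f₂ x v) • v := by
  rw [r, ap_ofEquiv, ← hT.rmap_apply]; rfl

lemma r_mem {v : Fin n → F} (hv : f₂ v v ≠ 0) : hT.r hv ∈ isom f₂ := fun x y => by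
  change f₂ (ap (hT.r hv) x) (ap (hT.r hv) y) = f₂ x y
  rw [hT.ap_r, hT.ap_r, sub_eq_add_neg, sub_eq_add_neg, ← neg_smul, ← neg_smul]
  simp only [hT.symm₂.bilinear.add_left, hT.symm₂.bilinear.add_right,
    hT.symm₂.bilinear.smul_left, hT.symm₂.bilinear.smul_right, hT.symm₂.symm v y]
  field_simp
  ring

/-- The action of a reflection of the second factor. -/
lemma ap_kron_r {v : Fin n → F} (hv : f₂ v v ≠ 0) (x : ι → F) :
    ap (kron e P (1 : GL (Fin 2) F) (hT.r hv)) x = x - (2 / f₂ v v) • pt e P (hT.cc v x) v := by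
  have h : (apEquiv (kron e P (1 : GL (Fin 2) F) (hT.r hv))).toLinearMap =
      LinearMap.id - (2 / f₂ v v) • (ptl e P v).comp (hT.cc v) :=
    ext_pt e P fun a y => by
      simp only [LinearEquiv.coe_coe, apEquiv_apply, ap_kron, ap_one, hT.ap_r, LinearMap.sub_apply,
        LinearMap.id_apply, LinearMap.smul_apply, LinearMap.comp_apply, cc_pt, ptl_apply,
        pt_sub_right, pt_smul_right, pt_smul_left, smul_smul]
  simpa using LinearMap.congr_fun h x

/-- A basis of `F^2` for the symplectic form. -/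
lemma exists_basis₁ : ∃ u₁ u₂ : Fin 2 → F, f₁ u₁ u₂ = 1 ∧
    ∀ c, c = f₁ c u₂ • u₁ - f₁ c u₁ • u₂ := by
  set u₁ : Fin 2 → F := Pi.single 0 1
  have hu : u₁ ≠ 0 := fun h => by simpa [u₁] using congrFun h 0
  obtain ⟨p, hp⟩ := (hT.symp₁.nondegenerate u₁ hu).2
  set u₂ := (f₁ u₁ p)⁻¹ • p
  have h12 : f₁ u₁ u₂ = 1 := by rw [hT.symp₁.bilinear.smul_right, inv_mul_cancel₀ hp]
  have h21 : f₁ u₂ u₁ = -1 := by rw [hT.symp₁.skew, h12]
  refine ⟨u₁, u₂, h12, fun c => ?_⟩
  have hli : LinearIndependent F ![u₁, u₂] := by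
    rw [LinearIndependent.pair_iff]
    intro s t hst
    have h := congrArg (fun w => f₁ w u₂) hst
    have h' := congrArg (fun w => f₁ w u₁) hst
    simp [hT.symp₁.bilinear.add_left, hT.symp₁.bilinear.smul_left, h12, h21,
      hT.symp₁.alternating, Symp.zero_left hT.symp₁] at h h'
    exact ⟨h, h'⟩
  have htop := hli.span_eq_top_of_card_eq_finrank (by simp)
  have hc : c ∈ Submodule.span F (Set.range ![u₁, u₂]) := htop ▸ Submodule.mem_top
  obtain ⟨w, hw⟩ := (Submodule.mem_span_range_iff_exists_fun F).mp hc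
  simp only [Fin.sum_univ_two, cons_val_zero, cons_val_one] at hw
  rw [← hw]
  simp [hT.symp₁.bilinear.add_left, hT.symp₁.bilinear.smul_left, h12, h21, hT.symp₁.alternating]

/-- A map of `F^2` self-adjoint for the symplectic form is scalar. -/
lemma scalar_of_selfadjoint (L : (Fin 2 → F) →ₗ[F] (Fin 2 → F))
    (h : ∀ c c', f₁ (L c) c' = f₁ c (L c')) : ∃ t : F, ∀ c, L c = t • c := by
  obtain ⟨u₁, u₂, h12, hdec⟩ := hT.exists_basis₁
  have h0 : ∀ c, f₁ (L c) c = 0 := fun c => by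
    have := h c c
    rw [hT.symp₁.skew c (L c), eq_neg_iff_add_eq_zero, ← two_mul, mul_eq_zero] at this
    exact this.resolve_left hT.two
  have e1 := hdec (L u₁)
  rw [h0, zero_smul, sub_zero] at e1
  have e2 := hdec (L u₂)
  rw [h0, zero_smul, zero_sub] at e2
  have hh : f₁ (L u₁) u₂ = -f₁ (L u₂) u₁ := by rw [h, hT.symp₁.skew]
  refine ⟨f₁ (L u₁) u₂, fun c => ?_⟩
  generalize ht : f₁ (L u₁) u₂ = t at e1 hh ⊢
  generalize ht' : f₁ (L u₂) u₁ = t' at e2 hh
  subst hh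
  conv_lhs => rw [hdec c]
  rw [map_sub, map_smul, map_smul, e1, e2]
  conv_rhs => rw [hdec c]
  module

/-- A subspace of dimension three has a non-zero singular vector. -/
lemma exists_singular [Finite F] {N : Submodule F (Fin n → F)} (hN : 3 ≤ Module.finrank F N) :
    ∃ s ∈ N, s ≠ 0 ∧ f₂ s s = 0 := by
  by_contra hc
  push Not at hc
  have hpos : 0 < Module.finrank F N := by omega
  obtain ⟨⟨p, hp⟩, hp0⟩ := Module.finrank_pos_iff_exists_ne_zero.mp hpos
  have hQp := hc p hp fun h => hp0 (Subtype.ext h)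
  have h1 := Orth.finrank_le_inf_ker N (hT.fr p)
  obtain ⟨⟨q, hq⟩, hq0⟩ := Module.finrank_pos_iff_exists_ne_zero.mp
    (show 0 < Module.finrank F ↥(N ⊓ LinearMap.ker (hT.fr p)) by omega)
  have hQq := hc q hq.1 fun h => hq0 (Subtype.ext h)
  have h2 := Orth.finrank_le_inf_ker (N ⊓ LinearMap.ker (hT.fr p)) (hT.fr q)
  obtain ⟨⟨r, hr⟩, hr0⟩ := Module.finrank_pos_iff_exists_ne_zero.mp
    (show 0 < Module.finrank F ↥(N ⊓ LinearMap.ker (hT.fr p) ⊓ LinearMap.ker (hT.fr q)) by omega)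
  have hQr := hc r hr.1.1 fun h => hr0 (Subtype.ext h)
  obtain ⟨a, b, hab⟩ := Orth.exists_combination hQp hQq hT.two (-f₂ r r)
  have hqp : f₂ q p = 0 := hq.2
  have hrp : f₂ r p = 0 := hr.1.2
  have hrq : f₂ r q = 0 := hr.2
  refine hc (r + (a • p + b • q)) (N.add_mem hr.1.1 (N.add_mem (N.smul_mem a hp) (N.smul_mem b hq.1)))
    (fun h => hQr ?_) ?_
  · have := congrArg (fun x => f₂ r x) h
    simpa [hT.symm₂.bilinear.add_right, hT.symm₂.bilinear.smul_right, hrp, hrq,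
      hT.zero_right₂] using this
  · rw [hT.q_add, hT.q_add_smul, hT.q_smul, hT.symm₂.bilinear.smul_left, hT.symm₂.symm p q, hqp,
      hT.symm₂.bilinear.add_right, hT.symm₂.bilinear.smul_right, hT.symm₂.bilinear.smul_right,
      hrp, hrq]
    linear_combination hab

/-- A vector of non-zero value with a non-zero contraction, orthogonal to a singular vector of the
same subspace. -/
lemma exists_pair [Finite F] (h5 : 5 ≤ n) {N : Submodule F (Fin n → F)}
    (hN : n ≤ Module.finrank F N + 2) (x : ι → F) {y₀ : Fin n → F} (hy₀ : y₀ ∈ N) (hx : hT.cc y₀ x ≠ 0) :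
    ∃ (w : Fin n → F) (_ : w ∈ N) (_ : f₂ w w ≠ 0) (_ : hT.cc w x ≠ 0) (σ : Fin n → F),
      σ ∈ N ∧ σ ≠ 0 ∧ f₂ σ σ = 0 ∧ f₂ σ w = 0 := by
  -- it suffices to find a singular vector with good orthogonal
  suffices h : ∃ σ ∈ N, σ ≠ 0 ∧ f₂ σ σ = 0 ∧ (∃ y ∈ N, f₂ σ y = 0 ∧ hT.cc y x ≠ 0) ∧
      ∃ p ∈ N, f₂ σ p = 0 ∧ f₂ p p ≠ 0 by
    obtain ⟨σ, hσ, hσ0, hσQ, ⟨y, hy, hσy, hyx⟩, p, hp, hσp, hQp⟩ := h
    have key : ∀ w ∈ N, f₂ σ w = 0 → hT.cc w x ≠ 0 → f₂ w w ≠ 0 →
        ∃ (w : Fin n → F) (_ : w ∈ N) (_ : f₂ w w ≠ 0) (_ : hT.cc w x ≠ 0) (σ : Fin n → F),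
          σ ∈ N ∧ σ ≠ 0 ∧ f₂ σ σ = 0 ∧ f₂ σ w = 0 :=
      fun w hw h1 h2 h3 => ⟨w, hw, h3, h2, σ, hσ, hσ0, hσQ, h1⟩
    by_cases hpx : hT.cc p x ≠ 0
    · exact key p hp hσp hpx hQp
    push Not at hpx
    by_cases hQy : f₂ y y ≠ 0
    · exact key y hy hσy hyx hQy
    push Not at hQy
    have hc : ∀ t : F, hT.cc (y + t • p) x = hT.cc y x := fun t => by
      rw [hT.cc_add, hT.cc_smul, LinearMap.add_apply, LinearMap.smul_apply, hpx, smul_zero, add_zero]
    have hσt : ∀ t : F, f₂ σ (y + t • p) = 0 := fun t => by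
      rw [hT.symm₂.bilinear.add_right, hT.symm₂.bilinear.smul_right, hσy, hσp, mul_zero, add_zero]
    by_cases h1 : f₂ (y + (1 : F) • p) (y + (1 : F) • p) ≠ 0
    · exact key _ (N.add_mem hy (N.smul_mem _ hp)) (hσt 1) (by rwa [hc]) h1
    refine key _ (N.add_mem hy (N.smul_mem _ hp)) (hσt (-1)) (by rwa [hc]) fun h2 => hQp ?_
    push Not at h1
    rw [hT.q_add_smul, hQy] at h1 h2
    refine mul_left_cancel₀ hT.two ?_
    linear_combination h1 + h2
  by_cases hrad : ∃ r ∈ N, r ≠ 0 ∧ ∀ y ∈ N, f₂ r y = 0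
  · obtain ⟨r, hr, hr0, hry⟩ := hrad
    obtain ⟨p, hp, hQp⟩ := hT.exists_aniso (N := N) (by omega)
    exact ⟨r, hr, hr0, hry r hr, ⟨y₀, hy₀, hry _ hy₀, hx⟩, p, hp, hry p hp, hQp⟩
  push Not at hrad
  obtain ⟨s, hs, hs0, hQs⟩ := hT.exists_singular (N := N) (by omega)
  obtain ⟨v, hv, hsv⟩ := hrad s hs hs0
  set s' := v + (-(f₂ v v) / (2 * f₂ s v)) • s with hs'def
  have hs'N : s' ∈ N := N.add_mem hv (N.smul_mem _ hs)
  have hss' : f₂ s s' = f₂ s v := by
    rw [hs'def, hT.symm₂.bilinear.add_right, hT.symm₂.bilinear.smul_right, hQs, mul_zero, add_zero]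
  have hQs' : f₂ s' s' = 0 := by
    rw [hs'def, hT.q_add_smul, hQs, hT.symm₂.symm v s]
    have := hT.two
    field_simp
    ring
  have hs'0 : s' ≠ 0 := fun h => hsv (by rw [← hss', h, hT.zero_right₂])
  -- an anisotropic vector orthogonal to both
  have hW : ∃ p ∈ N, f₂ s p = 0 ∧ f₂ s' p = 0 ∧ f₂ p p ≠ 0 := by
    by_contra hc
    push Not at hc
    set W := N ⊓ LinearMap.ker (hT.fr s) ⊓ LinearMap.ker (hT.fr s') with hWdef
    have hpos : 0 < Module.finrank F W := by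
      have h1 := Orth.finrank_le_inf_ker N (hT.fr s)
      have h2 : Module.finrank F ↥(N ⊓ LinearMap.ker (hT.fr s)) ≤ Module.finrank F W + 1 :=
        Orth.finrank_le_inf_ker (N ⊓ LinearMap.ker (hT.fr s)) (hT.fr s')
      omega
    obtain ⟨⟨r, hr⟩, hr0⟩ := Module.finrank_pos_iff_exists_ne_zero.mp hpos
    have hW' : ∀ p ∈ W, f₂ p p = 0 := fun p hp =>
      hc p hp.1.1 (by rw [hT.symm₂.symm]; exact hp.1.2) (by rw [hT.symm₂.symm]; exact hp.2)
    obtain ⟨y, hy, hry⟩ := hrad r hr.1.1 fun h => hr0 (Subtype.ext h)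
    have hr1 : f₂ r s = 0 := hr.1.2
    have hr2 : f₂ r s' = 0 := hr.2
    have hsv' : f₂ s s' ≠ 0 := hss' ▸ hsv
    set p := y - (f₂ y s' / f₂ s s') • s - (f₂ y s / f₂ s s') • s' with hp
    have hpW : p ∈ W := by
      refine ⟨⟨N.sub_mem (N.sub_mem hy (N.smul_mem _ hs)) (N.smul_mem _ hs'N), ?_⟩, ?_⟩
      · show f₂ p s = 0
        rw [hp, sub_eq_add_neg, sub_eq_add_neg, ← neg_smul, ← neg_smul,
          hT.symm₂.bilinear.add_left, hT.symm₂.bilinear.add_left, hT.symm₂.bilinear.smul_left,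
          hT.symm₂.bilinear.smul_left, hQs, hT.symm₂.symm s' s]
        field_simp
        ring
      · show f₂ p s' = 0
        rw [hp, sub_eq_add_neg, sub_eq_add_neg, ← neg_smul, ← neg_smul,
          hT.symm₂.bilinear.add_left, hT.symm₂.bilinear.add_left, hT.symm₂.bilinear.smul_left,
          hT.symm₂.bilinear.smul_left, hQs']
        field_simp
        ring
    refine hry ?_
    have h0 := hT.f_eq_zero_of_singular hW' hr hpW
    rw [hp, sub_eq_add_neg, sub_eq_add_neg, ← neg_smul, ← neg_smul, hT.symm₂.bilinear.add_right,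
      hT.symm₂.bilinear.add_right, hT.symm₂.bilinear.smul_right, hT.symm₂.bilinear.smul_right,
      hr1, hr2, mul_zero, mul_zero, add_zero, add_zero] at h0
    exact h0
  obtain ⟨p, hp, hsp, hs'p, hQp⟩ := hW
  by_cases hsx : hT.cc s x = 0
  swap
  · exact ⟨s, hs, hs0, hQs, ⟨s, hs, hQs, hsx⟩, p, hp, hsp, hQp⟩
  refine ⟨s', hs'N, hs'0, hQs', ?_, p, hp, hs'p, hQp⟩
  have hs's : f₂ s' s ≠ 0 := by rw [hT.symm₂.symm, hss']; exact hsv
  refine ⟨y₀ + (-(f₂ s' y₀) / f₂ s' s) • s, N.add_mem hy₀ (N.smul_mem _ hs), ?_, ?_⟩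
  · rw [hT.symm₂.bilinear.add_right, hT.symm₂.bilinear.smul_right]
    field_simp
    ring
  · rwa [hT.cc_add, hT.cc_smul, LinearMap.add_apply, LinearMap.smul_apply, hsx, smul_zero, add_zero]

/-- Elements fixing a slice pointwise act on the second factor only. -/
lemma of_fix_slice {g : GL ι F} (hg : g ∈ Cfsg.Geo.tensorProductSubgroup 2 n e P)
    {y₀ : Fin n → F} (hy₀ : y₀ ≠ 0) (h : ∀ u, ap g (pt e P u y₀) = pt e P u y₀) :
    ∃ b : GL (Fin n) F, ∀ u y, ap g (pt e P u y) = pt e P u (ap b y) := by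
  obtain ⟨a, b, hab⟩ := (mem_iff e P g).mp hg
  obtain ⟨φ, -, hφ⟩ := exists_functional_eq_one (U := ⊥) (x := y₀) (by simpa using hy₀)
  set t := φ (ap b y₀)
  have ha : ∀ u, t • ap a u = u := fun u => by
    have := congrArg (con e P φ) ((hab u y₀).symm.trans (h u))
    rwa [con_pt, con_pt, hφ, one_smul] at this
  have ht : t ≠ 0 := by
    intro h0
    have := ha (Pi.single 0 1)
    rw [h0, zero_smul] at this
    simpa using congrFun this 0
  refine ⟨ofEquiv ((apEquiv b).trans (LinearEquiv.smulOfUnit ((Units.mk0 t ht)⁻¹))), fun u y => ?_⟩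
  have hu : ap a u = t⁻¹ • u := by
    conv_rhs => rw [← ha u, smul_smul, inv_mul_cancel₀ ht, one_smul]
  rw [hab, ap_ofEquiv, hu, pt_smul_left, ← pt_smul_right]
  rfl

end Data

end CfsgLib.Geometric.SOTensor
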