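import Cfsg.Agent.Lib.Geometric.SOTensor.Step
import Cfsg.Agent.Lib.Forms.OddFinite

/-!
The second factor of dimension four without totally singular planes: a group containing the
factorwise isometries and an element outside the stabiliser contains such an element fixing the
slice of a singular vector pointwise.
-/

set_option autoImplicit false
set_option linter.unusedSectionVars false

namespace CfsgLib.Geometric.SOTensor.Data

open Matrix Tensor

variable {ι : Type} [Fintype ι] [DecidableEq ι] {F : Type*} [Field F]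
variable {f : (ι → F) → (ι → F) → F} {n : ℕ} {e : ι ≃ Fin 2 × Fin n} {P : GL ι F}
  {f₁ : (Fin 2 → F) → (Fin 2 → F) → F} {f₂ : (Fin n → F) → (Fin n → F) → F}
variable [Finite F] (hT : Data f e P f₁ f₂)
include hT

omit hT in
/-- There is an element of `M` outside the stabiliser fixing the slice of a singular vector. -/
def HasFix (hT : Data f e P f₁ f₂) (M : Subgroup (GL ι F)) : Prop :=
  ∃ k ∈ M, k ∉ Cfsg.Geo.tensorProductSubgroup 2 n e P ∧
    ∃ s, s ≠ 0 ∧ f₂ s s = 0 ∧ ∀ u, ap k (pt e P u s) = pt e P u s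

lemma mem_ker_two {a b y : Fin n → F} :
    y ∈ LinearMap.ker ((hT.fr a).prod (hT.fr b)) ↔ f₂ y a = 0 ∧ f₂ y b = 0 := by
  rw [LinearMap.mem_ker, LinearMap.prod_apply, Prod.mk_eq_zero]; rfl

/-- A plane without non-zero singular vectors takes every value. -/
lemma plane_value (hn : n = 4) {N : Submodule F (Fin n → F)} (hN : 2 ≤ Module.finrank F N)
    (hno : ∀ σ ∈ N, f₂ σ σ = 0 → σ = 0) (t : F) :
    ∃ x ∈ N, f₂ x x = t := by
  obtain ⟨p, hp, hQp⟩ := hT.witt hn.le N hN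
  have h1 := Orth.finrank_le_inf_ker N (hT.fr p)
  obtain ⟨⟨q, hq⟩, hq0⟩ := Module.finrank_pos_iff_exists_ne_zero.mp
    (show 0 < Module.finrank F ↥(N ⊓ LinearMap.ker (hT.fr p)) by omega)
  have hQq : f₂ q q ≠ 0 := fun h => hq0 (Subtype.ext (hno q hq.1 h))
  have hqp : f₂ q p = 0 := hq.2
  obtain ⟨a, b, hab⟩ := Orth.exists_combination hQp hQq hT.two t
  refine ⟨a • p + b • q, N.add_mem (N.smul_mem a hp) (N.smul_mem b hq.1), ?_⟩
  rw [hT.q_add_smul, hT.q_smul, hT.symm₂.bilinear.smul_left, hT.symm₂.symm p q, hqp]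
  linear_combination hab

/-- The determinant of a plane without non-zero singular vectors. -/
lemma not_isSquare_of_no_singular {N : Submodule F (Fin n → F)}
    (hno : ∀ σ ∈ N, f₂ σ σ = 0 → σ = 0) {p q : Fin n → F} (hp : p ∈ N) (hq : q ∈ N)
    (hq0 : q ≠ 0) (hp0 : p ≠ 0) (hpq : f₂ p q = 0) :
    ¬IsSquare (-(f₂ p p * f₂ q q)) := by
  rintro ⟨r, hr⟩
  have hQq : f₂ q q ≠ 0 := fun h => hq0 (hno q hq h)
  have hQp : f₂ p p ≠ 0 := fun h => hp0 (hno p hp h)
  have h0 := hno (f₂ q q • p + r • q) (N.add_mem (N.smul_mem _ hp) (N.smul_mem _ hq)) (by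
    rw [hT.q_add_smul, hT.q_smul, hT.symm₂.bilinear.smul_left, hpq]
    linear_combination -(f₂ q q) * hr)
  have := congrArg (fun x => f₂ x p) h0
  simp only [hT.symm₂.bilinear.add_left, hT.symm₂.bilinear.smul_left, hT.zero_left₂,
    hT.symm₂.symm q p, hpq, mul_zero, add_zero] at this
  exact mul_ne_zero hQq hQp this

/-- A plane of elliptic type has a singular vector in its orthogonal. -/
lemma exists_singular_perp_two (hn : n = 4) {p q : Fin n → F} (hpq : f₂ p q = 0)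
    (h : ¬IsSquare (-(f₂ p p * f₂ q q))) :
    ∃ σ, σ ≠ 0 ∧ f₂ σ σ = 0 ∧ f₂ σ p = 0 ∧ f₂ σ q = 0 := by
  set Q' := LinearMap.ker ((hT.fr p).prod (hT.fr q))
  by_contra hc
  push Not at hc
  have hno : ∀ σ ∈ Q', f₂ σ σ = 0 → σ = 0 := fun σ hσ h0 => by
    by_contra hne
    exact hc σ hne h0 (hT.mem_ker_two.mp hσ).1 (hT.mem_ker_two.mp hσ).2
  have hdim : 2 ≤ Module.finrank F Q' := by
    have : n ≤ Module.finrank F Q' + 2 := hT.finrank_perp_two p q
    omega
  have hQp : f₂ p p ≠ 0 := fun h0 => h ⟨0, by rw [h0]; ring⟩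
  have hQq : f₂ q q ≠ 0 := fun h0 => h ⟨0, by rw [h0]; ring⟩
  obtain ⟨h₁, hh₁, hQh₁⟩ := hT.plane_value hn hdim hno (-f₂ p p)
  have h1 := Orth.finrank_le_inf_ker Q' (hT.fr h₁)
  obtain ⟨⟨m, hm⟩, hm0'⟩ := Module.finrank_pos_iff_exists_ne_zero.mp
    (show 0 < Module.finrank F ↥(Q' ⊓ LinearMap.ker (hT.fr h₁)) by omega)
  have hm0 : m ≠ 0 := fun h => hm0' (Subtype.ext h)
  have hmh : f₂ m h₁ = 0 := hm.2
  have hQm : f₂ m m ≠ 0 := fun h => hm0 (hno m hm.1 h)
  have hh0 : h₁ ≠ 0 := fun h => hQp (neg_eq_zero.mp (by rw [← hQh₁, h, hT.zero_left₂]))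
  have hns := hT.not_isSquare_of_no_singular hno hh₁ hm.1 hm0 hh0 (by rw [hT.symm₂.symm]; exact hmh)
  rw [hQh₁, neg_mul, neg_neg] at hns
  obtain ⟨r, hr⟩ := CfsgLib.Forms.isSquare_mul_of_not hns h
  set c := r / (f₂ p p * f₂ m m) with hcdef
  have hc2 : c * c * f₂ m m = -f₂ q q := by
    rw [hcdef, div_mul_div_comm, ← hr]
    field_simp
  set x₁ := p + h₁
  set x₂ := q + c • m
  obtain ⟨hh₁p, hh₁q⟩ := hT.mem_ker_two.mp hh₁
  obtain ⟨hmp, hmq⟩ := hT.mem_ker_two.mp hm.1
  have e11 : f₂ x₁ x₁ = 0 := by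
    rw [hT.q_add, hT.symm₂.symm p h₁, hh₁p, hQh₁]; ring
  have e22 : f₂ x₂ x₂ = 0 := by
    rw [hT.q_add, hT.q_smul, hT.symm₂.bilinear.smul_right, hT.symm₂.symm q m, hmq, hc2]; ring
  have e12 : f₂ x₁ x₂ = 0 := by
    simp only [x₁, x₂, hT.symm₂.bilinear.add_left, hT.symm₂.bilinear.add_right,
      hT.symm₂.bilinear.smul_right, hpq, hh₁q, hT.symm₂.symm p m, hmp,
      hT.symm₂.symm h₁ m, hmh]
    ring
  have hp1 : f₂ x₁ p = f₂ p p := by
    simp [x₁, hT.symm₂.bilinear.add_left, hh₁p]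
  have hp2 : f₂ x₂ p = 0 := by
    simp [x₂, hT.symm₂.bilinear.add_left, hT.symm₂.bilinear.smul_left, hT.symm₂.symm q p, hpq, hmp]
  have hq2 : f₂ x₂ q = f₂ q q := by
    simp [x₂, hT.symm₂.bilinear.add_left, hT.symm₂.bilinear.smul_left, hmq]
  have hli : LinearIndependent F ![x₁, x₂] := by
    rw [LinearIndependent.pair_iff]
    intro a b hab
    have ha := congrArg (fun x => f₂ x p) hab
    simp only [hT.symm₂.bilinear.add_left, hT.symm₂.bilinear.smul_left, hp1, hp2, mul_zero,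
      add_zero, hT.zero_left₂, mul_eq_zero, hQp, or_false] at ha
    have hb := congrArg (fun x => f₂ x q) hab
    simp only [hT.symm₂.bilinear.add_left, hT.symm₂.bilinear.smul_left, ha, hq2, zero_mul,
      zero_add, hT.zero_left₂, mul_eq_zero, hQq, or_false] at hb
    exact ⟨ha, hb⟩
  obtain ⟨x, hx, hQx⟩ := hT.witt hn.le (Submodule.span F (Set.range ![x₁, x₂]))
    (by rw [finrank_span_eq_card hli, Fintype.card_fin])
  obtain ⟨co, rfl⟩ := (Submodule.mem_span_range_iff_exists_fun F).mp hx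
  apply hQx
  simp only [Fin.sum_univ_two, cons_val_zero, cons_val_one, hT.symm₂.bilinear.add_left,
    hT.symm₂.bilinear.add_right, hT.symm₂.bilinear.smul_left, hT.symm₂.bilinear.smul_right,
    hT.symm₂.symm x₂ x₁, e11, e22, e12]
  ring

lemma eq_zero_of_perp {v : Fin n → F} (h : ∀ b, f₂ v b = 0) : v = 0 := by
  by_contra hv
  obtain ⟨x, hx⟩ := (hT.symm₂.nondegenerate v hv).2
  exact hx (h x)

/-- A vector with vanishing contractions is zero. -/
lemma eq_zero_of_cc {v : ι → F} (h : ∀ y, hT.cc y v = 0) : v = 0 := by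
  by_contra hv
  obtain ⟨p, hp⟩ := (hT.symp.nondegenerate v hv).2
  refine hp (LinearMap.congr_fun (ext_pt e P (f := (Symp.fl hT.symp).flip v) (g := 0)
    fun a y => ?_) p)
  rw [LinearMap.flip_apply, Symp.fl_apply, hT.f_pt, h, Symp.zero_left hT.symp₁,
    LinearMap.zero_apply]

/-- The identity expressing a vector of the plane by two others. -/
lemma plane_id (u a b : Fin 2 → F) : f₁ a b • u = f₁ u b • a - f₁ u a • b := by
  obtain ⟨u₁, u₂, h12, hdec⟩ := hT.exists_basis₁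
  have h21 : f₁ u₂ u₁ = -1 := by rw [hT.symp₁.skew, h12]
  have hf : ∀ x y, f₁ x y = f₁ x u₁ * f₁ y u₂ - f₁ x u₂ * f₁ y u₁ := by
    intro x y
    conv_lhs => rw [hdec x, sub_eq_add_neg, ← neg_smul, hT.symp₁.bilinear.add_left,
      hT.symp₁.bilinear.smul_left, hT.symp₁.bilinear.smul_left, hT.symp₁.skew u₁ y,
      hT.symp₁.skew u₂ y]
    ring
  rw [hf a b, hf u b, hf u a]
  conv_lhs => rw [hdec u]
  conv_rhs => arg 1; rw [hdec a]
  conv_rhs => arg 2; rw [hdec b]
  match_scalars <;> ring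

variable {M : Subgroup (GL ι F)}

/-- A rank-two unipotent element of the special shape. -/
lemma hasFix_of_unip (hn : n = 4) (hH : ∀ a ∈ isom f₁, ∀ b ∈ isom f₂, kron e P a b ∈ M)
    {m : GL ι F} (hm : m ∈ M) {d : Fin 2 → F} (hd : d ≠ 0) {w y : Fin n → F}
    (hw : f₂ w w ≠ 0) (hy0 : y ≠ 0) (hyw : f₂ y w = 0) {a' b' : F} (ha' : a' ≠ 0)
    (hform : ∀ u x, ap m (pt e P u x) = pt e P u x +
      pt e P (f₁ u d • d) (a' • (f₂ x w • y + f₂ x y • w) + b' • (f₂ x w • w))) :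
    hT.HasFix M := by
  obtain ⟨u₀, hu₀⟩ := (hT.symp₁.nondegenerate d hd).1
  have hud : f₁ u₀ d • d ≠ 0 := smul_ne_zero hu₀ hd
  have hS : a' • (f₂ w w • y + f₂ w y • w) + b' • (f₂ w w • w) ≠ 0 := by
    intro h
    have h1 := congrArg (fun x => f₂ x w) h
    simp only [hT.symm₂.bilinear.add_left, hT.symm₂.bilinear.smul_left, hT.symm₂.symm w y, hyw,
      hT.zero_left₂, mul_zero, zero_mul, add_zero, zero_add, mul_eq_zero, hw, or_false] at h1
    rw [h1, zero_smul, add_zero, hT.symm₂.symm w y, hyw, zero_smul, add_zero, smul_smul] at h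
    exact hy0 ((smul_eq_zero.mp h).resolve_left (mul_ne_zero ha' hw))
  -- the element is outside the stabiliser
  have hmT : m ∉ Cfsg.Geo.tensorProductSubgroup 2 n e P := by
    intro hT'
    set K := LinearMap.ker ((hT.fr w).prod (hT.fr y))
    have hK : K ≠ ⊥ := by
      intro h
      have h1 := hT.finrank_perp_two w y
      rw [show LinearMap.ker ((hT.fr w).prod (hT.fr y)) = ⊥ from h, finrank_bot] at h1
      omega
    obtain ⟨z, hz, hz0⟩ := Submodule.exists_mem_ne_zero_of_ne_bot hK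
    obtain ⟨hzw, hzy⟩ := hT.mem_ker_two.mp hz
    obtain ⟨b, hb⟩ := hT.of_fix_slice hT' hz0 fun u => by
      rw [hform, hzw, hzy]; simp [pt_zero_right]
    have hb1 : ∀ x, ap b x = x := fun x => pt_inj_right e P hd (by
      rw [← hb, hform, hT.symp₁.alternating, zero_smul, pt_zero_left, add_zero])
    have h := hb u₀ w
    rw [hb1, hform, add_eq_left] at h
    exact pt_ne_zero e P hud hS h
  by_cases hσ : ∃ σ, σ ≠ 0 ∧ f₂ σ σ = 0 ∧ f₂ σ w = 0 ∧ f₂ σ y = 0
  · obtain ⟨σ, hσ0, hQσ, hσw, hσy⟩ := hσ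
    exact ⟨m, hm, hmT, σ, hσ0, hQσ, fun u => by rw [hform, hσw, hσy]; simp [pt_zero_right]⟩
  push Not at hσ
  have hQy : f₂ y y ≠ 0 := fun h => hσ y hy0 h hyw h
  set Q' := LinearMap.ker ((hT.fr w).prod (hT.fr y))
  have hdim : 2 ≤ Module.finrank F Q' := by
    have : n ≤ Module.finrank F Q' + 2 := hT.finrank_perp_two w y
    omega
  have hno : ∀ σ ∈ Q', f₂ σ σ = 0 → σ = 0 := fun σ hσ' h0 => by
    by_contra hne
    exact hσ σ hne h0 (hT.mem_ker_two.mp hσ').1 (hT.mem_ker_two.mp hσ').2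
  obtain ⟨ν, hν⟩ := FiniteField.exists_nonsquare (F := F)
    fun h => hT.two (by have := ringChar.spec F 2; rw [h] at this; simpa using this)
  have hν0 : ν ≠ 0 := fun h => hν (h ▸ IsSquare.zero)
  obtain ⟨p, hp, hQp⟩ := hT.plane_value hn hdim hno (-ν / f₂ w w - f₂ y y)
  obtain ⟨hpw, hpy⟩ := hT.mem_ker_two.mp hp
  set z := y + p with hz
  have hzw : f₂ z w = 0 := by rw [hz, hT.symm₂.bilinear.add_left, hyw, hpw, add_zero]
  have hzy : f₂ z y = f₂ y y := by rw [hz, hT.symm₂.bilinear.add_left, hpy, add_zero]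
  have hQz : f₂ z z = -ν / f₂ w w := by
    rw [hz, hT.q_add, hT.symm₂.symm y p, hpy, hQp]; ring
  have hQz0 : f₂ z z ≠ 0 := by rw [hQz]; exact div_ne_zero (neg_ne_zero.mpr hν0) hw
  obtain ⟨σ, hσ0, hQσ, hσz, hσw⟩ := hT.exists_singular_perp_two hn hzw (by
    rwa [hQz, div_mul_cancel₀ _ hw, neg_neg])
  set R := kron e P (1 : GL (Fin 2) F) (hT.r hQz0) with hR
  have hRM : R ∈ M := hH 1 (one_mem _) _ (hT.r_mem hQz0)
  set S : (Fin n → F) → (Fin n → F) :=
    fun x => a' • (f₂ x w • y + f₂ x y • w) + b' • (f₂ x w • w) with hSdef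
  have hminv : ∀ u x, ap m⁻¹ (pt e P u x) = pt e P u x - pt e P (f₁ u d • d) (S x) := by
    intro u x
    apply ap_injective m
    rw [ap_ap_inv, ap_sub, hform, hform, hT.symp₁.bilinear.smul_left, hT.symp₁.alternating,
      mul_zero, zero_smul, pt_zero_left, add_zero]
    abel
  have hrr : ∀ x, ap (hT.r hQz0) (ap (hT.r hQz0) x) = x := fun x => by
    rw [hT.ap_r, hT.ap_r, ← hT.rmap_apply, ← hT.rmap_apply, hT.rmap_rmap hQz0]
  have hR' : ∀ u x, ap R (pt e P u x) = pt e P u (ap (hT.r hQz0) x) := fun u x => by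
    rw [hR, ap_kron, ap_one]
  set m' := m * (R * m⁻¹ * R)
  have hm' : ∀ u x, ap m' (pt e P u x) = pt e P u x +
      pt e P (f₁ u d • d) (S x - ap (hT.r hQz0) (S (ap (hT.r hQz0) x))) := by
    intro u x
    rw [ap_mul, ap_mul, ap_mul, hR', hminv, ap_sub, hR', hR', hrr, ap_sub, hform, hform,
      hT.symp₁.bilinear.smul_left, hT.symp₁.alternating, mul_zero, zero_smul, pt_zero_left,
      add_zero, pt_sub_right]
    abel
  have hrw : ap (hT.r hQz0) w = w := by
    rw [hT.ap_r, hT.symm₂.symm w z, hzw, mul_zero, zero_smul, sub_zero]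
  have hrσ : ap (hT.r hQz0) σ = σ := by
    rw [hT.ap_r, hσz, mul_zero, zero_smul, sub_zero]
  have hfix : ∀ u, ap m' (pt e P u σ) = pt e P u σ := fun u => by
    have hSσ : S σ = (a' * f₂ σ y) • w := by
      simp only [hSdef, hσw]; module
    rw [hm', hrσ, hSσ, ap_smul, hrw, sub_self, pt_zero_right, add_zero]
  refine ⟨m', M.mul_mem hm (M.mul_mem (M.mul_mem hRM (M.inv_mem hm)) hRM), fun hT' => ?_, σ, hσ0,
    hQσ, hfix⟩
  obtain ⟨b, hb⟩ := hT.of_fix_slice hT' hσ0 hfix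
  have hb1 : ∀ x, ap b x = x := fun x => pt_inj_right e P hd (by
    rw [← hb, hm', hT.symp₁.alternating, zero_smul, pt_zero_left, add_zero])
  have h := hb u₀ z
  rw [hb1, hm', add_eq_left] at h
  have hz' : ap (hT.r hQz0) z = -z := by
    rw [hT.ap_r, div_mul_cancel₀ _ hQz0]; module
  have hSz : S z = (a' * f₂ y y) • w := by
    simp only [hSdef, hzw, hzy]; module
  have hSnz : S (-z) = -((a' * f₂ y y) • w) := by
    simp only [hSdef, ← neg_one_smul F z, hT.symm₂.bilinear.smul_left, hzw, hzy]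
    module
  rw [hz', hSz, hSnz, ← neg_smul, ap_smul, hrw, neg_smul, sub_neg_eq_add] at h
  refine pt_ne_zero e P hud ?_ h
  rw [← two_smul F, smul_smul]
  exact smul_ne_zero (mul_ne_zero hT.two (mul_ne_zero ha' hQy))
    fun h => hw (by rw [h, hT.zero_left₂])

/-- The case of a contraction which does not vanish. -/
lemma hasFix_of_contraction (hn : n = 4) (hH : ∀ a ∈ isom f₁, ∀ b ∈ isom f₂, kron e P a b ∈ M)
    (hM : M ≤ isom f) {k : GL ι F} (hk : k ∈ M) {E φ : ι → F} (hEφ : f E φ = 1)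
    (hk' : ∀ x, ap k x = x - (2 : F) • (f x φ • E - f x E • φ))
    {y₀ : Fin n → F} (hy₀ : hT.cc y₀ E = 0) (hy₀φ : hT.cc y₀ φ ≠ 0) :
    hT.HasFix M := by
  let K : (Fin n → F) →ₗ[F] (Fin 2 → F) :=
    { toFun := fun y => hT.cc y E
      map_add' := fun a b => by rw [hT.cc_add]; rfl
      map_smul' := fun c a => by rw [hT.cc_smul]; rfl }
  have hN : 2 ≤ Module.finrank F (LinearMap.ker K) := by
    have h1 := LinearMap.finrank_range_add_finrank_ker K
    have h2 := Submodule.finrank_le (LinearMap.range K)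
    rw [Module.finrank_fin_fun] at h1 h2
    omega
  obtain ⟨w, hwE, hwQ, hwφ⟩ : ∃ w, hT.cc w E = 0 ∧ f₂ w w ≠ 0 ∧ hT.cc w φ ≠ 0 := by
    obtain ⟨p, hp, hQp⟩ := hT.witt hn.le _ hN
    have hpE : hT.cc p E = 0 := hp
    by_cases hpφ : hT.cc p φ ≠ 0
    · exact ⟨p, hpE, hQp, hpφ⟩
    push Not at hpφ
    by_cases hQy : f₂ y₀ y₀ ≠ 0
    · exact ⟨y₀, hy₀, hQy, hy₀φ⟩
    push Not at hQy
    have hc : ∀ (t : F) (v : ι → F), hT.cc (y₀ + t • p) v = hT.cc y₀ v + t • hT.cc p v :=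
      fun t v => by rw [hT.cc_add, hT.cc_smul]; rfl
    have hmem : ∀ t : F, hT.cc (y₀ + t • p) E = 0 ∧ hT.cc (y₀ + t • p) φ ≠ 0 := fun t =>
      ⟨by rw [hc, hy₀, hpE, smul_zero, add_zero], by rwa [hc, hpφ, smul_zero, add_zero]⟩
    by_cases h1 : f₂ (y₀ + (1 : F) • p) (y₀ + (1 : F) • p) ≠ 0
    · exact ⟨_, (hmem 1).1, h1, (hmem 1).2⟩
    refine ⟨_, (hmem (-1)).1, fun h2 => hQp ?_, (hmem (-1)).2⟩
    push Not at h1
    rw [hT.q_add_smul, hQy] at h1 h2
    refine mul_left_cancel₀ hT.two ?_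
    linear_combination h1 + h2
  set R' := kron e P (1 : GL (Fin 2) F) (hT.r hwQ) with hR'
  have hR'M : R' ∈ M := hH 1 (one_mem _) _ (hT.r_mem hwQ)
  set d := hT.cc w φ with hd
  set ω := -(2 / f₂ w w) with hω
  have hω0 : ω ≠ 0 := neg_ne_zero.mpr (div_ne_zero hT.two hwQ)
  set W := ω • pt e P d w with hW
  have hRE : ap R' E = E := by
    rw [hR', hT.ap_kron_r, hwE, pt_zero_left, smul_zero, sub_zero]
  have hRφ : ap R' φ = φ + W := by
    rw [hR', hT.ap_kron_r, hW, hω, neg_smul, sub_eq_add_neg]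
  have hR2 : ∀ x, ap R' (ap R' x) = x := fun x => by
    rw [hR', hT.ap_kron_r, hT.ap_kron_r, map_sub, map_smul, cc_pt, pt_sub_left, pt_smul_left,
      pt_smul_left, smul_smul, div_mul_cancel₀ _ hwQ]
    module
  have hR'I := hM hR'M
  have hk'' : ∀ x, ap (R' * k * R') x = x - (2 : F) • (f x (φ + W) • E - f x E • (φ + W)) := by
    intro x
    have h1 : f (ap R' x) φ = f x (φ + W) := by
      rw [← hRφ, ← mem_isom_iff.mp hR'I x (ap R' φ), hR2]
    have h2 : f (ap R' x) E = f x E := by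
      conv_rhs => rw [← mem_isom_iff.mp hR'I x E, hRE]
    rw [ap_mul, ap_mul, hk', ap_sub, ap_smul, ap_sub, ap_smul, ap_smul, hRE, hRφ, hR2, h1, h2]
  have hEW : f E W = 0 := by
    rw [hW, hT.symp.bilinear.smul_right, hT.f_pt, hwE, Symp.zero_left hT.symp₁, mul_zero]
  have hWE : f W E = 0 := by rw [hT.symp.skew, hEW, neg_zero]
  have hφW : f φ W = 0 := by
    rw [hW, hT.symp.bilinear.smul_right, hT.f_pt, ← hd, hT.symp₁.alternating, mul_zero]
  have hWφ : f W φ = 0 := by rw [hT.symp.skew, hφW, neg_zero]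
  have hφE : f φ E = -1 := by rw [hT.symp.skew, hEφ]
  set k₁ := k * (R' * k * R') with hk₁
  have hk₁M : k₁ ∈ M := M.mul_mem hk (M.mul_mem (M.mul_mem hR'M hk) hR'M)
  have hk₁' : ∀ x, ap k₁ x = x + (2 : F) • (f x W • E + f x E • W) := by
    intro x
    rw [hk₁, ap_mul, hk'', hk']
    simp only [Symp.sub_left hT.symp, hT.symp.bilinear.smul_left, hT.symp.bilinear.add_left,
      hT.symp.bilinear.add_right, hT.symp.alternating, hEφ, hφE, hWE, hWφ]
    match_scalars <;> ring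
  set α := Symp.fl hT.symp₁ d with hα
  have hαd : α d = 0 := hT.symp₁.alternating d
  set y := conr e P α E with hy
  have hyw : f₂ y w = 0 := by
    rw [← fr_apply hT w, hy, apply_conr]
    show α (hT.cc w E) = 0
    rw [hwE, map_zero]
  have hd0 : d ≠ 0 := hwφ
  have hfW : ∀ u x, f (pt e P u x) W = ω * (f₁ u d * f₂ x w) := fun u x => by
    rw [hW, hT.symp.bilinear.smul_right, hT.form]
  by_cases hy0 : y = 0
  · -- the vector `E` is pure
    obtain ⟨d', hd'⟩ := (hT.symp₁.nondegenerate d hd0).2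
    set γ := (f₁ d d')⁻¹ • Symp.fl hT.symp₁ d' with hγ
    have hEp : E = pt e P d (conr e P γ E) := by
      have hl : (LinearMap.id : (ι → F) →ₗ[F] (ι → F)) = (ptr e P d).comp (conr e P γ) -
          (ptr e P d').comp (conr e P ((f₁ d d')⁻¹ • α)) := ext_pt e P fun a x => by
        have h := hT.plane_id a d d'
        simp only [LinearMap.id_apply, LinearMap.sub_apply, LinearMap.comp_apply, conr_pt, hγ,
          LinearMap.smul_apply, Symp.fl_apply, hα, smul_eq_mul]
        rw [show ptr e P d ((((f₁ d d')⁻¹ * f₁ a d')) • x) = pt e P d ((((f₁ d d')⁻¹ * f₁ a d')) • x)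
            from rfl,
          show ptr e P d' ((((f₁ d d')⁻¹ * f₁ a d)) • x) = pt e P d' ((((f₁ d d')⁻¹ * f₁ a d)) • x)
            from rfl, pt_smul_right, pt_smul_right, ← pt_smul_left, ← pt_smul_left, ← pt_sub_left,
          ← smul_smul, ← smul_smul, ← smul_sub, ← h, smul_smul, inv_mul_cancel₀ hd', one_smul]
      have h1 := LinearMap.congr_fun hl E
      have h2 : conr e P ((f₁ d d')⁻¹ • α) E = 0 := by
        refine hT.eq_zero_of_perp fun b => ?_
        rw [← fr_apply hT b, apply_conr, LinearMap.smul_apply]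
        have : α (con e P (hT.fr b) E) = 0 := by
          rw [← apply_conr, ← hy, hy0, map_zero]
        rw [this, smul_zero]
      simp only [LinearMap.id_apply, LinearMap.sub_apply, LinearMap.comp_apply, h2, map_zero,
        sub_zero] at h1
      exact h1
    set y₂ := conr e P γ E
    have hy2 : y₂ ≠ 0 := fun h => one_ne_zero (α := F) (by
      rw [← hEφ, hEp, h, pt_zero_right, Symp.zero_left hT.symp])
    have hy2w : f₂ y₂ w = 0 := by
      have h := hwE
      rw [hEp, cc_pt, smul_eq_zero] at h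
      exact h.resolve_right hd0
    refine hT.hasFix_of_unip hn hH hk₁M hd0 hwQ hy2 hy2w (a' := 2 * ω) (b' := 0)
      (mul_ne_zero hT.two hω0) fun u x => ?_
    rw [hk₁', hfW, hEp, hT.form, hW]
    simp only [pt_smul_left, pt_add_right, pt_smul_right]
    match_scalars <;> ring
  set g₁ := Symp.T hT.symp₁ d 1 with hg₁
  set gT := kron e P g₁ (1 : GL (Fin n) F) with hgT
  have hgTI : gT ∈ isom f := hT.kron_isom (Symp.T_mem_isom hT.symp₁ d 1) (one_mem _)
  have hgTM : gT ∈ M := hH _ (Symp.T_mem_isom hT.symp₁ d 1) _ (one_mem _)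
  have hgT' : ∀ x, ap gT x = x + pt e P d (conr e P α x) := by
    have hl : (apEquiv gT).toLinearMap = LinearMap.id + (ptr e P d).comp (conr e P α) :=
      ext_pt e P fun a z => by
        simp only [LinearEquiv.coe_coe, apEquiv_apply, hgT, ap_kron, ap_one, hg₁, Symp.ap_T,
          one_mul, pt_add_left, pt_smul_left, LinearMap.add_apply, LinearMap.id_apply,
          LinearMap.comp_apply, conr_pt, hα, Symp.fl_apply, map_smul]
        rfl
    exact fun x => LinearMap.congr_fun hl x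
  set D := pt e P d y with hD
  have hgE : ap gT E = E + D := hgT' E
  have hgW : ap gT W = W := by
    rw [hgT', hW, map_smul, conr_pt, hαd, zero_smul, smul_zero, pt_zero_right, add_zero]
  have hfED : f E D = f₂ y y := by
    rw [hD, hT.f_pt]
    show α (hT.cc y E) = _
    rw [← fr_apply hT y y]
    conv_rhs => arg 2; rw [hy]
    rw [apply_conr]
    rfl
  have hWD : f W D = 0 := by
    rw [hW, hD, hT.symp.bilinear.smul_left, hT.form, hT.symp₁.alternating, zero_mul, mul_zero]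
  have hconj : ∀ x, ap (gT * k₁ * gT⁻¹) x = x + (2 : F) • (f x W • (E + D) + f x (E + D) • W) := by
    intro x
    have h1 : ∀ v, f (ap gT⁻¹ x) v = f x (ap gT v) := fun v => by
      conv_rhs => rw [← ap_ap_inv gT x, mem_isom_iff.mp hgTI]
    rw [ap_mul, ap_mul, hk₁', ap_add, ap_ap_inv, ap_smul, ap_add, ap_smul, ap_smul, h1, h1, hgE,
      hgW]
  have hk₁inv : ∀ x, ap k₁⁻¹ x = x - (2 : F) • (f x W • E + f x E • W) := by
    intro x
    apply ap_injective k₁
    rw [ap_ap_inv, hk₁']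
    simp only [Symp.sub_left hT.symp, hT.symp.bilinear.smul_left, hT.symp.bilinear.add_left,
      hT.symp.alternating, hEW, hWE]
    match_scalars <;> ring
  set m := gT * k₁ * gT⁻¹ * k₁⁻¹
  have hmM : m ∈ M :=
    M.mul_mem (M.mul_mem (M.mul_mem hgTM hk₁M) (M.inv_mem hgTM)) (M.inv_mem hk₁M)
  have hm' : ∀ x, ap m x = x + (2 : F) • (f x W • D + f x D • W) +
      (-4 * f₂ y y) • (f x W • W) := by
    intro x
    rw [ap_mul, hconj, hk₁inv]
    simp only [Symp.sub_left hT.symp, hT.symp.bilinear.smul_left, hT.symp.bilinear.add_left,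
      hT.symp.bilinear.add_right, hT.symp.alternating, hEW, hWE, hfED, hWD]
    match_scalars <;> ring
  refine hT.hasFix_of_unip hn hH hmM hd0 hwQ hy0 hyw (a' := 2 * ω) (b' := -4 * f₂ y y * ω * ω)
    (mul_ne_zero hT.two hω0) fun u x => ?_
  rw [hm', hfW, hD, hT.form, hW]
  simp only [pt_smul_left, pt_add_right, pt_smul_right]
  match_scalars <;> ring

end CfsgLib.Geometric.SOTensor.Data
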