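import Cfsg.Agent.Lib.Geometric.SOTensor.Basic
import Cfsg.Agent.Lib.Geometric.LinearTensorUnip

/-!
A group containing the factorwise isometries and an element outside the stabiliser of the tensor
decomposition contains such an element fixing the slice of a singular vector pointwise.
-/

set_option autoImplicit false
set_option linter.unusedSectionVars false

namespace CfsgLib.Geometric.SOTensor.Data

open Matrix Tensor

variable {ι : Type} [Fintype ι] [DecidableEq ι] {F : Type*} [Field F]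
variable {f : (ι → F) → (ι → F) → F} {n : ℕ} {e : ι ≃ Fin 2 × Fin n} {P : GL ι F}
  {f₁ : (Fin 2 → F) → (Fin 2 → F) → F} {f₂ : (Fin n → F) → (Fin n → F) → F}
variable [Finite F] (hT : Data f e P f₁ f₂)
include hT

lemma exists_nonzero (n' : ℕ) (h : 0 < n') : ∃ u : Fin n' → F, u ≠ 0 :=
  ⟨Pi.single ⟨0, h⟩ 1, fun h0 => by simpa using congrFun h0 ⟨0, h⟩⟩

/-- An element sending the slice of each vector of non-zero value into a slice lies in the
stabiliser. -/
lemma mem_of_slices {g : GL ι F}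
    (h : ∀ v, f₂ v v ≠ 0 → ∃ x, ∀ u, ap g (pt e P u v) ∈ slice e P x) :
    g ∈ Cfsg.Geo.tensorProductSubgroup 2 n e P := by
  classical
  have h5 := hT.four
  -- the action on the first factor
  have hA : ∀ v, f₂ v v ≠ 0 → ∃ (A : (Fin 2 → F) →ₗ[F] (Fin 2 → F)) (x : Fin n → F),
      Function.Injective A ∧ x ≠ 0 ∧ ∀ u, ap g (pt e P u v) = pt e P (A u) x := by
    intro v hv
    have hv0 : v ≠ 0 := fun h0 => hv (by rw [h0, hT.zero_left₂])
    obtain ⟨x, hx⟩ := h v hv
    obtain ⟨u₀, hu₀⟩ := hT.exists_nonzero 2 two_pos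
    have hx0 : x ≠ 0 := by
      rintro rfl
      obtain ⟨p, hp⟩ := hx u₀
      rw [ptl_apply, pt_zero_right] at hp
      exact ap_ne_zero g (pt_ne_zero e P hu₀ hv0) hp.symm
    obtain ⟨φ, -, hφ⟩ := exists_functional_eq_one (U := ⊥) (x := x) (by simpa using hx0)
    set A := (con e P φ).comp ((apEquiv g).toLinearMap.comp (ptl e P v)) with hAdef
    have key : ∀ u, ap g (pt e P u v) = pt e P (A u) x := fun u => by
      obtain ⟨p, hp⟩ := hx u
      rw [ptl_apply] at hp
      have : A u = p := by simp [hAdef, ← hp, hφ]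
      rw [this, hp]
    refine ⟨A, x, (injective_iff_map_eq_zero _).mpr fun u hu => ?_, hx0, key⟩
    have h1 := key u
    rw [hu, pt_zero_left] at h1
    by_contra hne
    exact ap_ne_zero g (pt_ne_zero e P hne hv0) h1
  choose A X hinj hX hg using hA
  -- proportional factors
  let R : (Fin n → F) → (Fin n → F) → Prop := fun v w =>
    ∀ (hv : f₂ v v ≠ 0) (hw : f₂ w w ≠ 0), ∃ c : F, ∀ u, A v hv u = c • A w hw u
  have hdep : ∀ v w, v ∈ Submodule.span F {w} → R v w := by
    intro v w h hv hw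
    obtain ⟨t, rfl⟩ := Submodule.mem_span_singleton.mp h
    obtain ⟨φ, -, hφ⟩ := exists_functional_eq_one (U := ⊥) (x := X _ hv) (by simpa using hX _ hv)
    refine ⟨t * φ (X _ hw), fun u => ?_⟩
    have h1 := congrArg (con e P φ) ((hg _ hv u).symm.trans
      ((congrArg (ap g) (pt_smul_right e P t u w)).trans
        ((ap_smul g t _).trans (congrArg (t • ·) (hg _ hw u)))))
    simpa [hφ, smul_smul] using h1
  have hsum : ∀ (v w z : Fin n → F) (t : F), z = v + t • w → t ≠ 0 → v ∉ Submodule.span F {w} →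
      ∀ (hv : f₂ v v ≠ 0) (hw : f₂ w w ≠ 0) (hz : f₂ z z ≠ 0),
        (∃ c : F, c ≠ 0 ∧ ∀ u, A v hv u = c • A z hz u) ∧
        ∃ c : F, c ≠ 0 ∧ ∀ u, A w hw u = c • A z hz u := by
    rintro v w z t rfl ht hvw hv hw hz
    obtain ⟨u₀, hu₀⟩ := hT.exists_nonzero 2 two_pos
    have hindep : X v hv ∉ Submodule.span F {X w hw} := by
      intro h0
      obtain ⟨a, ha⟩ := Submodule.mem_span_singleton.mp h0
      obtain ⟨u', hu'⟩ := (LinearMap.surjective_of_injective (hinj w hw)) (a • A v hv u₀)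
      have h1 : pt e P u₀ v = pt e P u' w := ap_injective g (by
        rw [hg v hv, hg w hw, hu', pt_smul_left, ← pt_smul_right, ha])
      obtain ⟨α, -, hα⟩ := exists_functional_eq_one (U := ⊥) (x := u₀) (by simpa using hu₀)
      have h2 := congrArg (conr e P α) h1
      rw [conr_pt, conr_pt, hα, one_smul] at h2
      exact hvw (Submodule.mem_span_singleton.mpr ⟨α u', h2.symm⟩)
    have hrel : ∀ u, pt e P (A _ hz u) (X _ hz) =
        pt e P (A v hv u) (X v hv) + t • pt e P (A w hw u) (X w hw) := fun u => by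
      rw [← hg _ hz, ← hg v hv, ← hg w hw, ← ap_smul, ← ap_add, pt_add_right, pt_smul_right]
    obtain ⟨φ, hφ, hφ1⟩ := exists_functional_eq_one hindep
    have hindep' : X w hw ∉ Submodule.span F {X v hv} := fun h0 => by
      obtain ⟨a, ha⟩ := Submodule.mem_span_singleton.mp h0
      have := congrArg φ ha
      rw [map_smul, hφ1, hφ _ (Submodule.mem_span_singleton_self _), smul_eq_mul, mul_one] at this
      exact hX w hw (by rw [← ha, this, zero_smul])
    obtain ⟨ψ, hψ, hψ1⟩ := exists_functional_eq_one hindep'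
    have e1 : ∀ u, A v hv u = φ (X _ hz) • A _ hz u := fun u => by
      have := congrArg (con e P φ) (hrel u)
      simpa [hφ1, hφ _ (Submodule.mem_span_singleton_self _)] using this.symm
    have e2 : ∀ u, A w hw u = (ψ (X _ hz) / t) • A _ hz u := fun u => by
      have := congrArg (con e P ψ) (hrel u)
      simp only [map_add, map_smul, con_pt, hψ1, hψ _ (Submodule.mem_span_singleton_self _),
        zero_smul, zero_add, one_smul] at this
      rw [div_eq_inv_mul, ← smul_smul, this, smul_smul, inv_mul_cancel₀ ht, one_smul]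
    refine ⟨⟨_, fun h0 => hu₀ (hinj v hv ?_), e1⟩, ⟨_, fun h0 => hu₀ (hinj w hw ?_), e2⟩⟩
    · rw [e1, h0, zero_smul, map_zero]
    · rw [e2, h0, zero_smul, map_zero]
  have hne : ∀ v w : Fin n → F, v ∉ Submodule.span F {w} →
      (f₂ (v + w) (v + w) ≠ 0 ∨ f₂ (v + (-1 : F) • w) (v + (-1 : F) • w) ≠ 0) → R v w := by
    intro v w hvw hq hv hw
    have key : ∀ t : F, t ≠ 0 → f₂ (v + t • w) (v + t • w) ≠ 0 →
        ∃ c : F, ∀ u, A v hv u = c • A w hw u := by
      intro t ht hz
      obtain ⟨⟨c, -, hc⟩, ⟨d, hd, hd'⟩⟩ := hsum v w _ t rfl ht hvw hv hw hz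
      exact ⟨c / d, fun u => by rw [hc, hd', smul_smul, div_mul_cancel₀ _ hd]⟩
    rcases hq with hq | hq
    · exact key 1 one_ne_zero (by rwa [one_smul])
    · exact key (-1) (by simp) hq
  have hgood : ∀ v w, f₂ v v + f₂ w w ≠ 0 → R v w := by
    intro v w hvw
    by_cases hd : v ∈ Submodule.span F {w}
    · exact hdep v w hd
    refine hne v w hd ?_
    by_contra hc
    push Not at hc
    obtain ⟨h1, h2⟩ := hc
    rw [hT.q_add] at h1
    rw [hT.q_add_smul] at h2
    have : 2 * (f₂ v v + f₂ w w) = 0 := by linear_combination h1 + h2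
    exact hvw ((mul_eq_zero.mp this).resolve_left hT.two)
  have htrans : ∀ v x w, f₂ x x ≠ 0 → R v x → R x w → R v w := by
    intro v x w hx h1 h2 hv hw
    obtain ⟨c, hc⟩ := h1 hv hx
    obtain ⟨d, hd⟩ := h2 hx hw
    exact ⟨c * d, fun u => by rw [hc, hd, smul_smul]⟩
  have hshift : ∀ v l, f₂ l v = 0 → f₂ v v ≠ 0 → f₂ l l ≠ 0 → R (v + l) v ∧ R v (v + l) := by
    intro v l hlv hv hl
    have hl0 : l ≠ 0 := fun h => hl (by rw [h, hT.zero_left₂])
    have hind : l ∉ Submodule.span F {v} := fun h => by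
      obtain ⟨t, rfl⟩ := Submodule.mem_span_singleton.mp h
      rw [hT.symm₂.bilinear.smul_left] at hlv
      rcases mul_eq_zero.mp hlv with h' | h'
      · exact hl0 (by rw [h', zero_smul])
      · exact hv h'
    have hsub : ∀ x ∈ Submodule.span F {v}, x - v ∈ Submodule.span F {v} :=
      fun x hx => Submodule.sub_mem _ hx (Submodule.mem_span_singleton_self v)
    refine ⟨hne _ v (fun h => hind (by simpa using hsub _ h)) (Or.inr ?_),
      hne v _ (fun h => hind ?_) (Or.inr ?_)⟩
    · rwa [show v + l + (-1 : F) • v = l by module]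
    · obtain ⟨t, ht⟩ := Submodule.mem_span_singleton.mp h
      have ht0 : t ≠ 0 := fun h0 => hv (by rw [← ht, h0, zero_smul, hT.zero_left₂])
      refine Submodule.mem_span_singleton.mpr ⟨(1 - t) / t, ?_⟩
      have h1 : t • l = (1 - t) • v := by linear_combination (norm := module) ht
      rw [div_eq_inv_mul, ← smul_smul, ← h1, smul_smul, inv_mul_cancel₀ ht0, one_smul]
    · rwa [show v + (-1 : F) • (v + l) = (-1 : F) • l by module, hT.q_smul, neg_mul_neg, one_mul,
        one_mul]
  have hall : ∀ v w, f₂ v v ≠ 0 → f₂ w w ≠ 0 → R v w := by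
    intro v w hv hw
    by_cases hq : f₂ v v + f₂ w w = 0
    swap
    · exact hgood v w hq
    have hwq : f₂ w w = -f₂ v v := by linear_combination hq
    obtain ⟨l, hlv, hlw, hl⟩ := hT.exists_aniso_perp v w
    have hq2 : f₂ v v * 2 ≠ 0 := mul_ne_zero hv hT.two
    by_cases h1 : f₂ v v + f₂ l l = 0
    · -- the value of `l` is the one of `w`
      have hll : f₂ l l = -f₂ v v := by linear_combination h1
      have hs : f₂ (w + l) (w + l) = -(f₂ v v * 2) := by
        rw [hT.q_add, hT.symm₂.symm w l, hlw, hwq, hll]; ring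
      refine htrans v (w + l) w (by rw [hs]; exact neg_ne_zero.mpr hq2) ?_ (hshift w l hlw hw hl).1
      refine hgood _ _ fun h => hv ?_
      linear_combination hs - h
    · by_cases h2 : f₂ l l + f₂ w w = 0
      · have hll : f₂ l l = f₂ v v := by linear_combination h2 - hwq
        have hs : f₂ (v + l) (v + l) = f₂ v v * 2 := by
          rw [hT.q_add, hT.symm₂.symm v l, hlv, hll]; ring
        refine htrans v (v + l) w (by rw [hs]; exact hq2) (hshift v l hlv hv hl).2 ?_
        refine hgood _ _ fun h => hv ?_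
        linear_combination h - hs - hwq
      · exact htrans v l w hl (hgood v l h1) (hgood l w h2)
  -- assembling
  obtain ⟨v₀, -, hv₀⟩ := hT.exists_aniso (N := ⊤) (by rw [finrank_top, Module.finrank_fin_fun]; omega)
  set A₀ := A v₀ hv₀
  obtain ⟨u₀, hu₀⟩ := hT.exists_nonzero 2 two_pos
  obtain ⟨α, -, hα⟩ := exists_functional_eq_one (U := ⊥) (x := A₀ u₀)
    (by simpa using fun h => hu₀ (hinj v₀ hv₀ (h.trans (map_zero A₀).symm)))
  let B : (Fin n → F) →ₗ[F] (Fin n → F) :=
    (conr e P α).comp ((apEquiv g).toLinearMap.comp (ptr e P u₀))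
  let Good : Submodule F (Fin n → F) :=
    { carrier := {y | ∀ u, ap g (pt e P u y) = pt e P (A₀ u) (B y)}
      add_mem' := fun {a b} ha hb u => by
        rw [pt_add_right, ap_add, ha, hb, map_add, pt_add_right]
      zero_mem' := fun u => by rw [pt_zero_right, ap_zero, map_zero, pt_zero_right]
      smul_mem' := fun c a ha u => by rw [pt_smul_right, ap_smul, ha, map_smul, pt_smul_right] }
  have hGood : ∀ v, f₂ v v ≠ 0 → v ∈ Good := by
    intro v hv u
    obtain ⟨c, hc⟩ := hall v v₀ hv hv₀ hv hv₀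
    have hB : B v = c • X v hv := by simp [B, hg v hv, hc, A₀, hα]
    rw [hg v hv, hc, hB, pt_smul_left, pt_smul_right]
  have htop : ∀ y, y ∈ Good := by
    intro y
    by_cases hy : f₂ y y = 0
    swap
    · exact hGood y hy
    by_cases h1 : f₂ (y + v₀) (y + v₀) = 0
    · have h2 : f₂ (y + (-1 : F) • v₀) (y + (-1 : F) • v₀) ≠ 0 := by
        rw [hT.q_add, hy] at h1
        rw [hT.q_add_smul, hy]
        intro h2
        have : 2 * f₂ v₀ v₀ = 0 := by linear_combination h1 + h2
        exact hv₀ ((mul_eq_zero.mp this).resolve_left hT.two)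
      have := Good.add_mem (hGood _ h2) (hGood v₀ hv₀)
      simpa using this
    · have := Good.sub_mem (hGood _ h1) (hGood v₀ hv₀)
      simpa using this
  have hBinj : Function.Injective B := (injective_iff_map_eq_zero _).mpr fun y hy => by
    have h1 := htop y u₀
    rw [hy, pt_zero_right] at h1
    by_contra hne
    exact ap_ne_zero g (pt_ne_zero e P hu₀ hne) h1
  refine (mem_iff e P g).mpr ⟨ofEquiv (LinearEquiv.ofInjectiveEndo A₀ (hinj v₀ hv₀)),
    ofEquiv (LinearEquiv.ofInjectiveEndo B hBinj), fun u y => ?_⟩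
  rw [ap_ofEquiv, ap_ofEquiv]
  exact htop y u

variable {M : Subgroup (GL ι F)}

/-- The plane moved by a conjugate of a reflection. -/
lemma ap_conj_r {g : GL ι F} (hg : g ∈ isom f) {v : Fin n → F} (hv : f₂ v v ≠ 0)
    {u₁ u₂ : Fin 2 → F} (hu : f₁ u₁ u₂ = 1) (hdec : ∀ c, c = f₁ c u₂ • u₁ - f₁ c u₁ • u₂)
    (x : ι → F) :
    ap (g * kron e P (1 : GL (Fin 2) F) (hT.r hv) * g⁻¹) x =
      x - (2 : F) • (f x ((f₂ v v)⁻¹ • ap g (pt e P u₂ v)) • ap g (pt e P u₁ v) -
        f x (ap g (pt e P u₁ v)) • ((f₂ v v)⁻¹ • ap g (pt e P u₂ v))) := by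
  have hc : ∀ u, f₁ (hT.cc v (ap g⁻¹ x)) u = f x (ap g (pt e P u v)) := fun u => by
    have := mem_isom_iff.mp hg (ap g⁻¹ x) (pt e P u v)
    rw [ap_ap_inv, hT.f_pt] at this
    exact this.symm
  rw [ap_mul, ap_mul, hT.ap_kron_r, ap_sub, ap_ap_inv, ap_smul, hdec (hT.cc v (ap g⁻¹ x)), hc, hc,
    pt_sub_left, pt_smul_left, pt_smul_left, ap_sub, ap_smul, ap_smul, hT.symp.bilinear.smul_right]
  module

/-- An element outside the stabiliser moving a non-degenerate plane by `-1`. -/
theorem exists_involution (hM : M ≤ isom f)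
    (hH : ∀ a ∈ isom f₁, ∀ b ∈ isom f₂, kron e P a b ∈ M) {g : GL ι F} (hg : g ∈ M)
    (hgT : g ∉ Cfsg.Geo.tensorProductSubgroup 2 n e P) :
    ∃ k ∈ M, k ∉ Cfsg.Geo.tensorProductSubgroup 2 n e P ∧
      ∃ E φ : ι → F, f E φ = 1 ∧ ∀ x, ap k x = x - (2 : F) • (f x φ • E - f x E • φ) := by
  classical
  have h5 := hT.four
  have hgI := hM hg
  obtain ⟨u₁, u₂, h12, hdec⟩ := hT.exists_basis₁
  have hu₁ : u₁ ≠ 0 := fun h => one_ne_zero (α := F) (by
    rw [← h12, h, Symp.zero_left hT.symp₁])
  have hu₂ : u₂ ≠ 0 := fun h => one_ne_zero (α := F) (by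
    rw [← h12, h, Symp.zero_right hT.symp₁])
  obtain ⟨v, hv, hk⟩ : ∃ (v : Fin n → F) (hv : f₂ v v ≠ 0),
      g * kron e P (1 : GL (Fin 2) F) (hT.r hv) * g⁻¹ ∉
        Cfsg.Geo.tensorProductSubgroup 2 n e P := by
    by_contra hc
    push Not at hc
    refine hgT (hT.mem_of_slices fun v hv => ?_)
    obtain ⟨a, b, hab⟩ := (mem_iff e P _).mp (hc v hv)
    set k := g * kron e P (1 : GL (Fin 2) F) (hT.r hv) * g⁻¹ with hk
    set E₁ := ap g (pt e P u₁ v)
    set E₂ := (f₂ v v)⁻¹ • ap g (pt e P u₂ v) with hE₂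
    have hk' : ∀ x, ap k x = x - (2 : F) • (f x E₂ • E₁ - f x E₁ • E₂) :=
      fun x => hT.ap_conj_r hgI hv h12 hdec x
    -- the first factor is scalar
    have heig : ∀ u, ∃ t : F, (apEquiv a).toLinearMap u = t • u := by
      intro u
      by_cases hu : u = 0
      · exact ⟨0, by simp [hu, ap_zero]⟩
      let Φ : (Fin n → F) →ₗ[F] F × F :=
        ((Symp.fl hT.symp E₁).prod (Symp.fl hT.symp E₂)).comp (ptr e P u)
      have hker : LinearMap.ker Φ ≠ ⊥ := LinearMap.ker_ne_bot_of_finrank_lt (by simp; omega)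
      obtain ⟨z, hz, hz0⟩ := Submodule.exists_mem_ne_zero_of_ne_bot hker
      have hz' : f (pt e P u z) E₁ = 0 ∧ f (pt e P u z) E₂ = 0 := Prod.mk_eq_zero.mp hz
      have h1 := hab u z
      rw [hk', hz'.1, hz'.2, zero_smul, zero_smul, sub_zero, smul_zero, sub_zero] at h1
      obtain ⟨φ, -, hφ⟩ := exists_functional_eq_one (U := ⊥) (x := z) (by simpa using hz0)
      have h2 := congrArg (con e P φ) h1
      rw [con_pt, con_pt, hφ, one_smul] at h2
      have hφb : φ (ap b z) ≠ 0 := fun h0 => hu (by rw [h2, h0, zero_smul])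
      refine ⟨(φ (ap b z))⁻¹, ?_⟩
      show ap a u = _
      conv_rhs => rw [h2, smul_smul, inv_mul_cancel₀ hφb, one_smul]
    obtain ⟨μ, hμ⟩ := exists_scalar heig
    simp only [LinearEquiv.coe_coe, apEquiv_apply] at hμ
    set L := Submodule.span F ({E₁, E₂} : Set (ι → F))
    have himg : ∀ z u, pt e P u (μ • ap b z - z) ∈ L := by
      intro z u
      have h1 := hab u z
      rw [hk', hμ, pt_smul_left, ← pt_smul_right] at h1
      rw [pt_sub_right, ← h1]
      rw [sub_sub_cancel_left, ← neg_smul]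
      exact L.smul_mem _ (L.sub_mem (L.smul_mem _ (Submodule.subset_span (by simp)))
        (L.smul_mem _ (Submodule.subset_span (by simp))))
    obtain ⟨z, hz⟩ : ∃ z, μ • ap b z - z ≠ 0 := by
      by_contra hc'
      push Not at hc'
      have hk1 : k = 1 := gl_ext_pt e P fun u z => by
        rw [hab, hμ, pt_smul_left, ← pt_smul_right, sub_eq_zero.mp (hc' z), ap_one]
      rw [hk, conj_eq_one_iff] at hk1
      have := congrArg (fun k => ap k (pt e P u₁ v)) hk1
      simp only [ap_kron, ap_one, hT.ap_r] at this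
      have h2 := pt_inj_right e P hu₁ this
      rw [div_mul_cancel₀ _ hv, sub_eq_self, smul_eq_zero] at h2
      exact h2.elim hT.two fun h0 => hv (by rw [h0, hT.zero_left₂])
    have hslice : slice e P (μ • ap b z - z) = L := by
      refine Submodule.eq_of_le_of_finrank_le ?_ ?_
      · rintro _ ⟨u, rfl⟩
        exact himg z u
      · have h1 : Module.finrank F L ≤ 2 := by
          have h := finrank_span_finset_le_card (R := F) ({E₁, E₂} : Finset (ι → F))
          rw [Finset.coe_insert, Finset.coe_singleton] at h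
          exact h.trans Finset.card_le_two
        refine h1.trans_eq ?_
        rw [slice, LinearMap.finrank_range_of_inj fun p p' h => pt_inj_left e P hz h,
          Module.finrank_fin_fun]
    refine ⟨μ • ap b z - z, fun u => ?_⟩
    rw [hslice, hdec u, pt_sub_left, pt_smul_left, pt_smul_left, ap_sub, ap_smul, ap_smul]
    refine L.sub_mem (L.smul_mem _ (Submodule.subset_span (by simp [E₁]))) (L.smul_mem _ ?_)
    have h2 : ap g (pt e P u₂ v) = f₂ v v • E₂ := by
      rw [hE₂, smul_smul, mul_inv_cancel₀ hv, one_smul]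
    rw [h2]
    exact L.smul_mem _ (Submodule.subset_span (by simp))
  refine ⟨g * kron e P (1 : GL (Fin 2) F) (hT.r hv) * g⁻¹,
    M.mul_mem (M.mul_mem hg (hH 1 (one_mem _) _ (hT.r_mem hv))) (M.inv_mem hg), hk,
    ap g (pt e P u₁ v), (f₂ v v)⁻¹ • ap g (pt e P u₂ v), ?_, fun x => hT.ap_conj_r hgI hv h12 hdec x⟩
  rw [hT.symp.bilinear.smul_right, mem_isom_iff.mp hgI, hT.form, h12, one_mul, inv_mul_cancel₀ hv]

/-- An element fixing pointwise a slice of a singular vector. -/
theorem exists_fix_singular (h5 : 5 ≤ n) (hM : M ≤ isom f)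
    (hH : ∀ a ∈ isom f₁, ∀ b ∈ isom f₂, kron e P a b ∈ M) {g : GL ι F} (hg : g ∈ M)
    (hgT : g ∉ Cfsg.Geo.tensorProductSubgroup 2 n e P) :
    ∃ k ∈ M, k ∉ Cfsg.Geo.tensorProductSubgroup 2 n e P ∧
      ∃ s, s ≠ 0 ∧ f₂ s s = 0 ∧ ∀ u, ap k (pt e P u s) = pt e P u s := by
  classical
  obtain ⟨u₁, u₂, h12, -⟩ := hT.exists_basis₁
  have hu₁ : u₁ ≠ 0 := fun h => one_ne_zero (α := F) (by
    rw [← h12, h, Symp.zero_left hT.symp₁])
  obtain ⟨k, hkM, hk, E, φ, hEφ, hk'⟩ := hT.exists_involution hM hH hg hgT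
  -- the vectors orthogonal to the support of `E`
  let K : (Fin n → F) →ₗ[F] (Fin 2 → F) :=
    { toFun := fun y => hT.cc y E
      map_add' := fun a b => by rw [hT.cc_add]; rfl
      map_smul' := fun c a => by rw [hT.cc_smul]; rfl }
  have hN3 : n ≤ Module.finrank F (LinearMap.ker K) + 2 := by
    have h1 := LinearMap.finrank_range_add_finrank_ker K
    have h2 := Submodule.finrank_le (LinearMap.range K)
    rw [Module.finrank_fin_fun] at h1 h2
    omega
  by_cases hcase : ∀ y ∈ LinearMap.ker K, hT.cc y φ = 0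
  · -- fixed already
    obtain ⟨v', hv', hQ'⟩ := hT.exists_aniso (N := LinearMap.ker K) (by omega)
    obtain ⟨s, hs, hs0, hQs⟩ := hT.exists_singular (N := LinearMap.ker K) (by omega)
    refine ⟨k, hkM, hk, s, hs0, hQs, fun u => ?_⟩
    have h1 : f (pt e P u s) E = 0 := by
      rw [hT.pt_f, show hT.cc s E = 0 from hs, Symp.zero_right hT.symp₁]
    have h2 : f (pt e P u s) φ = 0 := by
      rw [hT.pt_f, hcase s hs, Symp.zero_right hT.symp₁]
    rw [hk', h1, h2, zero_smul, zero_smul, sub_zero, smul_zero, sub_zero]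
  push Not at hcase
  obtain ⟨y₀, hy₀, hy₀φ⟩ := hcase
  obtain ⟨w, hwN, hwQ, hwφ, σ, hσN, hσ0, hσQ, hσw⟩ :=
    hT.exists_pair h5 (N := LinearMap.ker K) (by omega) φ hy₀ hy₀φ
  have hwE : hT.cc w E = 0 := hwN
  set R' := kron e P (1 : GL (Fin 2) F) (hT.r hwQ) with hR'
  have hR'M : R' ∈ M := hH 1 (one_mem _) _ (hT.r_mem hwQ)
  set W := (-(2 / f₂ w w)) • pt e P (hT.cc w φ) w with hW
  have hRE : ap R' E = E := by
    rw [hR', hT.ap_kron_r, hwE, pt_zero_left, smul_zero, sub_zero]
  have hRφ : ap R' φ = φ + W := by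
    rw [hR', hT.ap_kron_r, hW, neg_smul, sub_eq_add_neg]
  have hR2 : ∀ x, ap R' (ap R' x) = x := fun x => by
    rw [hR', hT.ap_kron_r, hT.ap_kron_r, map_sub, map_smul, cc_pt, pt_sub_left, pt_smul_left,
      pt_smul_left, smul_smul, div_mul_cancel₀ _ hwQ]
    module
  have hR'I := hM hR'M
  -- the conjugate involution
  have hk'' : ∀ x, ap (R' * k * R') x = x - (2 : F) • (f x (φ + W) • E - f x E • (φ + W)) := by
    intro x
    have h1 : f (ap R' x) φ = f x (φ + W) := by
      rw [← hRφ, ← mem_isom_iff.mp hR'I x (ap R' φ), hR2]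
    have h2 : f (ap R' x) E = f x E := by
      conv_rhs => rw [← mem_isom_iff.mp hR'I x E, hRE]
    rw [ap_mul, ap_mul, hk', ap_sub, ap_smul, ap_sub, ap_smul, ap_smul, hRE, hRφ, hR2, h1, h2]
  set k₁ := k * (R' * k * R')
  have hk₁M : k₁ ∈ M := M.mul_mem hkM (M.mul_mem (M.mul_mem hR'M hkM) hR'M)
  have hfix : ∀ x, f x E = 0 → f x W = 0 → ap k₁ x = x := by
    intro x h1 h2
    have hx' : ap (R' * k * R') x = x - (2 * f x φ) • E := by
      rw [hk'', h1, hT.symp.bilinear.add_right, h2, add_zero]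
      module
    rw [ap_mul, hx', ap_sub, ap_smul, hk', hk', h1, hT.symp.alternating, hEφ]
    module
  have hkfix : ∀ u y, hT.cc y E = 0 → f₂ y w = 0 → ap k₁ (pt e P u y) = pt e P u y := by
    intro u y h1 h2
    refine hfix _ (by rw [hT.pt_f, h1, Symp.zero_right hT.symp₁]) ?_
    rw [hW, hT.symp.bilinear.smul_right, hT.form, h2, mul_zero, mul_zero]
  refine ⟨k₁, hk₁M, fun hk₁T => ?_, σ, hσ0, hσQ, fun u => hkfix u σ hσN hσw⟩
  obtain ⟨b, hb⟩ := hT.of_fix_slice hk₁T hσ0 fun u => hkfix u σ hσN hσw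
  set Lw := Submodule.span F ({E, W} : Set (ι → F))
  have himg : ∀ x, ap k₁ x - x ∈ Lw := by
    intro x
    refine Symp.mem_of_forall_perp hT.symp fun p hp => ?_
    have h1 := hp E (Submodule.subset_span (by simp))
    have h2 := hp W (Submodule.subset_span (by simp))
    have h3 := mem_isom_iff.mp (hM hk₁M) x p
    rw [hfix p h1 h2] at h3
    rw [Symp.sub_left hT.symp, h3, sub_self]
  have hb1 : ∀ y, ap b y = y := by
    intro y
    by_contra hne
    have hd : ap b y - y ≠ 0 := sub_ne_zero.mpr hne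
    have hu : ∀ u, pt e P u (ap b y - y) ∈ Lw := fun u => by
      rw [pt_sub_right, ← hb]; exact himg _
    choose α β hαβ using fun u => Submodule.mem_span_pair.mp (hu u)
    -- contraction by `w`
    have hc : ∀ u, f₂ (ap b y - y) w • u = β u • hT.cc w W := fun u => by
      have := congrArg (hT.cc w) (hαβ u)
      rw [map_add, map_smul, map_smul, hwE, smul_zero, zero_add, cc_pt] at this
      exact this.symm
    have hcW : hT.cc w W ≠ 0 := by
      rw [hW, map_smul, cc_pt, smul_smul]
      refine smul_ne_zero ?_ hwφ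
      rw [neg_mul, div_mul_cancel₀ _ hwQ, neg_ne_zero]
      exact hT.two
    have hd0 : f₂ (ap b y - y) w = 0 := by
      by_contra h0
      have hspan : ∀ u, u ∈ Submodule.span F {hT.cc w W} := fun u =>
        Submodule.mem_span_singleton.mpr ⟨β u / f₂ (ap b y - y) w, by
          rw [div_eq_inv_mul, ← smul_smul, ← hc, smul_smul, inv_mul_cancel₀ h0, one_smul]⟩
      obtain ⟨p, hp⟩ := Submodule.mem_span_singleton.mp (hspan u₁)
      obtain ⟨q, hq⟩ := Submodule.mem_span_singleton.mp (hspan u₂)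
      rw [← hp, ← hq, hT.symp₁.bilinear.smul_left, hT.symp₁.bilinear.smul_right,
        hT.symp₁.alternating, mul_zero, mul_zero] at h12
      exact zero_ne_one h12
    have hβ : ∀ u, β u = 0 := fun u => by
      have := hc u
      rw [hd0, zero_smul] at this
      exact (smul_eq_zero.mp this.symm).resolve_right hcW
    have hE' : ∀ u, pt e P u (ap b y - y) = α u • E := fun u => by
      rw [← hαβ, hβ, zero_smul, add_zero]
    have ha0 : α u₁ ≠ 0 := fun h0 => pt_ne_zero e P hu₁ hd (by rw [hE', h0, zero_smul])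
    have h1 : pt e P u₂ (ap b y - y) = pt e P ((α u₂ / α u₁) • u₁) (ap b y - y) := by
      rw [pt_smul_left, hE', hE', smul_smul, div_mul_cancel₀ _ ha0]
    have h2 := pt_inj_left e P hd h1
    rw [h2, hT.symp₁.bilinear.smul_right, hT.symp₁.alternating, mul_zero] at h12
    exact zero_ne_one h12
  have hone : k₁ = 1 := gl_ext_pt e P fun u y => by rw [hb, hb1, ap_one]
  -- so the two involutions coincide
  have hx : ∀ x, ap k x = ap (R' * k * R') x := fun x => by
    have hk2 : ∀ z, ap k (ap k z) = z := fun z => by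
      have := hT.symp.alternating E
      have := hT.symp.alternating φ
      have hφE : f φ E = -1 := by rw [hT.symp.skew, hEφ]
      rw [hk', hk']
      simp only [Symp.sub_left hT.symp, hT.symp.bilinear.smul_left, hEφ, hφE,
        hT.symp.alternating]
      match_scalars <;> ring
    have := congrArg (fun m => ap k (ap m x)) hone
    simp only [k₁, ap_mul (g := k), hk2, ap_one] at this
    exact this.symm
  have h3 := hx φ
  rw [hk', hk'', hT.symp.alternating, hT.symp.bilinear.add_right, hT.symp.alternating,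
    show f φ E = -1 by rw [hT.symp.skew, hEφ], zero_add] at h3
  have hWE : W + f φ W • E = 0 := by
    have h4 : (2 : F) • (W + f φ W • E) = 0 := by
      linear_combination (norm := module) h3
    exact (smul_eq_zero.mp h4).resolve_left hT.two
  have := congrArg (hT.cc w) hWE
  rw [map_add, map_zero, map_smul (hT.cc w) (f φ W) E, hwE, smul_zero, add_zero, hW, map_smul,
    cc_pt, smul_smul,
    neg_mul, div_mul_cancel₀ _ hwQ, smul_eq_zero] at this
  exact this.elim (fun h => hT.two (neg_eq_zero.mp h)) hwφ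

end CfsgLib.Geometric.SOTensor.Data
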