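import Cfsg.Agent.Lib.Geometric.TensorMaps
import Cfsg.Agent.Lib.Geometric.SympAlgebra
import Cfsg.Agent.Lib.Geometric.Orth.Values

/-!
A symplectic form that is the tensor product of a symplectic form on `F^2` and a symmetric form on
`F^3`, in odd characteristic and with at least five field elements: basic facts.
-/

set_option autoImplicit false
set_option linter.unusedSectionVars false

namespace CfsgLib.Geometric.SOThree

open Matrix Tensor

variable {ι : Type} [Fintype ι] [DecidableEq ι] {F : Type*} [Field F]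
variable {f : (ι → F) → (ι → F) → F} {e : ι ≃ Fin 2 × Fin 3} {P : GL ι F}
  {f₁ : (Fin 2 → F) → (Fin 2 → F) → F} {f₂ : (Fin 3 → F) → (Fin 3 → F) → F}

/-- `f` is the tensor product of `f₁` and `f₂`. -/
structure Data (f : (ι → F) → (ι → F) → F) (e : ι ≃ Fin 2 × Fin 3) (P : GL ι F)
    (f₁ : (Fin 2 → F) → (Fin 2 → F) → F) (f₂ : (Fin 3 → F) → (Fin 3 → F) → F) : Prop where
  symp : Cfsg.Geo.IsSymplecticForm f
  symp₁ : Cfsg.Geo.IsSymplecticForm f₁
  symm₂ : Cfsg.Geo.IsSymmetricForm f₂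
  two : (2 : F) ≠ 0
  five : 5 ≤ Nat.card F
  form : ∀ x x' y y', f (pt e P x y) (pt e P x' y') = f₁ x x' * f₂ y y'

namespace Data

variable (hT : Data f e P f₁ f₂)
include hT

lemma zero_right₂ (v : Fin 3 → F) : f₂ v 0 = 0 := by
  simpa using hT.symm₂.bilinear.smul_right 0 v 0

lemma zero_left₂ (v : Fin 3 → F) : f₂ 0 v = 0 := by
  simpa using hT.symm₂.bilinear.smul_left 0 0 v

omit hT in
/-- The linear map `v ↦ f₂(·, v)`. -/
def fr (hT : Data f e P f₁ f₂) : (Fin 3 → F) →ₗ[F] Module.Dual F (Fin 3 → F) :=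
  LinearMap.mk₂ F (fun v x => f₂ x v) (fun v v' x => hT.symm₂.bilinear.add_right x v v')
    (fun c v x => hT.symm₂.bilinear.smul_right c x v)
    (fun v x x' => hT.symm₂.bilinear.add_left x x' v)
    (fun c v x => hT.symm₂.bilinear.smul_left c x v)

@[simp] lemma fr_apply (v x : Fin 3 → F) : hT.fr v x = f₂ x v := rfl

lemma exists_eq_fr (φ : Module.Dual F (Fin 3 → F)) : ∃ v, hT.fr v = φ := by
  have hinj : Function.Injective hT.fr := by
    rw [injective_iff_map_eq_zero]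
    intro v hv
    by_contra h
    obtain ⟨x, hx⟩ := (hT.symm₂.nondegenerate v h).1
    exact hx (by simpa using congrArg (fun φ : Module.Dual F (Fin 3 → F) => φ x) hv)
  exact (LinearMap.injective_iff_surjective_of_finrank_eq_finrank
    Subspace.dual_finrank_eq.symm).mp hinj φ

omit hT in
/-- Contraction with `f₂(·, v)`. -/
def cc (hT : Data f e P f₁ f₂) (v : Fin 3 → F) : (ι → F) →ₗ[F] (Fin 2 → F) :=
  con e P (hT.fr v)

@[simp] lemma cc_pt (v : Fin 3 → F) (a : Fin 2 → F) (y : Fin 3 → F) :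
    hT.cc v (pt e P a y) = f₂ y v • a := by simp [cc]

lemma cc_add (v v' : Fin 3 → F) : hT.cc (v + v') = hT.cc v + hT.cc v' := by
  rw [cc, map_add, con_add]; rfl

lemma cc_smul (c : F) (v : Fin 3 → F) : hT.cc (c • v) = c • hT.cc v := by
  rw [cc, map_smul, con_smul]; rfl

/-- Pairing with a pure tensor. -/
lemma f_pt (x : ι → F) (u : Fin 2 → F) (y : Fin 3 → F) :
    f x (pt e P u y) = f₁ (hT.cc y x) u := by
  have h : Symp.fl hT.symp (pt e P u y) = (Symp.fl hT.symp₁ u).comp (hT.cc y) :=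
    ext_pt e P fun a z => by
      simp only [Symp.fl_apply, LinearMap.comp_apply, cc_pt, hT.form,
        hT.symp₁.bilinear.smul_left]
      ring
  simpa using LinearMap.congr_fun h x

lemma pt_f (x : ι → F) (u : Fin 2 → F) (y : Fin 3 → F) :
    f (pt e P u y) x = f₁ u (hT.cc y x) := by
  rw [hT.symp.skew, hT.f_pt, hT.symp₁.skew u]

lemma kron_isom {a : GL (Fin 2) F} {b : GL (Fin 3) F} (ha : a ∈ isom f₁) (hb : b ∈ isom f₂) :
    kron e P a b ∈ isom f := by
  let B : (ι → F) →ₗ[F] (ι → F) →ₗ[F] F := (Symp.fl hT.symp).flip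
  have h : B.compl₁₂ (apEquiv (kron e P a b)).toLinearMap (apEquiv (kron e P a b)).toLinearMap = B :=
    ext_pt e P fun u z => ext_pt e P fun u' z' => by
      simp only [B, LinearMap.compl₁₂_apply, LinearEquiv.coe_coe, apEquiv_apply, ap_kron,
        LinearMap.flip_apply, Symp.fl_apply, hT.form, mem_isom_iff.mp ha u u',
        mem_isom_iff.mp hb z z']
  exact fun x y => LinearMap.congr_fun (LinearMap.congr_fun h x) y

/-- The quadratic values of a sum. -/
lemma q_add (x y : Fin 3 → F) : f₂ (x + y) (x + y) = f₂ x x + 2 * f₂ x y + f₂ y y := by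
  rw [hT.symm₂.bilinear.add_left, hT.symm₂.bilinear.add_right, hT.symm₂.bilinear.add_right,
    hT.symm₂.symm y x]
  ring

lemma q_add_smul (x y : Fin 3 → F) (t : F) :
    f₂ (x + t • y) (x + t • y) = f₂ x x + 2 * t * f₂ x y + t * t * f₂ y y := by
  rw [hT.q_add, hT.symm₂.bilinear.smul_right, hT.symm₂.bilinear.smul_left,
    hT.symm₂.bilinear.smul_right]
  ring

lemma q_smul (c : F) (x : Fin 3 → F) : f₂ (c • x) (c • x) = c * c * f₂ x x := by
  rw [hT.symm₂.bilinear.smul_left, hT.symm₂.bilinear.smul_right, mul_assoc]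

/-- A space of vectors of value zero is totally isotropic. -/
lemma f_eq_zero_of_singular {N : Submodule F (Fin 3 → F)} (h : ∀ x ∈ N, f₂ x x = 0) {x y : Fin 3 → F}
    (hx : x ∈ N) (hy : y ∈ N) : f₂ x y = 0 := by
  have := h _ (N.add_mem hx hy)
  rw [hT.q_add, h x hx, h y hy, zero_add, add_zero, mul_eq_zero] at this
  exact this.resolve_left hT.two

/-- A large subspace has a vector of non-zero value. -/
lemma exists_aniso {N : Submodule F (Fin 3 → F)} (hN : 3 < 2 * Module.finrank F N) :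
    ∃ x ∈ N, f₂ x x ≠ 0 := by
  by_contra hc
  push Not at hc
  let ψ := hT.fr ∘ₗ N.subtype
  have hinj : Function.Injective ψ := by
    rw [injective_iff_map_eq_zero]
    intro w hw
    refine Subtype.ext (by_contra fun hne => ?_)
    obtain ⟨x, hx⟩ := (hT.symm₂.nondegenerate (w : Fin 3 → F) hne).1
    exact hx (LinearMap.congr_fun hw x)
  have hle : LinearMap.range ψ ≤ N.dualAnnihilator := by
    rintro _ ⟨w, rfl⟩
    rw [Submodule.mem_dualAnnihilator]
    exact fun x hx => hT.f_eq_zero_of_singular hc hx w.2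
  have h1 := Subspace.finrank_add_finrank_dualAnnihilator_eq N
  rw [Module.finrank_fin_fun] at h1
  have h2 := Submodule.finrank_mono hle
  rw [LinearMap.finrank_range_of_inj hinj] at h2
  omega

/-- A non-zero vector orthogonal to two given ones. -/
lemma exists_perp_two (a b : Fin 3 → F) : ∃ w, w ≠ 0 ∧ f₂ w a = 0 ∧ f₂ w b = 0 := by
  obtain ⟨w, hw, hw0⟩ := Submodule.exists_mem_ne_zero_of_ne_bot
    (LinearMap.ker_ne_bot_of_finrank_lt (f := (hT.fr a).prod (hT.fr b)) (by simp))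
  have hw' : f₂ w a = 0 ∧ f₂ w b = 0 := Prod.mk_eq_zero.mp hw
  exact ⟨w, hw0, hw'.1, hw'.2⟩

/-- A singular vector pairing to one with a singular vector. -/
lemma exists_partner {s : Fin 3 → F} (hs : s ≠ 0) (hQ : f₂ s s = 0) :
    ∃ t, f₂ t s = 1 ∧ f₂ t t = 0 := by
  obtain ⟨y, hy⟩ := (hT.symm₂.nondegenerate s hs).1
  set y' := (f₂ y s)⁻¹ • y
  have hy' : f₂ y' s = 1 := by rw [hT.symm₂.bilinear.smul_left, inv_mul_cancel₀ hy]
  refine ⟨y' + (-(f₂ y' y') / 2) • s, ?_, ?_⟩
  · rw [hT.symm₂.bilinear.add_left, hy', hT.symm₂.bilinear.smul_left, hQ, mul_zero, add_zero]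
  · rw [hT.q_add_smul, hQ, hy']
    have := hT.two
    field_simp
    ring

omit hT in
/-- The reflection at `v` of the second factor. -/
noncomputable def rmap (hT : Data f e P f₁ f₂) (v : Fin 3 → F) :
    (Fin 3 → F) →ₗ[F] (Fin 3 → F) :=
  LinearMap.id - ((2 / f₂ v v) • hT.fr v).smulRight v

lemma rmap_apply (v x : Fin 3 → F) : hT.rmap v x = x - (2 / f₂ v v * f₂ x v) • v := by
  simp [rmap]

lemma rmap_rmap {v : Fin 3 → F} (hv : f₂ v v ≠ 0) (x : Fin 3 → F) :
    hT.rmap v (hT.rmap v x) = x := by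
  have h : f₂ (x - (2 / f₂ v v * f₂ x v) • v) v = -f₂ x v := by
    rw [sub_eq_add_neg, ← neg_smul, hT.symm₂.bilinear.add_left, hT.symm₂.bilinear.smul_left]
    field_simp
    ring
  rw [hT.rmap_apply, hT.rmap_apply, h]
  module

omit hT in
/-- The reflection as an invertible matrix. -/
noncomputable def r (hT : Data f e P f₁ f₂) {v : Fin 3 → F} (hv : f₂ v v ≠ 0) : GL (Fin 3) F :=
  ofEquiv (LinearEquiv.ofLinearMap (hT.rmap v) (hT.rmap v)
    (LinearMap.ext (hT.rmap_rmap hv)) (LinearMap.ext (hT.rmap_rmap hv)))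

lemma ap_r {v : Fin 3 → F} (hv : f₂ v v ≠ 0) (x : Fin 3 → F) :
    ap (hT.r hv) x = x - (2 / f₂ v v * f₂ x v) • v := by
  rw [r, ap_ofEquiv, ← hT.rmap_apply]; rfl

lemma r_mem {v : Fin 3 → F} (hv : f₂ v v ≠ 0) : hT.r hv ∈ isom f₂ := fun x y => by
  change f₂ (ap (hT.r hv) x) (ap (hT.r hv) y) = f₂ x y
  rw [hT.ap_r, hT.ap_r, sub_eq_add_neg, sub_eq_add_neg, ← neg_smul, ← neg_smul]
  simp only [hT.symm₂.bilinear.add_left, hT.symm₂.bilinear.add_right,
    hT.symm₂.bilinear.smul_left, hT.symm₂.bilinear.smul_right, hT.symm₂.symm v y]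
  field_simp
  ring

/-- The action of a reflection of the second factor. -/
lemma ap_kron_r {v : Fin 3 → F} (hv : f₂ v v ≠ 0) (x : ι → F) :
    ap (kron e P (1 : GL (Fin 2) F) (hT.r hv)) x = x - (2 / f₂ v v) • pt e P (hT.cc v x) v := by
  have h : (apEquiv (kron e P (1 : GL (Fin 2) F) (hT.r hv))).toLinearMap =
      LinearMap.id - (2 / f₂ v v) • (ptl e P v).comp (hT.cc v) :=
    ext_pt e P fun a y => by
      simp only [LinearEquiv.coe_coe, apEquiv_apply, ap_kron, ap_one, hT.ap_r, LinearMap.sub_apply,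
        LinearMap.id_apply, LinearMap.smul_apply, LinearMap.comp_apply, cc_pt, ptl_apply,
        pt_sub_right, pt_smul_right, pt_smul_left, smul_smul]
  simpa using LinearMap.congr_fun h x

/-- Coordinates of `F^2` in a symplectic basis. -/
lemma dec₁ {u₁ u₂ : Fin 2 → F} (h12 : f₁ u₁ u₂ = 1) (c : Fin 2 → F) :
    c = f₁ c u₂ • u₁ - f₁ c u₁ • u₂ := by
  have h21 : f₁ u₂ u₁ = -1 := by rw [hT.symp₁.skew, h12]
  have hli : LinearIndependent F ![u₁, u₂] := by
    rw [LinearIndependent.pair_iff]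
    intro s t hst
    have h := congrArg (fun w => f₁ w u₂) hst
    have h' := congrArg (fun w => f₁ w u₁) hst
    simp [hT.symp₁.bilinear.add_left, hT.symp₁.bilinear.smul_left, h12, h21,
      hT.symp₁.alternating, Symp.zero_left hT.symp₁] at h h'
    exact ⟨h, h'⟩
  have htop := hli.span_eq_top_of_card_eq_finrank (by simp)
  have hc : c ∈ Submodule.span F (Set.range ![u₁, u₂]) := htop ▸ Submodule.mem_top
  obtain ⟨w, hw⟩ := (Submodule.mem_span_range_iff_exists_fun F).mp hc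
  simp only [Fin.sum_univ_two, cons_val_zero, cons_val_one] at hw
  rw [← hw]
  simp [hT.symp₁.bilinear.add_left, hT.symp₁.bilinear.smul_left, h12, h21, hT.symp₁.alternating]

/-- A basis of `F^2` for the symplectic form. -/
lemma exists_basis₁ : ∃ u₁ u₂ : Fin 2 → F, f₁ u₁ u₂ = 1 ∧
    ∀ c, c = f₁ c u₂ • u₁ - f₁ c u₁ • u₂ := by
  set u₁ : Fin 2 → F := Pi.single 0 1
  have hu : u₁ ≠ 0 := fun h => by simpa [u₁] using congrFun h 0
  obtain ⟨p, hp⟩ := (hT.symp₁.nondegenerate u₁ hu).2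
  set u₂ := (f₁ u₁ p)⁻¹ • p
  have h12 : f₁ u₁ u₂ = 1 := by rw [hT.symp₁.bilinear.smul_right, inv_mul_cancel₀ hp]
  exact ⟨u₁, u₂, h12, hT.dec₁ h12⟩

/-- A map of `F^2` self-adjoint for the symplectic form is scalar. -/
lemma scalar_of_selfadjoint (L : (Fin 2 → F) →ₗ[F] (Fin 2 → F))
    (h : ∀ c c', f₁ (L c) c' = f₁ c (L c')) : ∃ t : F, ∀ c, L c = t • c := by
  obtain ⟨u₁, u₂, h12, hdec⟩ := hT.exists_basis₁
  have h0 : ∀ c, f₁ (L c) c = 0 := fun c => by
    have := h c c
    rw [hT.symp₁.skew c (L c), eq_neg_iff_add_eq_zero, ← two_mul, mul_eq_zero] at this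
    exact this.resolve_left hT.two
  have e1 := hdec (L u₁)
  rw [h0, zero_smul, sub_zero] at e1
  have e2 := hdec (L u₂)
  rw [h0, zero_smul, zero_sub] at e2
  have hh : f₁ (L u₁) u₂ = -f₁ (L u₂) u₁ := by rw [h, hT.symp₁.skew]
  refine ⟨f₁ (L u₁) u₂, fun c => ?_⟩
  generalize ht : f₁ (L u₁) u₂ = t at e1 hh ⊢
  generalize ht' : f₁ (L u₂) u₁ = t' at e2 hh
  subst hh
  conv_lhs => rw [hdec c]
  rw [map_sub, map_smul, map_smul, e1, e2]
  conv_rhs => rw [hdec c]
  module

/-- A subspace of dimension three has a non-zero singular vector. -/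
lemma exists_singular [Finite F] {N : Submodule F (Fin 3 → F)} (hN : 3 ≤ Module.finrank F N) :
    ∃ s ∈ N, s ≠ 0 ∧ f₂ s s = 0 := by
  by_contra hc
  push Not at hc
  have hpos : 0 < Module.finrank F N := by omega
  obtain ⟨⟨p, hp⟩, hp0⟩ := Module.finrank_pos_iff_exists_ne_zero.mp hpos
  have hQp := hc p hp fun h => hp0 (Subtype.ext h)
  have h1 := Orth.finrank_le_inf_ker N (hT.fr p)
  obtain ⟨⟨q, hq⟩, hq0⟩ := Module.finrank_pos_iff_exists_ne_zero.mp
    (show 0 < Module.finrank F ↥(N ⊓ LinearMap.ker (hT.fr p)) by omega)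
  have hQq := hc q hq.1 fun h => hq0 (Subtype.ext h)
  have h2 := Orth.finrank_le_inf_ker (N ⊓ LinearMap.ker (hT.fr p)) (hT.fr q)
  obtain ⟨⟨r, hr⟩, hr0⟩ := Module.finrank_pos_iff_exists_ne_zero.mp
    (show 0 < Module.finrank F ↥(N ⊓ LinearMap.ker (hT.fr p) ⊓ LinearMap.ker (hT.fr q)) by omega)
  have hQr := hc r hr.1.1 fun h => hr0 (Subtype.ext h)
  obtain ⟨a, b, hab⟩ := Orth.exists_combination hQp hQq hT.two (-f₂ r r)
  have hqp : f₂ q p = 0 := hq.2
  have hrp : f₂ r p = 0 := hr.1.2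
  have hrq : f₂ r q = 0 := hr.2
  refine hc (r + (a • p + b • q)) (N.add_mem hr.1.1 (N.add_mem (N.smul_mem a hp) (N.smul_mem b hq.1)))
    (fun h => hQr ?_) ?_
  · have := congrArg (fun x => f₂ r x) h
    simpa [hT.symm₂.bilinear.add_right, hT.symm₂.bilinear.smul_right, hrp, hrq,
      hT.zero_right₂] using this
  · rw [hT.q_add, hT.q_add_smul, hT.q_smul, hT.symm₂.bilinear.smul_left, hT.symm₂.symm p q, hqp,
      hT.symm₂.bilinear.add_right, hT.symm₂.bilinear.smul_right, hT.symm₂.bilinear.smul_right,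
      hrp, hrq]
    linear_combination hab

/-- An element with square different from one. -/
lemma exists_sq_ne_one [Finite F] : ∃ l : F, l ≠ 0 ∧ l * l ≠ 1 := by
  classical
  have := Fintype.ofFinite F
  by_contra hc
  push Not at hc
  have hsub : (Finset.univ : Finset F) ⊆ {0, 1, -1} := fun l _ => by
    by_cases hl : l = 0
    · simp [hl]
    rcases mul_self_eq_one_iff.mp (hc l hl) with h | h <;> simp [h]
  have h1 := Finset.card_le_card hsub
  have h2 : ({0, 1, -1} : Finset F).card ≤ 3 := Finset.card_le_three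
  have h5 := hT.five
  rw [Nat.card_eq_fintype_card] at h5
  rw [Finset.card_univ] at h1
  omega

/-- Elements fixing a slice pointwise act on the second factor only. -/
lemma of_fix_slice {g : GL ι F} (hg : g ∈ Cfsg.Geo.tensorProductSubgroup 2 3 e P)
    {y₀ : Fin 3 → F} (hy₀ : y₀ ≠ 0) (h : ∀ u, ap g (pt e P u y₀) = pt e P u y₀) :
    ∃ b : GL (Fin 3) F, ∀ u y, ap g (pt e P u y) = pt e P u (ap b y) := by
  obtain ⟨a, b, hab⟩ := (mem_iff e P g).mp hg
  obtain ⟨φ, -, hφ⟩ := exists_functional_eq_one (U := ⊥) (x := y₀) (by simpa using hy₀)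
  set t := φ (ap b y₀)
  have ha : ∀ u, t • ap a u = u := fun u => by
    have := congrArg (con e P φ) ((hab u y₀).symm.trans (h u))
    rwa [con_pt, con_pt, hφ, one_smul] at this
  have ht : t ≠ 0 := by
    intro h0
    have := ha (Pi.single 0 1)
    rw [h0, zero_smul] at this
    simpa using congrFun this 0
  refine ⟨ofEquiv ((apEquiv b).trans (LinearEquiv.smulOfUnit ((Units.mk0 t ht)⁻¹))), fun u y => ?_⟩
  have hu : ap a u = t⁻¹ • u := by
    conv_rhs => rw [← ha u, smul_smul, inv_mul_cancel₀ ht, one_smul]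
  rw [hab, ap_ofEquiv, hu, pt_smul_left, ← pt_smul_right]
  rfl

/-- A frame at a singular vector. -/
lemma exists_frame {s : Fin 3 → F} (hs : s ≠ 0) (hQs : f₂ s s = 0) :
    ∃ t z, f₂ t s = 1 ∧ f₂ t t = 0 ∧ f₂ z s = 0 ∧ f₂ z t = 0 ∧ f₂ z z ≠ 0 := by
  obtain ⟨t, ht, hQt⟩ := hT.exists_partner hs hQs
  have hst : f₂ s t = 1 := by rw [hT.symm₂.symm, ht]
  obtain ⟨z, hz0, hzs, hzt⟩ := hT.exists_perp_two s t
  refine ⟨t, z, ht, hQt, hzs, hzt, fun hQz => ?_⟩
  have hzy : ∀ y, f₂ y s = 0 → f₂ y t = 0 → f₂ z y = 0 := by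
    intro y h1 h2
    by_contra hne
    obtain ⟨φ, -, hφ⟩ := exists_functional_eq_one (U := ⊥) (x := z) (by simpa using hz0)
    have hli : LinearIndependent F ![s, t, z, y] := by
      rw [Fintype.linearIndependent_iff]
      intro g hg
      simp [Fin.sum_univ_four] at hg
      have e1 := congrArg (fun x => f₂ x s) hg
      have e2 := congrArg (fun x => f₂ x t) hg
      have e3 := congrArg (fun x => f₂ x z) hg
      have hys : f₂ s y = 0 := by rw [hT.symm₂.symm, h1]
      have hzy' : f₂ y z ≠ 0 := by rwa [hT.symm₂.symm]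
      have hsz : f₂ s z = 0 := by rw [hT.symm₂.symm, hzs]
      have htz : f₂ t z = 0 := by rw [hT.symm₂.symm, hzt]
      simp [hT.symm₂.bilinear.add_left, hT.symm₂.bilinear.smul_left, hT.zero_left₂, hQs, hQt, hQz,
        ht, hst, hzs, hzt, h1, h2, hsz, htz, hzy'] at e1 e2 e3
      have e4 := congrArg φ hg
      simp [e1, e2, e3, hφ] at e4
      intro i
      fin_cases i <;> simp [e1, e2, e3, e4]
    have := hli.fintype_card_le_finrank
    simp at this
  obtain ⟨y, hy⟩ := (hT.symm₂.nondegenerate z hz0).2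
  refine hy ?_
  have h := hzy (y + (-(f₂ y s)) • t + (-(f₂ y t)) • s)
    (by simp only [hT.symm₂.bilinear.add_left, hT.symm₂.bilinear.smul_left, ht, hQs]; ring)
    (by simp only [hT.symm₂.bilinear.add_left, hT.symm₂.bilinear.smul_left, hQt, hst]; ring)
  simpa only [hT.symm₂.bilinear.add_right, hT.symm₂.bilinear.smul_right, hzs, hzt, mul_zero,
    add_zero] using h

/-- Coordinates in a frame. -/
lemma frame_dec {s t z : Fin 3 → F} (hQs : f₂ s s = 0) (ht : f₂ t s = 1) (hQt : f₂ t t = 0)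
    (hzs : f₂ z s = 0) (hzt : f₂ z t = 0) (hQz : f₂ z z ≠ 0) (y : Fin 3 → F) :
    y = f₂ y t • s + f₂ y s • t + (f₂ y z / f₂ z z) • z := by
  have hst : f₂ s t = 1 := by rw [hT.symm₂.symm, ht]
  have hsz : f₂ s z = 0 := by rw [hT.symm₂.symm, hzs]
  have htz : f₂ t z = 0 := by rw [hT.symm₂.symm, hzt]
  have hli : LinearIndependent F ![s, t, z] := by
    rw [Fintype.linearIndependent_iff]
    intro g hg
    simp [Fin.sum_univ_three] at hg
    have e1 := congrArg (fun x => f₂ x s) hg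
    have e2 := congrArg (fun x => f₂ x t) hg
    have e3 := congrArg (fun x => f₂ x z) hg
    simp [hT.symm₂.bilinear.add_left, hT.symm₂.bilinear.smul_left, hT.zero_left₂, hQs, hQt, ht, hst,
      hzs, hzt, hsz, htz, hQz] at e1 e2 e3
    intro i
    fin_cases i <;> simp [e1, e2, e3]
  have htop := hli.span_eq_top_of_card_eq_finrank (by simp)
  have hy : y ∈ Submodule.span F (Set.range ![s, t, z]) := htop ▸ Submodule.mem_top
  obtain ⟨w, hw⟩ := (Submodule.mem_span_range_iff_exists_fun F).mp hy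
  simp [Fin.sum_univ_three] at hw
  rw [← hw]
  simp [hT.symm₂.bilinear.add_left, hT.symm₂.bilinear.smul_left, hQs, hQt, ht, hst, hzs, hzt, hsz,
    htz, hQz]

/-- A vector of non-zero value orthogonal to two singular vectors with non-zero product. -/
lemma exists_aniso_perp {σ τ : Fin 3 → F} (hQσ : f₂ σ σ = 0)
    (h : f₂ σ τ ≠ 0) : ∃ w, f₂ w σ = 0 ∧ f₂ w τ = 0 ∧ f₂ w w ≠ 0 := by
  obtain ⟨w, hw0, hwσ, hwτ⟩ := hT.exists_perp_two σ τ
  have hσ : σ ≠ 0 := fun h0 => h (by rw [h0, hT.zero_left₂])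
  set t := (f₂ σ τ)⁻¹ • τ with htdef
  have ht : f₂ t σ = 1 := by
    rw [htdef, hT.symm₂.bilinear.smul_left, hT.symm₂.symm τ σ, inv_mul_cancel₀ h]
  obtain ⟨t', z, ht', hQt', hzs, hzt', hQz⟩ := hT.exists_frame hσ hQσ
  refine ⟨w, hwσ, hwτ, fun hQw => hw0 ?_⟩
  have hdec := hT.frame_dec hQσ ht' hQt' hzs hzt' hQz
  have hwt : f₂ w t = 0 := by rw [htdef, hT.symm₂.bilinear.smul_right, hwτ, mul_zero]
  have hw1 := hdec w
  rw [hwσ, zero_smul, add_zero] at hw1
  have hz : f₂ w z = 0 := by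
    have h3 := hQw
    rw [hw1] at h3
    simp [hT.symm₂.bilinear.add_left, hT.symm₂.bilinear.add_right, hT.symm₂.bilinear.smul_left,
      hT.symm₂.bilinear.smul_right, hQσ, hT.symm₂.symm σ z, hzs, hQz] at h3
    exact h3
  rw [hz, zero_div, zero_smul, add_zero] at hw1
  rw [hw1, hT.symm₂.bilinear.smul_left, hT.symm₂.symm σ t, ht, mul_one] at hwt
  rw [hw1, hwt, zero_smul]

end Data

end CfsgLib.Geometric.SOThree
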