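import Cfsg.Agent.Lib.Geometric.SOTensor.ThreePlane
import Cfsg.Agent.Lib.Geometric.SOTensor.Max

/-!
Maximality of the stabiliser of a tensor decomposition `Sp_2 ⊗ O_3` in `Sp_6`, at least five field elements.
-/

set_option autoImplicit false
set_option linter.unusedSectionVars false

namespace CfsgLib.Geometric

open Matrix Tensor

namespace SOThree.Data

variable {ι : Type} [Fintype ι] [DecidableEq ι] {F : Type*} [Field F] [Finite F]
variable {f : (ι → F) → (ι → F) → F} {e : ι ≃ Fin 2 × Fin 3} {P : GL ι F}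
  {f₁ : (Fin 2 → F) → (Fin 2 → F) → F} {f₂ : (Fin 3 → F) → (Fin 3 → F) → F}
variable (hT : Data f e P f₁ f₂)
include hT

/-- An orthogonal basis. -/
lemma ortho_dec {a b w : Fin 3 → F} (haw : f₂ a w = 0) (hba : f₂ b a = 0) (hbw : f₂ b w = 0)
    (hQa : f₂ a a ≠ 0) (hQw : f₂ w w ≠ 0) (hb : b ≠ 0) :
    f₂ b b ≠ 0 ∧
      ∀ y, y = (f₂ y a / f₂ a a) • a + (f₂ y b / f₂ b b) • b + (f₂ y w / f₂ w w) • w := by
  have hwa : f₂ w a = 0 := by rw [hT.symm₂.symm, haw]
  have hab : f₂ a b = 0 := by rw [hT.symm₂.symm, hba]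
  have hwb : f₂ w b = 0 := by rw [hT.symm₂.symm, hbw]
  have hli : LinearIndependent F ![a, b, w] := by
    rw [Fintype.linearIndependent_iff]
    intro g hg
    simp [Fin.sum_univ_three] at hg
    have e1 := congrArg (fun x => f₂ x a) hg
    have e2 := congrArg (fun x => f₂ x w) hg
    simp [hT.symm₂.bilinear.add_left, hT.symm₂.bilinear.smul_left, hT.zero_left₂, haw, hba, hbw,
      hwa, hQa, hQw] at e1 e2
    rw [e1, e2] at hg
    simp [hb] at hg
    intro i
    fin_cases i <;> simp [e1, e2, hg]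
  have htop := hli.span_eq_top_of_card_eq_finrank (by simp)
  have hco : ∀ y, ∃ c : Fin 3 → F, c 0 • a + c 1 • b + c 2 • w = y := fun y => by
    obtain ⟨c, hc⟩ := (Submodule.mem_span_range_iff_exists_fun F).mp
      (show y ∈ Submodule.span F (Set.range ![a, b, w]) from htop ▸ Submodule.mem_top)
    exact ⟨c, by simpa [Fin.sum_univ_three] using hc⟩
  have hQb : f₂ b b ≠ 0 := by
    intro h0
    obtain ⟨y, hy⟩ := (hT.symm₂.nondegenerate b hb).2
    obtain ⟨c, rfl⟩ := hco y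
    simp [hT.symm₂.bilinear.add_right, hT.symm₂.bilinear.smul_right, hba, hbw, h0] at hy
  refine ⟨hQb, fun y => ?_⟩
  obtain ⟨c, rfl⟩ := hco y
  simp [hT.symm₂.bilinear.add_left, hT.symm₂.bilinear.smul_left, haw, hba, hbw, hwa, hab, hwb, hQa,
    hQb, hQw]

lemma exists_nonzero (n' : ℕ) (h : 0 < n') : ∃ u : Fin n' → F, u ≠ 0 :=
  ⟨Pi.single ⟨0, h⟩ 1, fun h0 => by simpa using congrFun h0 ⟨0, h⟩⟩

/-- An element sending the slice of each vector of non-zero value into a slice lies in the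
stabiliser. -/
lemma mem_of_slices {g : GL ι F}
    (h : ∀ v, f₂ v v ≠ 0 → ∃ x, ∀ u, ap g (pt e P u v) ∈ slice e P x) :
    g ∈ Cfsg.Geo.tensorProductSubgroup 2 3 e P := by
  classical
  -- the action on the first factor
  have hA : ∀ v, f₂ v v ≠ 0 → ∃ (A : (Fin 2 → F) →ₗ[F] (Fin 2 → F)) (x : Fin 3 → F),
      Function.Injective A ∧ x ≠ 0 ∧ ∀ u, ap g (pt e P u v) = pt e P (A u) x := by
    intro v hv
    have hv0 : v ≠ 0 := fun h0 => hv (by rw [h0, hT.zero_left₂])
    obtain ⟨x, hx⟩ := h v hv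
    obtain ⟨u₀, hu₀⟩ := hT.exists_nonzero 2 two_pos
    have hx0 : x ≠ 0 := by
      rintro rfl
      obtain ⟨p, hp⟩ := hx u₀
      rw [ptl_apply, pt_zero_right] at hp
      exact ap_ne_zero g (pt_ne_zero e P hu₀ hv0) hp.symm
    obtain ⟨φ, -, hφ⟩ := exists_functional_eq_one (U := ⊥) (x := x) (by simpa using hx0)
    set A := (con e P φ).comp ((apEquiv g).toLinearMap.comp (ptl e P v)) with hAdef
    have key : ∀ u, ap g (pt e P u v) = pt e P (A u) x := fun u => by
      obtain ⟨p, hp⟩ := hx u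
      rw [ptl_apply] at hp
      have : A u = p := by simp [hAdef, ← hp, hφ]
      rw [this, hp]
    refine ⟨A, x, (injective_iff_map_eq_zero _).mpr fun u hu => ?_, hx0, key⟩
    have h1 := key u
    rw [hu, pt_zero_left] at h1
    by_contra hne
    exact ap_ne_zero g (pt_ne_zero e P hne hv0) h1
  choose A X hinj hX hg using hA
  -- proportional factors
  let R : (Fin 3 → F) → (Fin 3 → F) → Prop := fun v w =>
    ∀ (hv : f₂ v v ≠ 0) (hw : f₂ w w ≠ 0), ∃ c : F, ∀ u, A v hv u = c • A w hw u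
  have hdep : ∀ v w, v ∈ Submodule.span F {w} → R v w := by
    intro v w h hv hw
    obtain ⟨t, rfl⟩ := Submodule.mem_span_singleton.mp h
    obtain ⟨φ, -, hφ⟩ := exists_functional_eq_one (U := ⊥) (x := X _ hv) (by simpa using hX _ hv)
    refine ⟨t * φ (X _ hw), fun u => ?_⟩
    have h1 := congrArg (con e P φ) ((hg _ hv u).symm.trans
      ((congrArg (ap g) (pt_smul_right e P t u w)).trans
        ((ap_smul g t _).trans (congrArg (t • ·) (hg _ hw u)))))
    simpa [hφ, smul_smul] using h1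
  have hsum : ∀ (v w z : Fin 3 → F) (t : F), z = v + t • w → t ≠ 0 → v ∉ Submodule.span F {w} →
      ∀ (hv : f₂ v v ≠ 0) (hw : f₂ w w ≠ 0) (hz : f₂ z z ≠ 0),
        (∃ c : F, c ≠ 0 ∧ ∀ u, A v hv u = c • A z hz u) ∧
        ∃ c : F, c ≠ 0 ∧ ∀ u, A w hw u = c • A z hz u := by
    rintro v w z t rfl ht hvw hv hw hz
    obtain ⟨u₀, hu₀⟩ := hT.exists_nonzero 2 two_pos
    have hindep : X v hv ∉ Submodule.span F {X w hw} := by
      intro h0
      obtain ⟨a, ha⟩ := Submodule.mem_span_singleton.mp h0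
      obtain ⟨u', hu'⟩ := (LinearMap.surjective_of_injective (hinj w hw)) (a • A v hv u₀)
      have h1 : pt e P u₀ v = pt e P u' w := ap_injective g (by
        rw [hg v hv, hg w hw, hu', pt_smul_left, ← pt_smul_right, ha])
      obtain ⟨α, -, hα⟩ := exists_functional_eq_one (U := ⊥) (x := u₀) (by simpa using hu₀)
      have h2 := congrArg (conr e P α) h1
      rw [conr_pt, conr_pt, hα, one_smul] at h2
      exact hvw (Submodule.mem_span_singleton.mpr ⟨α u', h2.symm⟩)
    have hrel : ∀ u, pt e P (A _ hz u) (X _ hz) =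
        pt e P (A v hv u) (X v hv) + t • pt e P (A w hw u) (X w hw) := fun u => by
      rw [← hg _ hz, ← hg v hv, ← hg w hw, ← ap_smul, ← ap_add, pt_add_right, pt_smul_right]
    obtain ⟨φ, hφ, hφ1⟩ := exists_functional_eq_one hindep
    have hindep' : X w hw ∉ Submodule.span F {X v hv} := fun h0 => by
      obtain ⟨a, ha⟩ := Submodule.mem_span_singleton.mp h0
      have := congrArg φ ha
      rw [map_smul, hφ1, hφ _ (Submodule.mem_span_singleton_self _), smul_eq_mul, mul_one] at this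
      exact hX w hw (by rw [← ha, this, zero_smul])
    obtain ⟨ψ, hψ, hψ1⟩ := exists_functional_eq_one hindep'
    have e1 : ∀ u, A v hv u = φ (X _ hz) • A _ hz u := fun u => by
      have := congrArg (con e P φ) (hrel u)
      simpa [hφ1, hφ _ (Submodule.mem_span_singleton_self _)] using this.symm
    have e2 : ∀ u, A w hw u = (ψ (X _ hz) / t) • A _ hz u := fun u => by
      have := congrArg (con e P ψ) (hrel u)
      simp only [map_add, map_smul, con_pt, hψ1, hψ _ (Submodule.mem_span_singleton_self _),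
        zero_smul, zero_add, one_smul] at this
      rw [div_eq_inv_mul, ← smul_smul, this, smul_smul, inv_mul_cancel₀ ht, one_smul]
    refine ⟨⟨_, fun h0 => hu₀ (hinj v hv ?_), e1⟩, ⟨_, fun h0 => hu₀ (hinj w hw ?_), e2⟩⟩
    · rw [e1, h0, zero_smul, map_zero]
    · rw [e2, h0, zero_smul, map_zero]
  have hne : ∀ v w : Fin 3 → F, v ∉ Submodule.span F {w} →
      (f₂ (v + w) (v + w) ≠ 0 ∨ f₂ (v + (-1 : F) • w) (v + (-1 : F) • w) ≠ 0) → R v w := by
    intro v w hvw hq hv hw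
    have key : ∀ t : F, t ≠ 0 → f₂ (v + t • w) (v + t • w) ≠ 0 →
        ∃ c : F, ∀ u, A v hv u = c • A w hw u := by
      intro t ht hz
      obtain ⟨⟨c, -, hc⟩, ⟨d, hd, hd'⟩⟩ := hsum v w _ t rfl ht hvw hv hw hz
      exact ⟨c / d, fun u => by rw [hc, hd', smul_smul, div_mul_cancel₀ _ hd]⟩
    rcases hq with hq | hq
    · exact key 1 one_ne_zero (by rwa [one_smul])
    · exact key (-1) (by simp) hq
  have hgood : ∀ v w, f₂ v v + f₂ w w ≠ 0 → R v w := by
    intro v w hvw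
    by_cases hd : v ∈ Submodule.span F {w}
    · exact hdep v w hd
    refine hne v w hd ?_
    by_contra hc
    push Not at hc
    obtain ⟨h1, h2⟩ := hc
    rw [hT.q_add] at h1
    rw [hT.q_add_smul] at h2
    have : 2 * (f₂ v v + f₂ w w) = 0 := by linear_combination h1 + h2
    exact hvw ((mul_eq_zero.mp this).resolve_left hT.two)
  have htrans : ∀ v x w, f₂ x x ≠ 0 → R v x → R x w → R v w := by
    intro v x w hx h1 h2 hv hw
    obtain ⟨c, hc⟩ := h1 hv hx
    obtain ⟨d, hd⟩ := h2 hx hw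
    exact ⟨c * d, fun u => by rw [hc, hd, smul_smul]⟩
  have hall : ∀ v w, f₂ v v ≠ 0 → f₂ w w ≠ 0 → R v w := by
    intro v w hv hw
    by_cases hq : f₂ v v + f₂ w w = 0
    swap
    · exact hgood v w hq
    -- change `v` to a multiple of different value
    obtain ⟨l, hl0, hl1⟩ := hT.exists_sq_ne_one
    have hlv : f₂ (l • v) (l • v) ≠ 0 := by
      rw [hT.q_smul]; exact mul_ne_zero (mul_ne_zero hl0 hl0) hv
    refine htrans v (l • v) w hlv (hdep v _ ?_) (hgood _ _ fun h => hv ?_)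
    · exact Submodule.mem_span_singleton.mpr ⟨l⁻¹, by rw [smul_smul, inv_mul_cancel₀ hl0, one_smul]⟩
    · rw [hT.q_smul] at h
      refine (mul_eq_zero.mp (show (l * l - 1) * f₂ v v = 0 by
        linear_combination h - hq)).resolve_left (sub_ne_zero.mpr hl1)
  -- assembling
  obtain ⟨v₀, -, hv₀⟩ := hT.exists_aniso (N := ⊤) (by rw [finrank_top, Module.finrank_fin_fun]; omega)
  set A₀ := A v₀ hv₀
  obtain ⟨u₀, hu₀⟩ := hT.exists_nonzero 2 two_pos
  obtain ⟨α, -, hα⟩ := exists_functional_eq_one (U := ⊥) (x := A₀ u₀)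
    (by simpa using fun h => hu₀ (hinj v₀ hv₀ (h.trans (map_zero A₀).symm)))
  let B : (Fin 3 → F) →ₗ[F] (Fin 3 → F) :=
    (conr e P α).comp ((apEquiv g).toLinearMap.comp (ptr e P u₀))
  let Good : Submodule F (Fin 3 → F) :=
    { carrier := {y | ∀ u, ap g (pt e P u y) = pt e P (A₀ u) (B y)}
      add_mem' := fun {a b} ha hb u => by
        rw [pt_add_right, ap_add, ha, hb, map_add, pt_add_right]
      zero_mem' := fun u => by rw [pt_zero_right, ap_zero, map_zero, pt_zero_right]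
      smul_mem' := fun c a ha u => by rw [pt_smul_right, ap_smul, ha, map_smul, pt_smul_right] }
  have hGood : ∀ v, f₂ v v ≠ 0 → v ∈ Good := by
    intro v hv u
    obtain ⟨c, hc⟩ := hall v v₀ hv hv₀ hv hv₀
    have hB : B v = c • X v hv := by simp [B, hg v hv, hc, A₀, hα]
    rw [hg v hv, hc, hB, pt_smul_left, pt_smul_right]
  have htop : ∀ y, y ∈ Good := by
    intro y
    by_cases hy : f₂ y y = 0
    swap
    · exact hGood y hy
    by_cases h1 : f₂ (y + v₀) (y + v₀) = 0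
    · have h2 : f₂ (y + (-1 : F) • v₀) (y + (-1 : F) • v₀) ≠ 0 := by
        rw [hT.q_add, hy] at h1
        rw [hT.q_add_smul, hy]
        intro h2
        have : 2 * f₂ v₀ v₀ = 0 := by linear_combination h1 + h2
        exact hv₀ ((mul_eq_zero.mp this).resolve_left hT.two)
      have := Good.add_mem (hGood _ h2) (hGood v₀ hv₀)
      simpa using this
    · have := Good.sub_mem (hGood _ h1) (hGood v₀ hv₀)
      simpa using this
  have hBinj : Function.Injective B := (injective_iff_map_eq_zero _).mpr fun y hy => by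
    have h1 := htop y u₀
    rw [hy, pt_zero_right] at h1
    by_contra hne
    exact ap_ne_zero g (pt_ne_zero e P hu₀ hne) h1
  refine (mem_iff e P g).mpr ⟨ofEquiv (LinearEquiv.ofInjectiveEndo A₀ (hinj v₀ hv₀)),
    ofEquiv (LinearEquiv.ofInjectiveEndo B hBinj), fun u y => ?_⟩
  rw [ap_ofEquiv, ap_ofEquiv]
  exact htop y u

variable {M : Subgroup (GL ι F)}

/-- The plane moved by a conjugate of a reflection. -/
lemma ap_conj_r {g : GL ι F} (hg : g ∈ isom f) {v : Fin 3 → F} (hv : f₂ v v ≠ 0)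
    {u₁ u₂ : Fin 2 → F} (hu : f₁ u₁ u₂ = 1) (hdec : ∀ c, c = f₁ c u₂ • u₁ - f₁ c u₁ • u₂)
    (x : ι → F) :
    ap (g * kron e P (1 : GL (Fin 2) F) (hT.r hv) * g⁻¹) x =
      x - (2 : F) • (f x ((f₂ v v)⁻¹ • ap g (pt e P u₂ v)) • ap g (pt e P u₁ v) -
        f x (ap g (pt e P u₁ v)) • ((f₂ v v)⁻¹ • ap g (pt e P u₂ v))) := by
  have hc : ∀ u, f₁ (hT.cc v (ap g⁻¹ x)) u = f x (ap g (pt e P u v)) := fun u => by
    have := mem_isom_iff.mp hg (ap g⁻¹ x) (pt e P u v)
    rw [ap_ap_inv, hT.f_pt] at this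
    exact this.symm
  rw [ap_mul, ap_mul, hT.ap_kron_r, ap_sub, ap_ap_inv, ap_smul, hdec (hT.cc v (ap g⁻¹ x)), hc, hc,
    pt_sub_left, pt_smul_left, pt_smul_left, ap_sub, ap_smul, ap_smul, hT.symp.bilinear.smul_right]
  module

variable (hM : M ≤ isom f) (hH : ∀ a ∈ isom f₁, ∀ b ∈ isom f₂, kron e P a b ∈ M)
include hM hH

/-- The plane of a conjugate of a reflection, killed by some vector. -/
theorem goal_of_killed {E φ : ι → F} (h : Pl f M E φ)
    (hns : ¬ ∃ y, E ∈ slice e P y ∧ φ ∈ slice e P y) {w : Fin 3 → F} (hw0 : w ≠ 0)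
    (hwE : hT.cc w E = 0) (hwφ : hT.cc w φ = 0) : hT.Goal M := by
  by_cases hQw : f₂ w w = 0
  · obtain ⟨t, z, ht, hQt, hzw, hzt, hQz⟩ := hT.exists_frame hw0 hQw
    have hwz : f₂ w z = 0 := by rw [hT.symm₂.symm, hzw]
    have hwt : f₂ w t = 1 := by rw [hT.symm₂.symm, ht]
    have htz : f₂ t z = 0 := by rw [hT.symm₂.symm, hzt]
    have hy : f₂ (w + (-1 : F) • t) (w + (-1 : F) • t) = -2 := by
      rw [hT.q_add_smul, hQw, hQt, hwt]; ring
    have hy0 : f₂ (w + (-1 : F) • t) (w + (-1 : F) • t) ≠ 0 := by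
      rw [hy]; exact neg_ne_zero.mpr hT.two
    have hexp : ∀ x, hT.cc w x = 0 →
        x = pt e P ((1 / f₂ z z) • hT.cc z x) z + pt e P (hT.cc t x) w := by
      intro x hx
      have hl : (LinearMap.id : (ι → F) →ₗ[F] (ι → F)) = (ptl e P w).comp (hT.cc t) +
          (ptl e P t).comp (hT.cc w) + (ptl e P z).comp ((1 / f₂ z z) • hT.cc z) :=
        ext_pt e P fun p y => by
          show pt e P p y = pt e P (hT.cc t (pt e P p y)) w + pt e P (hT.cc w (pt e P p y)) t +
            pt e P ((1 / f₂ z z) • hT.cc z (pt e P p y)) z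
          simp only [cc_pt, smul_smul, pt_smul_left, ← pt_smul_right, ← pt_add_right]
          conv_lhs => rw [hT.frame_dec hQw ht hQt hzw hzt hQz y]
          congr 2
          rw [one_div, inv_mul_eq_div]
      have := LinearMap.congr_fun hl x
      simp only [LinearMap.id_apply, LinearMap.add_apply, LinearMap.comp_apply,
        LinearMap.smul_apply, ptl_apply, hx, pt_zero_left, add_zero] at this
      rw [add_comm]; exact this
    refine hT.goal_of_two hM hH h hns (a := z) (b := w) (b' := t) (hT.r_mem hy0) ?_ ?_ hzw hQz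
      (by rw [hwt]; exact one_ne_zero) (fun Z h1 h2 h3 => ?_) (hexp E hwE) (hexp φ hwφ)
    · have h0 : f₂ z (w + (-1 : F) • t) = 0 := by
        rw [hT.symm₂.bilinear.add_right, hT.symm₂.bilinear.smul_right, hzw, hzt]; ring
      rw [hT.ap_r, h0]
      simp
    · rw [hT.ap_r, hy, hT.symm₂.bilinear.add_right, hT.symm₂.bilinear.smul_right, hQw, hwt]
      match_scalars <;> field_simp [hT.two] <;> ring
    · rw [hT.frame_dec hQw ht hQt hzw hzt hQz Z, hT.symm₂.symm Z t, h3, hT.symm₂.symm Z w, h2,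
        hT.symm₂.symm Z z, h1]
      simp
  -- an orthogonal basis
  have hker : 3 < 2 * Module.finrank F (LinearMap.ker (hT.fr w)) := by
    have h1 := LinearMap.finrank_range_add_finrank_ker (hT.fr w)
    have h2 := Submodule.finrank_le (LinearMap.range (hT.fr w))
    rw [Module.finrank_fin_fun] at h1
    rw [Module.finrank_self] at h2
    omega
  obtain ⟨a₀, ha₀, hQa₀⟩ := hT.exists_aniso hker
  have ha₀w : f₂ a₀ w = 0 := ha₀
  obtain ⟨b₀, hb₀0, hb₀a, hb₀w⟩ := hT.exists_perp_two a₀ w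
  obtain ⟨hQb₀, hdec₀⟩ := hT.ortho_dec ha₀w hb₀a hb₀w hQa₀ hQw hb₀0
  obtain ⟨κ, hκ0, hκ1⟩ := hT.exists_sq_ne_one
  obtain ⟨x, y, hxy⟩ := Orth.exists_combination hQa₀ hQb₀ hT.two (κ * f₂ w w)
  set b := x • a₀ + y • b₀ with hb
  set a := (y * f₂ b₀ b₀) • a₀ + (-(x * f₂ a₀ a₀)) • b₀ with ha
  have ha₀b : f₂ a₀ b₀ = 0 := by rw [hT.symm₂.symm, hb₀a]
  have bsimp : ∀ p q r s : F, f₂ (p • a₀ + q • b₀) (r • a₀ + s • b₀) =
      p * r * f₂ a₀ a₀ + q * s * f₂ b₀ b₀ := fun p q r s => by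
    simp only [hT.symm₂.bilinear.add_left, hT.symm₂.bilinear.smul_left,
      hT.symm₂.bilinear.add_right, hT.symm₂.bilinear.smul_right, ha₀b, hb₀a]
    ring
  have hab : f₂ a b = 0 := by rw [ha, hb, bsimp]; ring
  have hQb : f₂ b b = κ * f₂ w w := by rw [hb, bsimp]; linear_combination hxy
  have hQb0 : f₂ b b ≠ 0 := by rw [hQb]; exact mul_ne_zero hκ0 hQw
  have hQa : f₂ a a ≠ 0 := by
    rw [ha, bsimp, show y * f₂ b₀ b₀ * (y * f₂ b₀ b₀) * f₂ a₀ a₀ +
      -(x * f₂ a₀ a₀) * -(x * f₂ a₀ a₀) * f₂ b₀ b₀ = f₂ a₀ a₀ * f₂ b₀ b₀ * (κ * f₂ w w) by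
        linear_combination f₂ a₀ a₀ * f₂ b₀ b₀ * hxy]
    exact mul_ne_zero (mul_ne_zero hQa₀ hQb₀) (mul_ne_zero hκ0 hQw)
  have haw : f₂ a w = 0 := by
    rw [ha, hT.symm₂.bilinear.add_left, hT.symm₂.bilinear.smul_left,
      hT.symm₂.bilinear.smul_left, ha₀w, hb₀w]; ring
  have hbw : f₂ b w = 0 := by
    rw [hb, hT.symm₂.bilinear.add_left, hT.symm₂.bilinear.smul_left,
      hT.symm₂.bilinear.smul_left, ha₀w, hb₀w]; ring
  have hb0 : b ≠ 0 := fun h0 => hQb0 (by rw [h0, hT.zero_left₂])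
  obtain ⟨-, hdec⟩ := hT.ortho_dec haw (by rw [hT.symm₂.symm]; exact hab) hbw hQa hQw hb0
  have hκ1' : κ + 1 ≠ 0 := fun h0 => hκ1 (by linear_combination (κ - 1) * h0)
  have hκ1'' : 1 - κ ≠ 0 := fun h0 => hκ1 (by linear_combination (-(κ + 1)) * h0)
  have hy : f₂ (b + w) (b + w) = (κ + 1) * f₂ w w := by rw [hT.q_add, hQb, hbw]; ring
  have hy0 : f₂ (b + w) (b + w) ≠ 0 := by rw [hy]; exact mul_ne_zero hκ1' hQw
  set q := 2 / f₂ (b + w) (b + w) * f₂ b (b + w) with hq
  have hbb : f₂ b (b + w) = f₂ b b := by rw [hT.symm₂.bilinear.add_right, hbw, add_zero]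
  have hq0 : q ≠ 0 := mul_ne_zero (div_ne_zero hT.two hy0) (by rw [hbb]; exact hQb0)
  have hexp : ∀ x, hT.cc w x = 0 → x = pt e P ((1 / f₂ a a) • hT.cc a x) a +
      pt e P ((1 / f₂ b b) • hT.cc b x) b := by
    intro x hx
    have hl : (LinearMap.id : (ι → F) →ₗ[F] (ι → F)) =
        (ptl e P a).comp ((1 / f₂ a a) • hT.cc a) + (ptl e P b).comp ((1 / f₂ b b) • hT.cc b) +
          (ptl e P w).comp ((1 / f₂ w w) • hT.cc w) :=
      ext_pt e P fun p y => by
        show pt e P p y = pt e P ((1 / f₂ a a) • hT.cc a (pt e P p y)) a +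
          pt e P ((1 / f₂ b b) • hT.cc b (pt e P p y)) b +
          pt e P ((1 / f₂ w w) • hT.cc w (pt e P p y)) w
        simp only [cc_pt, smul_smul, pt_smul_left, ← pt_smul_right, ← pt_add_right]
        conv_lhs => rw [hdec y]
        simp only [one_div, inv_mul_eq_div]
    have := LinearMap.congr_fun hl x
    simp only [LinearMap.id_apply, LinearMap.add_apply, LinearMap.comp_apply,
      LinearMap.smul_apply, ptl_apply, hx, smul_zero, pt_zero_left, add_zero] at this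
    exact this
  refine hT.goal_of_two hM hH h hns (a := a) (b := b) (b' := b - q • (b + w)) (hT.r_mem hy0) ?_
    (hT.ap_r hy0 b) hab hQa ?_ (fun Z h1 h2 h3 => ?_) (hexp E hwE) (hexp φ hwφ)
  · have h0 : f₂ a (b + w) = 0 := by rw [hT.symm₂.bilinear.add_right, hab, haw, add_zero]
    rw [hT.ap_r, h0]
    simp
  · rw [sub_eq_add_neg, ← neg_smul, hT.symm₂.bilinear.add_right, hT.symm₂.bilinear.smul_right,
      hq, hbb, hy, hQb, show κ * f₂ w w + -(2 / ((κ + 1) * f₂ w w) * (κ * f₂ w w)) * (κ * f₂ w w) =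
        κ * f₂ w w * (1 - κ) / (κ + 1) by field_simp; ring]
    exact div_ne_zero (mul_ne_zero (mul_ne_zero hκ0 hQw) hκ1'') hκ1'
  · have h4 : f₂ w Z = 0 := by
      rw [sub_eq_add_neg, ← neg_smul, hT.symm₂.bilinear.add_left (x := b), hT.symm₂.bilinear.smul_left,
        hT.symm₂.bilinear.add_left (x := b), h2] at h3
      simpa [hq0] using h3
    rw [hdec Z, hT.symm₂.symm Z a, h1, hT.symm₂.symm Z b, h2, hT.symm₂.symm Z w, h4]
    simp

/-- An element outside the stabiliser gives a transvection at a pure tensor. -/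
theorem goal_of_outside {g : GL ι F} (hg : g ∈ M)
    (hgT : g ∉ Cfsg.Geo.tensorProductSubgroup 2 3 e P) : hT.Goal M := by
  classical
  have hgI := hM hg
  obtain ⟨u₁, u₂, h12, hdec⟩ := hT.exists_basis₁
  have hu₁ : u₁ ≠ 0 := fun h => one_ne_zero (α := F) (by
    rw [← h12, h, Symp.zero_left hT.symp₁])
  have hu₂ : u₂ ≠ 0 := fun h => one_ne_zero (α := F) (by
    rw [← h12, h, Symp.zero_right hT.symp₁])
  obtain ⟨v, hv, hk⟩ : ∃ (v : Fin 3 → F) (hv : f₂ v v ≠ 0),
      g * kron e P (1 : GL (Fin 2) F) (hT.r hv) * g⁻¹ ∉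
        Cfsg.Geo.tensorProductSubgroup 2 3 e P := by
    by_contra hc
    push Not at hc
    refine hgT (hT.mem_of_slices fun v hv => ?_)
    obtain ⟨a, b, hab⟩ := (mem_iff e P _).mp (hc v hv)
    set k := g * kron e P (1 : GL (Fin 2) F) (hT.r hv) * g⁻¹ with hk
    set E₁ := ap g (pt e P u₁ v)
    set E₂ := (f₂ v v)⁻¹ • ap g (pt e P u₂ v) with hE₂
    have hk' : ∀ x, ap k x = x - (2 : F) • (f x E₂ • E₁ - f x E₁ • E₂) :=
      fun x => hT.ap_conj_r hgI hv h12 hdec x
    -- the first factor is scalar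
    have heig : ∀ u, ∃ t : F, (apEquiv a).toLinearMap u = t • u := by
      intro u
      by_cases hu : u = 0
      · exact ⟨0, by simp [hu, ap_zero]⟩
      let Φ : (Fin 3 → F) →ₗ[F] F × F :=
        ((Symp.fl hT.symp E₁).prod (Symp.fl hT.symp E₂)).comp (ptr e P u)
      have hker : LinearMap.ker Φ ≠ ⊥ := LinearMap.ker_ne_bot_of_finrank_lt (by simp)
      obtain ⟨z, hz, hz0⟩ := Submodule.exists_mem_ne_zero_of_ne_bot hker
      have hz' : f (pt e P u z) E₁ = 0 ∧ f (pt e P u z) E₂ = 0 := Prod.mk_eq_zero.mp hz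
      have h1 := hab u z
      rw [hk', hz'.1, hz'.2, zero_smul, zero_smul, sub_zero, smul_zero, sub_zero] at h1
      obtain ⟨φ, -, hφ⟩ := exists_functional_eq_one (U := ⊥) (x := z) (by simpa using hz0)
      have h2 := congrArg (con e P φ) h1
      rw [con_pt, con_pt, hφ, one_smul] at h2
      have hφb : φ (ap b z) ≠ 0 := fun h0 => hu (by rw [h2, h0, zero_smul])
      refine ⟨(φ (ap b z))⁻¹, ?_⟩
      show ap a u = _
      conv_rhs => rw [h2, smul_smul, inv_mul_cancel₀ hφb, one_smul]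
    obtain ⟨μ, hμ⟩ := exists_scalar heig
    simp only [LinearEquiv.coe_coe, apEquiv_apply] at hμ
    set L := Submodule.span F ({E₁, E₂} : Set (ι → F))
    have himg : ∀ z u, pt e P u (μ • ap b z - z) ∈ L := by
      intro z u
      have h1 := hab u z
      rw [hk', hμ, pt_smul_left, ← pt_smul_right] at h1
      rw [pt_sub_right, ← h1]
      rw [sub_sub_cancel_left, ← neg_smul]
      exact L.smul_mem _ (L.sub_mem (L.smul_mem _ (Submodule.subset_span (by simp)))
        (L.smul_mem _ (Submodule.subset_span (by simp))))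
    obtain ⟨z, hz⟩ : ∃ z, μ • ap b z - z ≠ 0 := by
      by_contra hc'
      push Not at hc'
      have hk1 : k = 1 := gl_ext_pt e P fun u z => by
        rw [hab, hμ, pt_smul_left, ← pt_smul_right, sub_eq_zero.mp (hc' z), ap_one]
      rw [hk, conj_eq_one_iff] at hk1
      have := congrArg (fun k => ap k (pt e P u₁ v)) hk1
      simp only [ap_kron, ap_one, hT.ap_r] at this
      have h2 := pt_inj_right e P hu₁ this
      rw [div_mul_cancel₀ _ hv, sub_eq_self, smul_eq_zero] at h2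
      exact h2.elim hT.two fun h0 => hv (by rw [h0, hT.zero_left₂])
    have hslice : slice e P (μ • ap b z - z) = L := by
      refine Submodule.eq_of_le_of_finrank_le ?_ ?_
      · rintro _ ⟨u, rfl⟩
        exact himg z u
      · have h1 : Module.finrank F L ≤ 2 := by
          have h := finrank_span_finset_le_card (R := F) ({E₁, E₂} : Finset (ι → F))
          rw [Finset.coe_insert, Finset.coe_singleton] at h
          exact h.trans Finset.card_le_two
        refine h1.trans_eq ?_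
        rw [slice, LinearMap.finrank_range_of_inj fun p p' h => pt_inj_left e P hz h,
          Module.finrank_fin_fun]
    refine ⟨μ • ap b z - z, fun u => ?_⟩
    rw [hslice, hdec u, pt_sub_left, pt_smul_left, pt_smul_left, ap_sub, ap_smul, ap_smul]
    refine L.sub_mem (L.smul_mem _ (Submodule.subset_span (by simp [E₁]))) (L.smul_mem _ ?_)
    have h2 : ap g (pt e P u₂ v) = f₂ v v • E₂ := by
      rw [hE₂, smul_smul, mul_inv_cancel₀ hv, one_smul]
    rw [h2]
    exact L.smul_mem _ (Submodule.subset_span (by simp))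
  set E := ap g (pt e P u₁ v) with hE
  set φ := (f₂ v v)⁻¹ • ap g (pt e P u₂ v) with hφ
  have hPl : Pl f M E φ := by
    have := hT.pl_map hM (hT.pl_slice hH hv h12) hg
    rwa [ap_smul] at this
  have hns : ¬ ∃ y, E ∈ slice e P y ∧ φ ∈ slice e P y := by
    rintro ⟨y, ⟨p, hp⟩, ⟨q, hq⟩⟩
    rw [ptl_apply] at hp hq
    have h1 : f₁ p q * f₂ y y = 1 := by rw [← hT.form, hp, hq]; exact hPl.1
    have hpq : f₁ p q ≠ 0 := left_ne_zero_of_mul_eq_one h1
    have hQy : f₂ y y ≠ 0 := right_ne_zero_of_mul_eq_one h1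
    refine hk ?_
    have heq : g * kron e P (1 : GL (Fin 2) F) (hT.r hv) * g⁻¹ =
        kron e P (1 : GL (Fin 2) F) (hT.r hQy) := by
      refine gl_ext fun x => ?_
      have hu : f₁ p ((f₁ p q)⁻¹ • q) = 1 := by
        rw [hT.symp₁.bilinear.smul_right, inv_mul_cancel₀ hpq]
      rw [hT.ap_conj_r hgI hv h12 hdec, ← hE, ← hφ, ← hp, ← hq, hT.f_pt, hT.f_pt, hT.ap_kron_r]
      conv_rhs => arg 2; arg 2; rw [hT.dec₁ hu (hT.cc y x), pt_sub_left, pt_smul_left, pt_smul_left,
        pt_smul_left, hT.symp₁.bilinear.smul_right]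
      have h2 : (f₂ y y)⁻¹ = f₁ p q := inv_eq_of_mul_eq_one_left h1
      rw [div_eq_mul_inv, h2]
      match_scalars <;> field_simp <;> ring
    rw [heq]
    exact kron_mem e P _ _
  by_cases hkill : ∃ Z, Z ≠ 0 ∧ hT.cc Z E = 0 ∧ hT.cc Z φ = 0
  · obtain ⟨Z, hZ, h1, h2⟩ := hkill
    exact hT.goal_of_killed hM hH hPl hns hZ h1 h2
  · push Not at hkill
    exact hT.goal_of_inj hM hH hPl fun Z hZ => or_iff_not_imp_left.mpr fun h1 =>
      hkill Z hZ (not_not.mp h1)

omit hM hH in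
/-- Two non-zero singular vectors pair non-trivially with a common singular vector. -/
lemma exists_common {σ τ : Fin 3 → F} (hσ : σ ≠ 0) (hQσ : f₂ σ σ = 0) (hτ : τ ≠ 0)
    (hQτ : f₂ τ τ = 0) : ∃ r, r ≠ 0 ∧ f₂ r r = 0 ∧ f₂ σ r ≠ 0 ∧ f₂ τ r ≠ 0 := by
  have h2 := hT.two
  by_cases hd : τ ∈ Submodule.span F {σ}
  · obtain ⟨a, rfl⟩ := Submodule.mem_span_singleton.mp hd
    obtain ⟨r, hr, hQr⟩ := hT.exists_partner hσ hQσ
    have ha : a ≠ 0 := fun h => hτ (by rw [h, zero_smul])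
    refine ⟨r, fun h => one_ne_zero (α := F) (by rw [← hr, h, hT.zero_left₂]), hQr, ?_, ?_⟩
    · rw [hT.symm₂.symm, hr]; exact one_ne_zero
    · rw [hT.symm₂.bilinear.smul_left, hT.symm₂.symm, hr, mul_one]; exact ha
  by_cases hst : f₂ σ τ = 0
  · obtain ⟨φ, hφ, hφτ⟩ := exists_functional_eq_one hd
    obtain ⟨ψ, -, hψσ⟩ := exists_functional_eq_one (U := ⊥) (x := σ) (by simpa using hσ)
    have hφσ : φ σ = 0 := hφ σ (Submodule.mem_span_singleton_self _)
    obtain ⟨y, hy⟩ := hT.exists_eq_fr (ψ + (1 - ψ τ) • φ)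
    have h1 : f₂ σ y = 1 := by
      rw [← fr_apply hT y, hy]; simp [hψσ, hφσ]
    have h1' : f₂ τ y = 1 := by
      rw [← fr_apply hT y, hy]; simp [hφτ]
    set r := y + (-(f₂ y y) / 2) • σ with hr
    have e1 : f₂ σ r = 1 := by
      rw [hr, hT.symm₂.bilinear.add_right, hT.symm₂.bilinear.smul_right, hQσ, h1, mul_zero,
        add_zero]
    have e2 : f₂ τ r = 1 := by
      rw [hr, hT.symm₂.bilinear.add_right, hT.symm₂.bilinear.smul_right, hT.symm₂.symm τ σ, hst,
        h1', mul_zero, add_zero]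
    refine ⟨r, fun h => one_ne_zero (α := F) (by rw [← e1, h, hT.zero_right₂]), ?_,
      by rw [e1]; exact one_ne_zero, by rw [e2]; exact one_ne_zero⟩
    rw [hr, hT.q_add_smul, hQσ, hT.symm₂.symm y σ, h1]
    field_simp
    ring
  · obtain ⟨w, hwσ, hwτ, hw⟩ := hT.exists_aniso_perp hQσ hst
    set l := -(f₂ w w) / (2 * f₂ σ τ) with hl
    set r := τ + l • σ + w with hr
    have e1 : f₂ σ r = f₂ σ τ := by
      rw [hr, hT.symm₂.bilinear.add_right, hT.symm₂.bilinear.add_right,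
        hT.symm₂.bilinear.smul_right, hQσ, hT.symm₂.symm σ w, hwσ, mul_zero, add_zero, add_zero]
    have e2 : f₂ τ r = l * f₂ σ τ := by
      rw [hr, hT.symm₂.bilinear.add_right, hT.symm₂.bilinear.add_right,
        hT.symm₂.bilinear.smul_right, hQτ, hT.symm₂.symm τ w, hwτ, hT.symm₂.symm τ σ, zero_add,
        add_zero]
    refine ⟨r, fun h => hst (by rw [← e1, h, hT.zero_right₂]), ?_, by rw [e1]; exact hst, ?_⟩
    · rw [hr, hT.q_add, hT.q_add_smul, hQσ, hQτ, hT.symm₂.bilinear.add_left,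
        hT.symm₂.bilinear.smul_left, hT.symm₂.symm τ w, hwτ, hT.symm₂.symm σ w, hwσ,
        hT.symm₂.symm τ σ, hl]
      field_simp
      ring
    · rw [e2, hl]
      exact mul_ne_zero (div_ne_zero (neg_ne_zero.mpr hw) (mul_ne_zero h2 hst)) hst

omit hM hH in
/-- One transvection at a pure tensor gives all transvections. -/
theorem T_mem_of_one (hM : M ≤ isom f)
    (hH : ∀ a ∈ isom f₁, ∀ b ∈ isom f₂, kron e P a b ∈ M) {s : Fin 3 → F} (hs : s ≠ 0)
    (hQs : f₂ s s = 0) {u : Fin 2 → F} {κ : F} (hu : u ≠ 0) (hκ : κ ≠ 0)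
    (h : Symp.T hT.symp (pt e P u s) κ ∈ M) (v : ι → F) (c : F) : Symp.T hT.symp v c ∈ M := by
  have hmove : ∀ {a : GL (Fin 2) F} {b : GL (Fin 3) F}, a ∈ isom f₁ → b ∈ isom f₂ →
      ∀ (x : Fin 2 → F) (y : Fin 3 → F) (t : F), Symp.T hT.symp (pt e P x y) t ∈ M →
        Symp.T hT.symp (pt e P (ap a x) (ap b y)) t ∈ M := by
    intro a b ha hb x y t ht
    have := M.mul_mem (M.mul_mem (hH a ha b hb) ht) (M.inv_mem (hH a ha b hb))
    rwa [Symp.conj_T hT.symp (hT.kron_isom ha hb), ap_kron] at this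
  -- all transvections at the slice of `s`
  have hsl : ∀ (x : Fin 2 → F) (t : F), Symp.T hT.symp (pt e P x s) t ∈ M := by
    intro x t
    by_cases hx : x = 0
    · rw [show Symp.T hT.symp (pt e P x s) t = 1 from gl_ext fun z => by
        simp [Symp.ap_T, hx, pt_zero_left]]
      exact one_mem M
    have hsq : ∀ a : F, Symp.T hT.symp (pt e P x s) (a * a * κ) ∈ M := by
      intro a
      by_cases ha : a = 0
      · simp [ha, Symp.T_zero_right]
      obtain ⟨g, hg, hgx⟩ := Symp.exists_isom_map hT.symp₁ hu (smul_ne_zero ha hx)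
      have := hmove hg (one_mem _) u s κ h
      rwa [hgx, ap_one, pt_smul_left, Symp.T_smul] at this
    obtain ⟨a, b, hab⟩ := Orth.exists_combination (F := F) one_ne_zero one_ne_zero hT.two (t / κ)
    have := M.mul_mem (hsq a) (hsq b)
    rw [Symp.T_mul] at this
    convert this using 2
    field_simp at hab
    linear_combination -hab
  -- all singular vectors
  have hone : ∀ σ τ : Fin 3 → F, f₂ σ σ = 0 → f₂ τ τ = 0 → f₂ σ τ ≠ 0 →
      (∀ x t, Symp.T hT.symp (pt e P x σ) t ∈ M) → ∀ x t, Symp.T hT.symp (pt e P x τ) t ∈ M := by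
    intro σ τ hσ hτ hne hall x t
    have hq : f₂ (σ + (-1 : F) • τ) (σ + (-1 : F) • τ) = -(2 * f₂ σ τ) := by
      rw [hT.q_add_smul, hσ, hτ]; ring
    have hq0 : f₂ (σ + (-1 : F) • τ) (σ + (-1 : F) • τ) ≠ 0 := by
      rw [hq]; exact neg_ne_zero.mpr (mul_ne_zero hT.two hne)
    have := hmove (one_mem (isom f₁)) (hT.r_mem hq0) x σ t (hall x t)
    rw [ap_one, hT.ap_r] at this
    have e1 : f₂ σ (σ + (-1 : F) • τ) = -f₂ σ τ := by
      rw [hT.symm₂.bilinear.add_right, hT.symm₂.bilinear.smul_right, hσ]; ring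
    rw [hq, e1] at this
    have h2 := hT.two
    have e2 : σ - (2 / -(2 * f₂ σ τ) * -f₂ σ τ) • (σ + (-1 : F) • τ) = τ := by
      rw [show 2 / -(2 * f₂ σ τ) * -f₂ σ τ = 1 by field_simp]
      module
    rwa [e2] at this
  have hall : ∀ τ : Fin 3 → F, τ ≠ 0 → f₂ τ τ = 0 → ∀ x t, Symp.T hT.symp (pt e P x τ) t ∈ M := by
    intro τ hτ hQτ
    obtain ⟨r, -, hQr, h1, h2⟩ := hT.exists_common hs hQs hτ hQτ
    exact hone r τ hQr hQτ (by rw [hT.symm₂.symm]; exact h2) (hone s r hQs hQr h1 hsl)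
  refine Symp.T_mem_of_connected hT.symp hT.two hM
    (Pset := {p | ∃ x σ, σ ≠ 0 ∧ f₂ σ σ = 0 ∧ pt e P x σ = p}) ?_ ?_ ?_ v c
  · rintro _ ⟨x, σ, hσ, hQσ, rfl⟩ t
    exact hall σ hσ hQσ x t
  · intro z hz
    by_contra hc
    push Not at hc
    have hsing : ∀ σ : Fin 3 → F, σ ≠ 0 → f₂ σ σ = 0 → hT.cc σ z = 0 := by
      intro σ hσ hQσ
      by_contra hne
      obtain ⟨x, hx⟩ := (hT.symp₁.nondegenerate _ hne).2
      exact hx (by rw [← hT.f_pt]; exact hc _ ⟨x, σ, hσ, hQσ, rfl⟩)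
    have hcs : hT.cc s z = 0 := hsing s hs hQs
    have hns : ∀ y, f₂ y s ≠ 0 → hT.cc y z = 0 := by
      intro y hy
      set l := -(f₂ y y) / (2 * f₂ y s) with hl
      have hσ : f₂ (y + l • s) (y + l • s) = 0 := by
        rw [hT.q_add_smul, hQs, hl]
        have := hT.two
        field_simp
        ring
      have hσ0 : y + l • s ≠ 0 := fun h0 => hy (by
        rw [eq_neg_of_add_eq_zero_left h0, ← neg_smul, hT.symm₂.bilinear.smul_left, hQs, mul_zero])
      have := hsing _ hσ0 hσ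
      rwa [hT.cc_add, hT.cc_smul, LinearMap.add_apply, LinearMap.smul_apply, hcs, smul_zero,
        add_zero] at this
    have hall' : ∀ y, hT.cc y z = 0 := by
      intro y
      by_cases hy : f₂ y s = 0
      · obtain ⟨t, ht, -⟩ := hT.exists_partner hs hQs
        have := hns (y + t) (by rw [hT.symm₂.bilinear.add_left, hy, ht, zero_add]; exact one_ne_zero)
        rwa [hT.cc_add, LinearMap.add_apply, hns t (by rw [ht]; exact one_ne_zero), add_zero] at this
      · exact hns y hy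
    obtain ⟨w, hw⟩ := (hT.symp.nondegenerate z hz).2
    refine hw (LinearMap.congr_fun (ext_pt e P (f := (Symp.fl hT.symp).flip z) (g := 0)
      fun a y => ?_) w)
    rw [LinearMap.flip_apply, Symp.fl_apply, hT.f_pt, hall', Symp.zero_left hT.symp₁,
      LinearMap.zero_apply]
  · rintro _ ⟨x, σ, hσ, hQσ, rfl⟩ _ ⟨y, τ, hτ, hQτ, rfl⟩ hp hq
    have hx : x ≠ 0 := fun h => hp (by rw [h, pt_zero_left])
    have hy : y ≠ 0 := fun h => hq (by rw [h, pt_zero_left])
    obtain ⟨r, hr, hQr, h1, h2⟩ := hT.exists_common hσ hQσ hτ hQτ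
    have hk : ∀ x : Fin 2 → F, x ≠ 0 → ¬ (⊤ : Submodule F (Fin 2 → F)) ≤
        LinearMap.ker ((Symp.fl hT.symp₁).flip x) := fun x hx hle => by
      obtain ⟨p, hp⟩ := (hT.symp₁.nondegenerate x hx).2
      exact hp (hle (Submodule.mem_top (x := p)))
    obtain ⟨z, -, hz1, hz2⟩ := exists_mem_notMem_notMem (hk x hx) (hk y hy)
    refine ⟨pt e P z r, ⟨z, r, hr, hQr, rfl⟩, ?_, ?_⟩
    · rw [hT.form]; exact mul_ne_zero hz1 h1
    · rw [hT.form]; exact mul_ne_zero hz2 h2

omit hM hH in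
/-- The stabiliser of the tensor decomposition is maximal. -/
theorem isMaximalIn :
    Cfsg.Geo.IsMaximalIn (isom f) (Cfsg.Geo.tensorProductSubgroup 2 3 e P ⊓ isom f) := by
  refine ⟨lt_of_le_of_ne inf_le_right fun he => ?_, fun M hHM hMS => ?_⟩
  · obtain ⟨s, -, hs, hQs⟩ := hT.exists_singular (N := ⊤)
      (by rw [finrank_top, Module.finrank_fin_fun])
    obtain ⟨u₁, u₂, h12, -⟩ := hT.exists_basis₁
    obtain ⟨t, ht, hQt⟩ := hT.exists_partner hs hQs
    have hm := (inf_eq_right.mp he) (Symp.T_mem_isom hT.symp (pt e P u₁ s) 1)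
    obtain ⟨b, hb⟩ := hT.of_fix_slice hm hs fun u => by
      rw [Symp.ap_T, hT.form, hQs, mul_zero, mul_zero, zero_smul, add_zero]
    have hu1 : u₁ ≠ 0 := fun h => one_ne_zero (α := F) (by
      rw [← h12, h, Symp.zero_left hT.symp₁])
    have hu2 : u₂ ≠ 0 := fun h => one_ne_zero (α := F) (by
      rw [← h12, h, Symp.zero_right hT.symp₁])
    have h1 := hb u₁ t
    rw [Symp.ap_T, hT.form, hT.symp₁.alternating, zero_mul, mul_zero, zero_smul, add_zero] at h1
    have h2 := hb u₂ t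
    rw [← pt_inj_right e P hu1 h1, Symp.ap_T, hT.form, ht, mul_one, one_mul, add_eq_left,
      hT.symp₁.skew, h12, smul_eq_zero] at h2
    exact h2.elim (fun h => one_ne_zero (neg_eq_zero.mp h)) (pt_ne_zero e P hu1 hs)
  have hH : ∀ a ∈ isom f₁, ∀ b ∈ isom f₂, kron e P a b ∈ M := fun a ha b hb =>
    hHM ⟨kron_mem e P a b, hT.kron_isom ha hb⟩
  by_cases hM : M ≤ Cfsg.Geo.tensorProductSubgroup 2 3 e P
  · exact Or.inl (le_antisymm (le_inf hM hMS) hHM)
  obtain ⟨g, hg, hgT⟩ := SetLike.not_le_iff_exists.mp hM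
  obtain ⟨u, s, κ, hu, hs, hQs, hκ, hTm⟩ := hT.goal_of_outside hMS hH hg hgT
  exact Or.inr (le_antisymm hMS
    (Symp.isom_le_of_T_mem hT.symp fun v c => hT.T_mem_of_one hMS hH hs hQs hu hκ hTm v c))

end SOThree.Data

/-- The data from a tensor form structure. -/
theorem symp_two_three_tensor_isMaximalIn {ι : Type} [Fintype ι] [DecidableEq ι] {F : Type*} [Field F] [Fintype F] {f : (ι → F) → (ι → F) → F} 
    (hf : Cfsg.Geo.IsSymplecticForm f) (hodd : Odd (Fintype.card F)) (hq : 5 ≤ Fintype.card F)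
    {e : ι ≃ Fin 2 × Fin 3} {P : GL ι F} {f₁ : (Fin 2 → F) → (Fin 2 → F) → F}
    {f₂ : (Fin 3 → F) → (Fin 3 → F) → F} (hf₁ : Cfsg.Geo.IsSymplecticForm f₁)
    (hf₂ : Cfsg.Geo.IsSymmetricForm f₂)
    (hT : Cfsg.Geo.IsTensorFormStructure id f f₁ f₂ e P) :
    Cfsg.Geo.IsMaximalIn (isom f) (Cfsg.Geo.tensorProductSubgroup 2 3 e P ⊓ isom f) := by
  obtain ⟨c, hc, hform⟩ := Tensor.form_pt e P (σ := RingHom.id F)
    (Orth.bilinear_eq_formOfGram hf₁.bilinear) (Orth.bilinear_eq_formOfGram hf₂.bilinear) hT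
  refine SOThree.Data.isMaximalIn (f₁ := f₁) (f₂ := fun x y => c * f₂ x y)
    { symp := hf, symp₁ := hf₁, symm₂ := ?_, two := Orth.two_ne_zero_of_odd hodd, five := by rwa [Nat.card_eq_fintype_card],
      form := fun x x' y y' => by rw [hform]; ring }
  exact
    { bilinear :=
        { add_left := fun x y v => by rw [hf₂.bilinear.add_left, mul_add]
          smul_left := fun a x v => by rw [hf₂.bilinear.smul_left, mul_left_comm]
          add_right := fun v x y => by rw [hf₂.bilinear.add_right, mul_add]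
          smul_right := fun a v x => by rw [hf₂.bilinear.smul_right, mul_left_comm] }
      symm := fun x y => by rw [hf₂.symm]
      nondegenerate := fun v hv =>
        ⟨(hf₂.nondegenerate v hv).1.imp fun x hx => mul_ne_zero hc hx,
          (hf₂.nondegenerate v hv).2.imp fun x hx => mul_ne_zero hc hx⟩ }

end CfsgLib.Geometric
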