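import Cfsg.Agent.Lib.Geometric.SOTensor.ThreeRad
import Cfsg.Agent.Lib.Geometric.Orth.ExtQuad

/-!
Planes of involutions: a plane that is not a slice gives a transvection at a pure tensor.
-/

set_option autoImplicit false
set_option linter.unusedSectionVars false

namespace CfsgLib.Geometric.SOThree.Data

open Matrix Tensor

variable {ι : Type} [Fintype ι] [DecidableEq ι] {F : Type*} [Field F] [Finite F]
variable {f : (ι → F) → (ι → F) → F} {e : ι ≃ Fin 2 × Fin 3} {P : GL ι F}
  {f₁ : (Fin 2 → F) → (Fin 2 → F) → F} {f₂ : (Fin 3 → F) → (Fin 3 → F) → F}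
variable (hT : Data f e P f₁ f₂)
include hT

omit hT in
/-- The involution negating the plane of a hyperbolic pair lies in `M`. -/
def Pl (f : (ι → F) → (ι → F) → F) (M : Subgroup (GL ι F)) (E φ : ι → F) : Prop :=
  f E φ = 1 ∧ ∃ k ∈ M, ∀ x, ap k x = x - (2 : F) • (f x φ • E - f x E • φ)

variable {M : Subgroup (GL ι F)} (hM : M ≤ isom f)
  (hH : ∀ a ∈ isom f₁, ∀ b ∈ isom f₂, kron e P a b ∈ M)

lemma pl_change {E φ : ι → F} (h : Pl f M E φ) {a b c d : F} (hd : a * d - b * c = 1) :
    Pl f M (a • E + b • φ) (c • E + d • φ) := by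
  obtain ⟨hEφ, k, hk, hkx⟩ := h
  have hφE : f φ E = -1 := by rw [hT.symp.skew, hEφ]
  refine ⟨?_, k, hk, fun x => ?_⟩
  · simp only [hT.symp.bilinear.add_left, hT.symp.bilinear.add_right, hT.symp.bilinear.smul_left,
      hT.symp.bilinear.smul_right, hT.symp.alternating, hEφ, hφE]
    linear_combination hd
  · rw [hkx]
    simp only [hT.symp.bilinear.add_right, hT.symp.bilinear.smul_right]
    match_scalars
    · ring
    · linear_combination (2 * f x φ) * hd
    · linear_combination (-(2 * f x E)) * hd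

lemma pl_map (hM : M ≤ isom f) {E φ : ι → F} (h : Pl f M E φ) {g : GL ι F} (hg : g ∈ M) :
    Pl f M (ap g E) (ap g φ) := by
  obtain ⟨hEφ, k, hk, hkx⟩ := h
  refine ⟨by rw [mem_isom_iff.mp (hM hg), hEφ], g * k * g⁻¹,
    M.mul_mem (M.mul_mem hg hk) (M.inv_mem hg), fun x => ?_⟩
  obtain ⟨y, rfl⟩ : ∃ y, x = ap g y := ⟨ap g⁻¹ x, (ap_ap_inv g x).symm⟩
  rw [ap_mul, ap_mul, ap_inv_ap, hkx, mem_isom_iff.mp (hM hg), mem_isom_iff.mp (hM hg), ap_sub,
    ap_smul, ap_sub, ap_smul, ap_smul]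

include hH in
lemma pl_slice {v : Fin 3 → F} (hv : f₂ v v ≠ 0) {u₁ u₂ : Fin 2 → F} (h12 : f₁ u₁ u₂ = 1) :
    Pl f M (pt e P u₁ v) ((f₂ v v)⁻¹ • pt e P u₂ v) := by
  refine ⟨by rw [hT.symp.bilinear.smul_right, hT.form, h12, one_mul, inv_mul_cancel₀ hv],
    _, hH 1 (one_mem _) _ (hT.r_mem hv), fun x => ?_⟩
  rw [hT.ap_kron_r, hT.symp.bilinear.smul_right, hT.f_pt, hT.f_pt]
  conv_lhs => arg 2; arg 2; rw [hT.dec₁ h12 (hT.cc v x), pt_sub_left, pt_smul_left, pt_smul_left]
  match_scalars <;> ring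

/-- Two planes through a common vector give a quadratic element. -/
lemma quad_of_planes {E φ W : ι → F} (h : Pl f M E φ) (h' : Pl f M E (φ + W)) :
    ∃ m ∈ M, ∀ x, ap m x = x + (2 : F) • (f x E • W + f x W • E) +
      (4 * f φ W * f x E) • E := by
  obtain ⟨hEφ, k, hk, hkx⟩ := h
  obtain ⟨hEφ', k', hk', hkx'⟩ := h'
  have hφE : f φ E = -1 := by rw [hT.symp.skew, hEφ]
  have hEW : f E W = 0 := by
    rw [hT.symp.bilinear.add_right, hEφ] at hEφ'
    linear_combination hEφ'
  have hWE : f W E = 0 := by rw [hT.symp.skew, hEW, neg_zero]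
  refine ⟨k * k', M.mul_mem hk hk', fun x => ?_⟩
  rw [ap_mul, hkx', hkx]
  simp only [Symp.sub_left hT.symp, hT.symp.bilinear.smul_left, hT.symp.bilinear.add_left,
    hT.symp.bilinear.add_right, hT.symp.alternating, hEφ, hφE, hWE, hT.symp.skew W φ]
  match_scalars <;> ring

include hM hH

/-- A non-singular vector killing one side of a plane. -/
theorem goal_of_zero {E φ : ι → F} (h : Pl f M E φ) {Z : Fin 3 → F} (hZ : f₂ Z Z ≠ 0)
    (hE : hT.cc Z E = 0) (hφ : hT.cc Z φ ≠ 0) : hT.Goal M := by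
  have hE0 : E ≠ 0 := fun h0 => one_ne_zero (α := F) (by rw [← h.1, h0, Symp.zero_left hT.symp])
  have hZ0 : Z ≠ 0 := fun h0 => hZ (by rw [h0, hT.zero_left₂])
  set c := hT.cc Z φ with hc
  set w := (-(2 / f₂ Z Z)) • Z with hw
  have hw0 : w ≠ 0 := smul_ne_zero (neg_ne_zero.mpr (div_ne_zero hT.two hZ)) hZ0
  set W := pt e P c w with hW
  set R := kron e P (1 : GL (Fin 2) F) (hT.r hZ) with hR
  have hRM : R ∈ M := hH 1 (one_mem _) _ (hT.r_mem hZ)
  have hRE : ap R E = E := by rw [hR, hT.ap_kron_r, hE, pt_zero_left, smul_zero, sub_zero]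
  have hRφ : ap R φ = φ + W := by
    rw [hR, hT.ap_kron_r, hW, hw, pt_smul_right, neg_smul, sub_eq_add_neg]
  have hRW : ap R W = -W := by
    rw [hR, hT.ap_kron_r, hW, hw, pt_smul_right, map_smul, cc_pt, pt_smul_left, pt_smul_left,
      smul_smul, smul_smul]
    match_scalars
    field_simp
    ring
  have h' : Pl f M E (φ + W) := by
    have := hT.pl_map hM h hRM
    rwa [hRE, hRφ] at this
  have hEW : f E W = 0 := by
    have := h'.1
    rw [hT.symp.bilinear.add_right, h.1] at this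
    linear_combination this
  obtain ⟨m, hm, hmx⟩ := hT.quad_of_planes h h'
  by_cases hp : f φ W = 0
  · refine hT.goal_of_quad hM hH hE0 hφ hw0 hEW hm (l := 2) hT.two fun x => ?_
    rw [hmx, hp]
    simp [hW]
  refine hT.goal_of_T hM hH hE0 (κ := 8 * f φ W)
    (mul_ne_zero (by rw [show (8 : F) = 2 * 2 * 2 by norm_num]
                     exact mul_ne_zero (mul_ne_zero hT.two hT.two) hT.two) hp) ?_
  have key : Symp.T hT.symp E (8 * f φ W) = m * (R * m * R⁻¹) := by
    refine gl_ext fun x => ?_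
    obtain ⟨y, rfl⟩ : ∃ y, x = ap R y := ⟨ap R⁻¹ x, (ap_ap_inv R x).symm⟩
    have e1 : f (ap R y) E = f y E := by
      conv_lhs => rw [← hRE]
      exact mem_isom_iff.mp (hM hRM) y E
    have e2 : f (ap R y) W = -f y W := by
      rw [← neg_neg W, ← hRW, Symp.neg_right hT.symp, mem_isom_iff.mp (hM hRM), hRW, neg_neg]
    have hWE : f W E = 0 := by rw [hT.symp.skew, hEW, neg_zero]
    rw [ap_mul, ap_mul, ap_mul, ap_inv_ap, hmx (ap R (ap m y))]
    simp only [hmx y, ap_add, ap_smul, hRE, hRW, Symp.ap_T]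
    simp only [smul_neg, ← neg_smul, hT.symp.bilinear.add_left, hT.symp.bilinear.smul_left,
      hT.symp.alternating, hEW, hWE, e1, e2]
    match_scalars <;> ring
  rw [key]
  exact M.mul_mem hm (M.mul_mem (M.mul_mem hRM hm) (M.inv_mem hRM))

omit hM hH in
/-- A pair spanning the same plane with the first vector killed. -/
lemma exists_kill {E φ : ι → F} (h : Pl f M E φ) {Z : Fin 3 → F}
    (hne : hT.cc Z E ≠ 0 ∨ hT.cc Z φ ≠ 0) (hdet : f₁ (hT.cc Z E) (hT.cc Z φ) = 0) :
    ∃ a b c d : F, Pl f M (a • E + b • φ) (c • E + d • φ) ∧ a * d - b * c = 1 ∧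
      hT.cc Z (a • E + b • φ) = 0 ∧ hT.cc Z (c • E + d • φ) ≠ 0 := by
  by_cases hp : hT.cc Z φ = 0
  · refine ⟨0, 1, -1, 0, hT.pl_change h (by ring), by ring, by simp [hp], ?_⟩
    simpa [hp] using hne
  obtain ⟨p, hp'⟩ := (hT.symp₁.nondegenerate _ hp).2
  set u := (f₁ (hT.cc Z φ) p)⁻¹ • p
  have hu : f₁ (hT.cc Z φ) u = 1 := by rw [hT.symp₁.bilinear.smul_right, inv_mul_cancel₀ hp']
  have hdec := hT.dec₁ hu (hT.cc Z E)
  rw [hdet, zero_smul, sub_zero] at hdec
  refine ⟨1, -f₁ (hT.cc Z E) u, 0, 1, hT.pl_change h (by ring), by ring, ?_, by simpa using hp⟩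
  rw [one_smul, map_add, map_smul, neg_smul, ← hdec, add_neg_cancel]

theorem goal_of_det {E φ : ι → F} (h : Pl f M E φ) {Z : Fin 3 → F} (hZ : f₂ Z Z ≠ 0)
    (hne : hT.cc Z E ≠ 0 ∨ hT.cc Z φ ≠ 0) (hdet : f₁ (hT.cc Z E) (hT.cc Z φ) = 0) :
    hT.Goal M := by
  obtain ⟨a, b, c, d, h', -, h1, h2⟩ := hT.exists_kill h hne hdet
  exact hT.goal_of_zero hM hH h' hZ h1 h2

/-- The case of a rank two vector whose kernel is singular, moved by a unipotent. -/
theorem goal_of_unip {E φ : ι → F} (h : Pl f M E φ) {u c : Fin 2 → F} (h12 : f₁ u c = 1)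
    {s z t : Fin 3 → F} (hQs : f₂ s s = 0) (ht : f₂ t s = 1) (hQt : f₂ t t = 0)
    (hzs : f₂ z s = 0) (hzt : f₂ z t = 0) (hQz : f₂ z z ≠ 0) {C P' B R : F}
    (hE : E = pt e P u s + pt e P c z)
    (hφ : φ = pt e P (C • c) s + pt e P (P' • u + B • c) z + pt e P (R • c) t)
    (hne : 2 * P' + R / f₂ z z ≠ 0 ∨ B ≠ 0) : hT.Goal M := by
  have h2 := hT.two
  have hsz : f₂ s z = 0 := by rw [hT.symm₂.symm, hzs]
  have hst : f₂ s t = 1 := by rw [hT.symm₂.symm, ht]
  have htz : f₂ t z = 0 := by rw [hT.symm₂.symm, hzt]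
  have hs : s ≠ 0 := fun h0 => one_ne_zero (α := F) (by rw [← ht, h0, hT.zero_right₂])
  have hE0 : E ≠ 0 := fun h0 => one_ne_zero (α := F) (by rw [← h.1, h0, Symp.zero_left hT.symp])
  have hc : c ≠ 0 := fun h0 => one_ne_zero (α := F) (by rw [← h12, h0, Symp.zero_right hT.symp₁])
  have hcu : f₁ c u = -1 := by rw [hT.symp₁.skew, h12]
  -- the unipotent of the second factor
  let b : (Fin 3 → F) →ₗ[F] (Fin 3 → F) := LinearMap.id + (hT.fr s).smulRight
    ((-(1 / f₂ z z)) • z) + ((1 / f₂ z z) • hT.fr z).smulRight s -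
      ((1 / (2 * f₂ z z)) • hT.fr s).smulRight s
  have hb : ∀ y, b y = y + f₂ y s • (-(1 / f₂ z z)) • z + (1 / f₂ z z * f₂ y z) • s -
      (1 / (2 * f₂ z z) * f₂ y s) • s := fun y => rfl
  have hbI : ∀ y y', f₂ (b y) (b y') = f₂ y y' := by
    intro y y'
    simp only [hb, sub_eq_add_neg, ← neg_smul, hT.symm₂.bilinear.add_left,
      hT.symm₂.bilinear.smul_left, hT.symm₂.bilinear.add_right, hT.symm₂.bilinear.smul_right, hzs,
      hsz, hQs, hT.symm₂.symm z y', hT.symm₂.symm s y']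
    field_simp
    ring
  have hbinj : Function.Injective b := (injective_iff_map_eq_zero _).mpr fun y hy => by
    by_contra hy0
    obtain ⟨y', hy'⟩ := (hT.symm₂.nondegenerate y hy0).2
    exact hy' (by rw [← hbI, hy, hT.zero_left₂])
  set b' : GL (Fin 3) F := ofEquiv (LinearEquiv.ofInjectiveEndo b hbinj) with hb'def
  have hb' : ∀ y, ap b' y = b y := fun y => by rw [hb'def, ap_ofEquiv]; rfl
  have hb'I : b' ∈ isom f₂ := fun y y' => by
    change f₂ (ap b' y) (ap b' y') = f₂ y y'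
    rw [hb', hb', hbI]
  have bs : ap b' s = s := by rw [hb', hb, hQs, hsz]; module
  have bz : ap b' z = z + s := by
    rw [hb', hb, hzs]
    match_scalars <;> field_simp <;> ring
  have bt : ap b' t = t - (1 / f₂ z z) • z - (1 / (2 * f₂ z z)) • s := by
    rw [hb', hb, ht, htz]
    module
  set g := kron e P (Symp.T hT.symp₁ c (-1)) b' with hg
  have hgM : g ∈ M := hH _ (Symp.T_mem_isom hT.symp₁ c _) _ hb'I
  have au : ap (Symp.T hT.symp₁ c (-1)) u = u - c := by rw [Symp.ap_T, h12]; module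
  have ac : ap (Symp.T hT.symp₁ c (-1)) c = c := by rw [Symp.ap_T, hT.symp₁.alternating]; module
  have hgE : ap g E = E := by
    rw [hE, ap_add, hg, ap_kron, ap_kron, au, ac, bs, bz, pt_sub_left, pt_add_right]
    abel
  set y := (-(2 * P' + R / f₂ z z)) • z + (B - P' - R / (2 * f₂ z z)) • s with hy
  set W := pt e P c y with hW
  have h' : Pl f M E (φ + W) := by
    have h1 := hT.pl_map hM h hgM
    rw [hgE] at h1
    have h3 := hT.pl_change h1 (a := 1) (b := 0) (c := -P') (d := 1) (by ring)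
    rw [one_smul, zero_smul, add_zero, one_smul] at h3
    convert h3 using 1
    rw [hW, hy, hφ, hE]
    simp only [ap_add, hg, ap_kron, au, ac, bs, bz, bt, map_add, map_smul, ap_smul, pt_add_left,
      pt_sub_left, pt_smul_left, pt_add_right, pt_sub_right, pt_smul_right]
    match_scalars <;> field_simp <;> ring
  obtain ⟨m, hm, hmx⟩ := hT.quad_of_planes h h'
  have hy0 : y ≠ 0 := by
    intro h0
    have e1 := congrArg (fun r => f₂ r z) h0
    have e2 := congrArg (fun r => f₂ r t) h0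
    simp only [hy, hT.symm₂.bilinear.add_left, hT.symm₂.bilinear.smul_left, hsz, hst, hzt,
      hT.zero_left₂] at e1 e2
    have k1 : 2 * P' + R / f₂ z z = 0 := (mul_eq_zero.mp (show (2 * P' + R / f₂ z z) * f₂ z z = 0 by
      linear_combination -e1)).resolve_right hQz
    have k2 : B = 0 := by
      have : 2 * B = 0 := by
        have h3 : R / (2 * f₂ z z) = R / f₂ z z / 2 := by field_simp
        rw [h3] at e2
        linear_combination (norm := skip) 2 * e2 + k1
        field_simp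
        ring
      exact (mul_eq_zero.mp this).resolve_left h2
    exact hne.elim (fun h4 => h4 k1) (fun h4 => h4 k2)
  have hEW : f E W = 0 := by
    have := h'.1
    rw [hT.symp.bilinear.add_right, h.1] at this
    linear_combination this
  have hrow : hT.row c E = s := by
    rw [hE, map_add, row_pt, row_pt, h12, hT.symp₁.alternating]; simp
  by_cases hp : f φ W = 0
  · refine hT.goal_of_quad hM hH hE0 hc hy0 hEW hm (l := 2) h2 fun x => ?_
    rw [hmx, hp]
    simp [hW]
  -- otherwise the centre `c ⊗ s`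
  set D := pt e P c s with hD
  have hED : f E D = 0 := by rw [hD, hT.f_row, hrow, hQs]
  have hDE : f D E = 0 := by rw [hT.symp.skew, hED, neg_zero]
  have hWE : f W E = 0 := by rw [hT.symp.skew, hEW, neg_zero]
  have hWD : f W D = 0 := by rw [hW, hD, hT.form, hT.symp₁.alternating, zero_mul]
  have hDW : f D W = 0 := by rw [hT.symp.skew, hWD, neg_zero]
  have hmt : ∀ r : F, ∃ m' ∈ M, ∀ x, ap m' x = x + (2 : F) • (f x (E + r • D) • W +
      f x W • (E + r • D)) + (4 * f φ W * f x (E + r • D)) • (E + r • D) := by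
    intro r
    set k := kron e P (Symp.T hT.symp₁ c r) (1 : GL (Fin 3) F) with hkdef
    have hk : k ∈ M := hH _ (Symp.T_mem_isom hT.symp₁ c r) _ (one_mem _)
    have hkE : ap k E = E + r • D := by rw [hkdef, hT.ap_kron_T, hrow]
    have hkW : ap k W = W := by
      rw [hkdef, hT.ap_kron_T, hW, hT.row_self, pt_zero_right, smul_zero, add_zero]
    refine ⟨k * m * k⁻¹, M.mul_mem (M.mul_mem hk hm) (M.inv_mem hk), fun x => ?_⟩
    obtain ⟨x', rfl⟩ : ∃ x', x = ap k x' := ⟨ap k⁻¹ x, (ap_ap_inv k x).symm⟩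
    have e1 : f (ap k x') (E + r • D) = f x' E := by
      rw [← hkE]; exact mem_isom_iff.mp (hM hk) x' E
    have e2 : f (ap k x') W = f x' W := by
      conv_lhs => rw [← hkW]
      exact mem_isom_iff.mp (hM hk) x' W
    simp only [ap_mul, ap_inv_ap, hmx, ap_add, ap_smul, hkE, hkW, e1, e2]
  obtain ⟨m₁, hm₁, hm₁x⟩ := hmt 1
  obtain ⟨m₂, hm₂, hm₂x⟩ := hmt (-1)
  refine hT.goal_of_pureT hH hc hs (κ := 8 * f φ W)
    (mul_ne_zero (by rw [show (8 : F) = 2 * 2 * 2 by norm_num]
                     exact mul_ne_zero (mul_ne_zero h2 h2) h2) hp) ?_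
  have key : Symp.T hT.symp D (8 * f φ W) * (m * m) = m₁ * m₂ := by
    refine gl_ext fun x => ?_
    simp only [ap_mul, Symp.ap_T, hmx, hm₁x, hm₂x, hT.symp.bilinear.add_left,
      hT.symp.bilinear.add_right, hT.symp.bilinear.smul_left, hT.symp.bilinear.smul_right,
      hT.symp.alternating, hED, hDE, hEW, hWE, hWD, hDW]
    match_scalars <;> ring
  rw [eq_mul_inv_of_mul_eq key]
  exact M.mul_mem (M.mul_mem hm₁ hm₂) (M.inv_mem (M.mul_mem hm hm))

/-- A plane that no vector kills. -/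
theorem goal_of_inj {E₀ φ₀ : ι → F} (h₀ : Pl f M E₀ φ₀)
    (hinj₀ : ∀ Z, Z ≠ 0 → hT.cc Z E₀ ≠ 0 ∨ hT.cc Z φ₀ ≠ 0) : hT.Goal M := by
  have h2 := hT.two
  -- a vector of determinant zero
  let Bl : (Fin 3 → F) →ₗ[F] (Fin 3 → F) →ₗ[F] F :=
    LinearMap.mk₂ F (fun Z Z' => f₁ (hT.cc Z E₀) (hT.cc Z' φ₀))
      (fun Z Z' W => by rw [hT.cc_add, LinearMap.add_apply, hT.symp₁.bilinear.add_left])
      (fun r Z W => by
        rw [hT.cc_smul, LinearMap.smul_apply, hT.symp₁.bilinear.smul_left]; rfl)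
      (fun Z W W' => by rw [hT.cc_add, LinearMap.add_apply, hT.symp₁.bilinear.add_right])
      (fun r Z W => by
        rw [hT.cc_smul, LinearMap.smul_apply, hT.symp₁.bilinear.smul_right]; rfl)
  obtain ⟨s, -, hs, hs'⟩ := Orth.exists_singular_mem
    (Q := LinearMap.BilinMap.toQuadraticMap Bl) ⊤
    (by rw [finrank_top, Module.finrank_fin_fun])
  have hdet : f₁ (hT.cc s E₀) (hT.cc s φ₀) = 0 := hs'
  by_cases hQs : f₂ s s = 0
  swap
  · exact hT.goal_of_det hM hH h₀ hQs (hinj₀ s hs) hdet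
  obtain ⟨a, b, c, d, h, had, hsE, hsφ⟩ := hT.exists_kill h₀ (hinj₀ s hs) hdet
  set E := a • E₀ + b • φ₀ with hEdef
  set φ := c • E₀ + d • φ₀ with hφdef
  have hinj : ∀ Z, Z ≠ 0 → hT.cc Z E ≠ 0 ∨ hT.cc Z φ ≠ 0 := by
    intro Z hZ
    by_contra hcon
    push Not at hcon
    obtain ⟨e1, e2⟩ := hcon
    rw [hEdef, map_add, map_smul, map_smul] at e1
    rw [hφdef, map_add, map_smul, map_smul] at e2
    rcases hinj₀ Z hZ with h1 | h1 <;> apply h1
    · linear_combination (norm := skip) d • e1 - b • e2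
      match_scalars <;> first | linear_combination had | linear_combination -had | ring
    · linear_combination (norm := skip) a • e2 - c • e1
      match_scalars <;> first | linear_combination had | linear_combination -had | ring
  obtain ⟨t, z, ht, hQt, hzs, hzt, hQz⟩ := hT.exists_frame hs hQs
  have hst : f₂ s t = 1 := by rw [hT.symm₂.symm, ht]
  have hsz : f₂ s z = 0 := by rw [hT.symm₂.symm, hzs]
  have htz : f₂ t z = 0 := by rw [hT.symm₂.symm, hzt]
  have hexp : ∀ x, x = pt e P (hT.cc t x) s + pt e P (hT.cc s x) t +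
      pt e P ((1 / f₂ z z) • hT.cc z x) z := by
    intro x
    have hl : (LinearMap.id : (ι → F) →ₗ[F] (ι → F)) = (ptl e P s).comp (hT.cc t) +
        (ptl e P t).comp (hT.cc s) + (ptl e P z).comp ((1 / f₂ z z) • hT.cc z) :=
      ext_pt e P fun p y => by
        show pt e P p y = pt e P (hT.cc t (pt e P p y)) s + pt e P (hT.cc s (pt e P p y)) t +
          pt e P ((1 / f₂ z z) • hT.cc z (pt e P p y)) z
        simp only [cc_pt, smul_smul, pt_smul_left, ← pt_smul_right, ← pt_add_right]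
        conv_lhs => rw [hT.frame_dec hQs ht hQt hzs hzt hQz y]
        congr 2
        rw [one_div, inv_mul_eq_div]
    exact LinearMap.congr_fun hl x
  set p := hT.cc t E with hp
  set r := (1 / f₂ z z) • hT.cc z E with hr
  have hEe : E = pt e P p s + pt e P r z := by
    conv_lhs => rw [hexp E, hsE, pt_zero_left, add_zero]
  by_cases hpr : f₁ p r = 0
  · -- then a non-singular vector kills `E`
    by_cases hr0 : r = 0
    · refine hT.goal_of_zero hM hH h hQz ?_ ((hinj z fun h0 => hQz (by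
        rw [h0, hT.zero_left₂])).resolve_left ?_)
      · rw [hEe, hr0, pt_zero_left, add_zero, cc_pt, hsz, zero_smul]
      · rw [hEe, hr0, pt_zero_left, add_zero, cc_pt, hsz, zero_smul, ne_eq, not_not]
    obtain ⟨q, hq⟩ := (hT.symp₁.nondegenerate _ hr0).2
    set u := (f₁ r q)⁻¹ • q
    have hu : f₁ r u = 1 := by rw [hT.symp₁.bilinear.smul_right, inv_mul_cancel₀ hq]
    have hdec := hT.dec₁ hu p
    rw [hpr, zero_smul, sub_zero] at hdec
    set k := f₁ p u with hk
    set δ := -k / f₂ z z with hδ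
    set Z := t + ((1 - δ * δ * f₂ z z) / 2) • s + δ • z with hZ
    have hQZ : f₂ Z Z = 1 := by
      simp only [hZ, hT.symm₂.bilinear.add_left, hT.symm₂.bilinear.smul_left,
        hT.symm₂.bilinear.add_right, hT.symm₂.bilinear.smul_right, hQs, hQt, hzs, hzt, hsz, htz,
        ht, hst]
      field_simp
      ring
    have hZE : hT.cc Z E = 0 := by
      rw [hEe, map_add, cc_pt, cc_pt, hdec, smul_smul, ← add_smul]
      simp only [hZ, hT.symm₂.bilinear.add_right, hT.symm₂.bilinear.smul_right, hst, hQs, hsz, hzt,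
        hzs, hδ]
      convert zero_smul F r using 2
      field_simp
      ring
    exact hT.goal_of_zero hM hH h (by rw [hQZ]; exact one_ne_zero) hZE
      ((hinj Z fun h0 => one_ne_zero (α := F) (by rw [← hQZ, h0, hT.zero_left₂])).resolve_left
        (not_not.mpr hZE))
  -- normalised frame
  set D₀ := f₁ p r with hD₀
  set s' := D₀ • s with hs'def
  set t' := D₀⁻¹ • t with ht'def
  set u := D₀⁻¹ • p with hu
  have h12 : f₁ u r = 1 := by rw [hu, hT.symp₁.bilinear.smul_left, inv_mul_cancel₀ hpr]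
  have hru : f₁ r u = -1 := by rw [hT.symp₁.skew, h12]
  have hQs' : f₂ s' s' = 0 := by rw [hs'def, hT.q_smul, hQs, mul_zero]
  have ht' : f₂ t' s' = 1 := by
    rw [ht'def, hs'def, hT.symm₂.bilinear.smul_left, hT.symm₂.bilinear.smul_right, ht, mul_one,
      inv_mul_cancel₀ hpr]
  have hQt' : f₂ t' t' = 0 := by rw [ht'def, hT.q_smul, hQt, mul_zero]
  have hzs' : f₂ z s' = 0 := by rw [hs'def, hT.symm₂.bilinear.smul_right, hzs, mul_zero]
  have hzt' : f₂ z t' = 0 := by rw [ht'def, hT.symm₂.bilinear.smul_right, hzt, mul_zero]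
  have hst' : f₂ s' t' = 1 := by rw [hT.symm₂.symm, ht']
  have hsz' : f₂ s' z = 0 := by rw [hT.symm₂.symm, hzs']
  have htz' : f₂ t' z = 0 := by rw [hT.symm₂.symm, hzt']
  have hE' : E = pt e P u s' + pt e P r z := by
    simp only [hEe, hu, hs'def, pt_smul_left, pt_smul_right, smul_smul, mul_inv_cancel₀ hpr,
      inv_mul_cancel₀ hpr, one_smul]
  set α₀ := D₀⁻¹ • hT.cc t φ with hα₀
  set β₀ := (1 / f₂ z z) • hT.cc z φ with hβ₀
  set γ₀ := D₀ • hT.cc s φ with hγ₀
  set A := f₁ α₀ r with hA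
  set C := -f₁ α₀ u with hC
  set P' := f₁ β₀ r with hP'
  set B := -f₁ β₀ u - A with hB
  set G := f₁ γ₀ r with hG
  set R := -f₁ γ₀ u with hR
  set φ' := φ - A • E with hφ'def
  have hPl : Pl f M E φ' := by
    have := hT.pl_change h (a := 1) (b := 0) (c := -A) (d := 1) (by ring)
    rw [one_smul, zero_smul, add_zero, one_smul] at this
    convert this using 1
    rw [hφ'def]; module
  have hinj' : ∀ Z, Z ≠ 0 → hT.cc Z E ≠ 0 ∨ hT.cc Z φ' ≠ 0 := by
    intro Z hZ
    by_contra hcon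
    push Not at hcon
    obtain ⟨e1, e2⟩ := hcon
    rw [hφ'def, map_sub, map_smul, e1, smul_zero, sub_zero] at e2
    exact (hinj Z hZ).elim (· e1) (· e2)
  have hφe : φ' = pt e P (C • r) s' + pt e P (P' • u + B • r) z +
      pt e P (G • u + R • r) t' := by
    rw [hφ'def]
    conv_lhs => rw [hexp φ, hE']
    have d1 := hT.dec₁ h12 α₀
    have d2 := hT.dec₁ h12 β₀
    have d3 := hT.dec₁ h12 γ₀
    have e1 : hT.cc t φ = D₀ • α₀ := by
      rw [hα₀, smul_smul, mul_inv_cancel₀ hpr, one_smul]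
    have e2 : hT.cc s φ = D₀⁻¹ • γ₀ := by
      rw [hγ₀, smul_smul, inv_mul_cancel₀ hpr, one_smul]
    rw [← hβ₀, e1, e2, d1, d2, d3, hs'def, ht'def]
    simp only [hA, hC, hP', hB, hG, hR, pt_add_left, pt_sub_left, pt_smul_left, pt_smul_right]
    match_scalars <;> field_simp <;> ring
  have hRP : R - f₂ z z * P' = 1 := by
    have h1 := hPl.1
    rw [hE', hφe] at h1
    simp only [hT.symp.bilinear.add_left, hT.symp.bilinear.add_right, hT.form, hQs', hst', hsz',
      hzs', hzt', hT.symp₁.bilinear.add_right, hT.symp₁.bilinear.smul_right, h12, hru,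
      hT.symp₁.alternating] at h1
    linear_combination h1
  -- the vectors with first coordinate one
  have hval : ∀ a b : F, ∀ Z, Z = a • s' + (b / f₂ z z) • z + t' →
      f₂ Z Z = 2 * a + b * b / f₂ z z ∧ Z ≠ 0 ∧
      f₁ (hT.cc Z E) (hT.cc Z φ') = C + b * B + a * R - b * (b * P' + a * G) := by
    rintro a b Z rfl
    refine ⟨?_, fun h0 => ?_, ?_⟩
    · simp only [hT.symm₂.bilinear.add_left, hT.symm₂.bilinear.smul_left,
        hT.symm₂.bilinear.add_right, hT.symm₂.bilinear.smul_right, hQs', hQt', hzs', hzt', hsz',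
        htz', ht', hst']
      field_simp
      ring
    · have := congrArg (fun y => f₂ y s') h0
      simp [hT.symm₂.bilinear.add_left, hT.symm₂.bilinear.smul_left, hQs', hzs', ht',
        hT.zero_left₂] at this
    · rw [hE', hφe]
      simp only [map_add, cc_pt, hT.symm₂.bilinear.add_right, hT.symm₂.bilinear.smul_right, hQs',
        hQt', hzs', hzt', hsz', htz', ht', hst', hT.symp₁.bilinear.add_left,
        hT.symp₁.bilinear.add_right, hT.symp₁.bilinear.smul_left, hT.symp₁.bilinear.smul_right,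
        hT.symp₁.alternating, h12, hru]
      field_simp
      ring
  by_cases hG0 : G = 0
  · by_cases hκ : 2 * P' + R / f₂ z z ≠ 0 ∨ B ≠ 0
    · refine hT.goal_of_unip hM hH hPl h12 hQs' ht' hQt' hzs' hzt' hQz (C := C) hE' ?_ hκ
      rw [hφe, hG0, zero_smul, zero_add]
    push Not at hκ
    obtain ⟨hκ, hB0⟩ := hκ
    have hR0 : R ≠ 0 := by
      intro h0
      rw [h0, zero_div, add_zero, mul_eq_zero] at hκ
      rw [h0, hκ.resolve_left h2] at hRP
      simp at hRP
    by_cases hC0 : C = 0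
    swap
    · obtain ⟨hQ, hZ0, hdet⟩ := hval (-(C / R)) 0 _ rfl
      refine hT.goal_of_det hM hH hPl ?_ (hinj' _ hZ0) ?_
      · rw [hQ]; simp [h2, hC0, hR0]
      · rw [hdet, hB0]; field_simp; ring
    -- the plane of the diagonal group: move to the image of a slice
    have h3 : R / f₂ z z = -(2 * P') := by linear_combination hκ
    have hR' : R = -(2 * P' * f₂ z z) := by rw [div_eq_iff hQz] at h3; linear_combination h3
    have hP3 : -(3 * P' * f₂ z z) = 1 := by rw [hR'] at hRP; linear_combination hRP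
    have h30 : (3 : F) ≠ 0 := fun h0 => by rw [h0] at hP3; simp at hP3
    have hP2 : P' = -(1 / (3 * f₂ z z)) := by field_simp; linear_combination -hP3
    have hR2 : R = 2 / 3 := by rw [hR', hP2]; field_simp
    obtain ⟨hEφ, k, hkM, hkx⟩ := hPl
    have hφz : φ' = pt e P (P' • u) z + pt e P (R • r) t' := by
      rw [hφe, hG0, hB0, hC0]; simp [pt_zero_left]
    set E₂ := ap k (pt e P u z) with hE₂
    set φ₂ := ap k ((f₂ z z)⁻¹ • pt e P r z) with hφ₂
    have hPl₂ : Pl f M E₂ φ₂ := hT.pl_map hM (hT.pl_slice hH hQz h12) hkM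
    have k1 : E₂ = (1 / 3 : F) • pt e P u z + (4 * f₂ z z / 3) • pt e P r t' := by
      rw [hE₂, hkx, hφz, hE', hP2, hR2]
      simp only [hT.symp.bilinear.add_right, hT.symp.bilinear.smul_right, hT.form, hzs', hzt',
        hT.symp₁.bilinear.smul_right, h12, hT.symp₁.alternating, pt_smul_left]
      match_scalars <;> field_simp <;> ring
    have k2 : φ₂ = (f₂ z z)⁻¹ • ((1 / 3 : F) • pt e P r z - (2 / 3 : F) • pt e P u s') := by
      rw [hφ₂, ap_smul, hkx, hφz, hE', hP2, hR2]
      simp only [hT.symp.bilinear.add_right, hT.symp.bilinear.smul_right, hT.form, hzs', hzt',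
        hT.symp₁.bilinear.smul_right, hru, hT.symp₁.alternating, pt_smul_left]
      congr 1
      match_scalars <;> field_simp <;> ring
    obtain ⟨hQ, hZ0, -⟩ := hval (-(1 / (8 * f₂ z z))) 1 _ rfl
    have h8 : (8 : F) ≠ 0 := by
      rw [show (8 : F) = 2 * 2 * 2 by norm_num]; exact mul_ne_zero (mul_ne_zero h2 h2) h2
    set Z := (-(1 / (8 * f₂ z z))) • s' + (1 / f₂ z z) • z + t' with hZ
    have hQZ : f₂ Z Z ≠ 0 := by
      rw [hQ, show 2 * -(1 / (8 * f₂ z z)) + 1 * 1 / f₂ z z = 3 * 2 / (8 * f₂ z z) by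
        field_simp; ring]
      exact div_ne_zero (mul_ne_zero h30 h2) (mul_ne_zero h8 hQz)
    have z1 : hT.cc Z E₂ = (1 / 3 : F) • (u - (1 / 2 : F) • r) := by
      rw [k1, hZ]
      simp only [map_add, map_smul, cc_pt, hT.symm₂.bilinear.add_right,
        hT.symm₂.bilinear.smul_right, hzs', hzt', htz', hQt', ht']
      match_scalars <;> field_simp <;> ring
    have z2 : hT.cc Z φ₂ = (f₂ z z)⁻¹ • ((1 / 3 : F) • r - (2 / 3 : F) • u) := by
      rw [k2, hZ]
      simp only [map_sub, map_smul, cc_pt, hT.symm₂.bilinear.add_right,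
        hT.symm₂.bilinear.smul_right, hQs', hzs', hzt', hsz', hst']
      match_scalars <;> field_simp <;> ring
    refine hT.goal_of_det hM hH hPl₂ hQZ (Or.inl fun h0 => ?_) ?_
    · rw [z1, smul_eq_zero, sub_eq_zero] at h0
      rcases h0 with h0 | h0
      · simp [h30] at h0
      · have := congrArg (fun x => f₁ x r) h0
        simp [h12, hT.symp₁.bilinear.smul_left, hT.symp₁.alternating] at this
    · rw [z1, z2]
      simp only [Symp.sub_left hT.symp₁, Symp.sub_right hT.symp₁, hT.symp₁.bilinear.smul_left,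
        hT.symp₁.bilinear.smul_right, h12, hru, hT.symp₁.alternating]
      field_simp
      ring
  · classical
    have := Fintype.ofFinite F
    let cub : Polynomial F := Polynomial.C (-(G / f₂ z z)) * Polynomial.X ^ 3 +
      Polynomial.C (2 * P' + R / f₂ z z) * Polynomial.X ^ 2 +
      Polynomial.C (-(2 * B)) * Polynomial.X + Polynomial.C (-(2 * C))
    let lin : Polynomial F := Polynomial.C (-G) * Polynomial.X + Polynomial.C R
    obtain ⟨b, hb⟩ : ∃ b, (cub * lin).eval b ≠ 0 := by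
      by_contra hc
      push Not at hc
      have d1 : cub.natDegree ≤ 3 := Polynomial.natDegree_cubic_le
      have d2 : lin.natDegree ≤ 1 := Polynomial.natDegree_linear_le
      refine mul_ne_zero (fun h0 => ?_) (fun h0 => ?_)
        (Polynomial.eq_zero_of_natDegree_lt_card_of_eval_eq_zero' (cub * lin) Finset.univ
          (fun a _ => hc a) ?_)
      · have := congrArg (fun p => Polynomial.coeff p 3) h0
        simp only [cub, Polynomial.coeff_add, Polynomial.coeff_C_mul, Polynomial.coeff_C,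
          Polynomial.coeff_X, Polynomial.coeff_X_pow, Polynomial.coeff_zero] at this
        norm_num [hG0, hQz] at this
      · have := congrArg (fun p => Polynomial.coeff p 1) h0
        simp only [lin, Polynomial.coeff_add, Polynomial.coeff_C_mul, Polynomial.coeff_C,
          Polynomial.coeff_X, Polynomial.coeff_zero] at this
        norm_num [hG0] at this
      · have h1 := Polynomial.natDegree_mul_le (p := cub) (q := lin)
        have h5 := hT.five
        rw [Nat.card_eq_fintype_card] at h5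
        rw [Finset.card_univ]
        omega
    simp only [cub, lin, Polynomial.eval_mul, Polynomial.eval_add, Polynomial.eval_C,
      Polynomial.eval_X, Polynomial.eval_pow, mul_ne_zero_iff] at hb
    obtain ⟨hb1, hb2⟩ := hb
    set L := -G * b + R with hL
    set a := -(C + b * B - b * b * P') / L with ha
    obtain ⟨hQ, hZ0, hdet⟩ := hval a b _ rfl
    refine hT.goal_of_det hM hH hPl (fun h0 => hb1 ?_) (hinj' _ hZ0) ?_
    · rw [hQ, ha] at h0
      field_simp at h0 ⊢
      rw [hL] at h0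
      linear_combination h0
    · rw [hdet, ha]
      field_simp
      rw [hL]
      ring

/-- The plane lies in `F^2 ⊗ ⟨a, b⟩`. -/
theorem goal_of_two {E φ : ι → F} (h : Pl f M E φ)
    (hns : ¬ ∃ y, E ∈ slice e P y ∧ φ ∈ slice e P y) {a b b' : Fin 3 → F} {r : GL (Fin 3) F}
    (hr : r ∈ isom f₂) (hra : ap r a = a) (hrb : ap r b = b') (hab : f₂ a b = 0)
    (hQa : f₂ a a ≠ 0) (hg : f₂ b b' ≠ 0)
    (hspan : ∀ Z, f₂ a Z = 0 → f₂ b Z = 0 → f₂ b' Z = 0 → Z = 0)
    {e₁ e₂ p₁ p₂ : Fin 2 → F} (hE : E = pt e P e₁ a + pt e P e₂ b)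
    (hφ : φ = pt e P p₁ a + pt e P p₂ b) : hT.Goal M := by
  have h2 := hT.two
  have hba : f₂ b a = 0 := by rw [hT.symm₂.symm, hab]
  have hab' : f₂ a b' = 0 := by
    rw [← hra, ← hrb, mem_isom_iff.mp hr, hab]
  have hb'a : f₂ b' a = 0 := by rw [hT.symm₂.symm, hab']
  have hccE : hT.cc a E = f₂ a a • e₁ := by simp [hE, hba]
  have hccφ : hT.cc a φ = f₂ a a • p₁ := by simp [hφ, hba]
  by_cases hd₀ : f₁ e₁ p₁ = 0
  · refine hT.goal_of_det hM hH h hQa ?_ ?_
    · rw [hccE, hccφ]
      by_contra hc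
      push Not at hc
      rw [smul_eq_zero_iff_right hQa, smul_eq_zero_iff_right hQa] at hc
      refine hns ⟨b, ⟨e₂, ?_⟩, ⟨p₂, ?_⟩⟩
      · rw [ptl_apply, hE, hc.1, pt_zero_left, zero_add]
      · rw [ptl_apply, hφ, hc.2, pt_zero_left, zero_add]
    · rw [hccE, hccφ, hT.symp₁.bilinear.smul_left, hT.symp₁.bilinear.smul_right, hd₀]; ring
  set d₀ := f₁ e₁ p₁ with hd₀def
  set v₀ := d₀⁻¹ • p₁ with hv₀
  set β₂ := d₀⁻¹ • p₂ with hβ₂
  have huv₀ : f₁ e₁ v₀ = 1 := by
    rw [hv₀, hT.symp₁.bilinear.smul_right, ← hd₀def, inv_mul_cancel₀ hd₀]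
  -- a cyclic vector
  obtain ⟨x, y, hd⟩ : ∃ x y : F, f₁ (x • e₁ + y • v₀) (x • e₂ + y • β₂) ≠ 0 := by
    by_contra hc
    push Not at hc
    have k1 : f₁ e₁ e₂ = 0 := by simpa using hc 1 0
    have k2 : f₁ v₀ β₂ = 0 := by simpa using hc 0 1
    have k3 := hc 1 1
    simp only [one_smul, hT.symp₁.bilinear.add_left, hT.symp₁.bilinear.add_right, k1, k2] at k3
    have d1 := hT.dec₁ huv₀ e₂
    have d2 := hT.dec₁ huv₀ β₂
    rw [hT.symp₁.skew e₂ e₁, k1, neg_zero, zero_smul, sub_zero] at d1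
    rw [hT.symp₁.skew β₂ v₀, k2, neg_zero, zero_smul, zero_sub] at d2
    refine hns ⟨a + f₁ e₂ v₀ • b, ⟨e₁, ?_⟩, ⟨p₁, ?_⟩⟩
    · rw [ptl_apply, hE, pt_add_right, pt_smul_right, ← pt_smul_left, ← d1]
    · have hk : p₂ = f₁ e₂ v₀ • p₁ := by
        have e1 : f₁ β₂ e₁ = -f₁ e₂ v₀ := by
          rw [hT.symp₁.skew β₂ e₁]
          rw [hT.symp₁.skew v₀ e₂] at k3
          linear_combination -k3
        have e2 : p₂ = d₀ • β₂ := by rw [hβ₂, smul_smul, mul_inv_cancel₀ hd₀, one_smul]
        rw [e2, d2, e1, hv₀, neg_smul, neg_neg, smul_smul, smul_smul]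
        match_scalars
        field_simp
      rw [ptl_apply, hφ, pt_add_right, pt_smul_right, ← pt_smul_left, ← hk]
  set u := x • e₁ + y • v₀ with hu
  set β := x • e₂ + y • β₂ with hβ
  set d := f₁ u β with hddef
  set v := d⁻¹ • β with hv
  have huv : f₁ u v = 1 := by rw [hv, hT.symp₁.bilinear.smul_right, ← hddef, inv_mul_cancel₀ hd]
  have hvu : f₁ v u = -1 := by rw [hT.symp₁.skew, huv]
  have hdv : d • v = β := by rw [hv, smul_smul, mul_inv_cancel₀ hd, one_smul]
  clear_value v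
  set x' := f₁ v v₀ with hx'
  set y' := -f₁ v e₁ with hy'
  have hv' : v = x' • e₁ + y' • v₀ := by
    conv_lhs => rw [hT.dec₁ huv₀ v]
    rw [hx', hy']; module
  have hdetxy : x * y' - y * x' = 1 := by
    have h1 := huv
    rw [hu, hv'] at h1
    simp only [hT.symp₁.bilinear.add_left, hT.symp₁.bilinear.add_right,
      hT.symp₁.bilinear.smul_left, hT.symp₁.bilinear.smul_right, hT.symp₁.alternating, huv₀,
      hT.symp₁.skew v₀ e₁] at h1
    linear_combination h1
  clear_value x' y'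
  set β' := x' • e₂ + y' • β₂ with hβ'
  set p := f₁ β' v with hp
  set τ := -f₁ β' u with hτ
  set α := f₂ a a with hα
  set βb := f₂ b b with hβb
  set g := f₂ b b' with hgdef
  set E₁ := pt e P u a + pt e P (d • v) b with hE₁
  set φ₁ := pt e P v a + pt e P (p • u + τ • v) b with hφ₁
  have hPl : Pl f M E₁ (d₀ • φ₁) := by
    have h3 := hT.pl_change h (a := x) (b := y / d₀) (c := x' * d₀) (d := y')
      (by field_simp; linear_combination hdetxy)
    convert h3 using 1
    · rw [hE, hφ, hE₁, hdv, hu, hβ, hv₀, hβ₂]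
      simp only [pt_add_left, pt_smul_left, smul_smul]
      match_scalars <;> field_simp
    · have e1 : p • u + τ • v = β' := by
        conv_rhs => rw [hT.dec₁ huv β']
        rw [hp, hτ]; module
      rw [hE, hφ, hφ₁, e1, hv', hβ', hv₀, hβ₂]
      simp only [pt_add_left, pt_smul_left, smul_smul]
      match_scalars <;> field_simp
  set μ := α - d * p * βb with hμ
  have hμd : d₀ * μ = 1 := by
    have h1 := hPl.1
    rw [hE₁, hφ₁] at h1
    simp only [hT.symp.bilinear.add_left, hT.symp.bilinear.add_right, hT.symp.bilinear.smul_right,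
      hT.form, hT.symp₁.bilinear.add_right, hT.symp₁.bilinear.smul_left,
      hT.symp₁.bilinear.smul_right, huv, hvu, hT.symp₁.alternating, hab, hba, ← hα, ← hβb] at h1
    rw [hμ]
    linear_combination h1
  by_cases hp0 : p = 0
  · -- a pure tensor in the plane
    set y₁ := a + τ • b with hy₁
    have hφy : φ₁ = pt e P v y₁ := by
      rw [hφ₁, hp0, zero_smul, zero_add, hy₁, pt_add_right, pt_smul_left, pt_smul_right]
    obtain ⟨Z, hZy, hQZ, hZne⟩ : ∃ Z, f₂ y₁ Z = 0 ∧ f₂ Z Z ≠ 0 ∧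
        (hT.cc Z E₁ ≠ 0 ∨ hT.cc Z (d₀ • φ₁) ≠ 0) := by
      by_contra hc
      push Not at hc
      have hdim : 3 < 2 * Module.finrank F (LinearMap.ker (hT.fr y₁)) := by
        have h1 := LinearMap.finrank_range_add_finrank_ker (hT.fr y₁)
        have h2 := Submodule.finrank_le (LinearMap.range (hT.fr y₁))
        rw [Module.finrank_fin_fun] at h1
        rw [Module.finrank_self] at h2
        omega
      obtain ⟨Z₁, hZ₁, hQ₁⟩ := hT.exists_aniso hdim
      have hN : ∀ Z, f₂ Z y₁ = 0 → hT.cc Z E₁ = 0 := by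
        intro Z hZ
        by_cases hQZ : f₂ Z Z = 0
        swap
        · exact (hc Z (by rw [hT.symm₂.symm, hZ]) hQZ).1
        have hsum : ∀ r : F, f₂ (Z + r • Z₁) y₁ = 0 := fun r => by
          rw [hT.symm₂.bilinear.add_left, hT.symm₂.bilinear.smul_left, hZ,
            show f₂ Z₁ y₁ = 0 from hZ₁]
          ring
        obtain ⟨r, hr0⟩ : ∃ r : F, f₂ (Z + r • Z₁) (Z + r • Z₁) ≠ 0 := by
          by_contra hc'
          push Not at hc'
          have i1 := hc' 1
          have i2 := hc' (-1)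
          rw [hT.q_add_smul, hQZ] at i1 i2
          refine hQ₁ (mul_left_cancel₀ h2 ?_)
          linear_combination i1 + i2
        have i1 := (hc _ (by rw [hT.symm₂.symm, hsum r]) hr0).1
        rw [hT.cc_add, hT.cc_smul, LinearMap.add_apply, LinearMap.smul_apply,
          (hc Z₁ (by rw [hT.symm₂.symm]; exact hZ₁) hQ₁).1, smul_zero, add_zero] at i1
        exact i1
      have hy0 : y₁ ≠ 0 := fun h0 => hQa (by
        have := congrArg (fun z => f₂ z a) h0
        simpa [hy₁, hT.symm₂.bilinear.add_left, hT.symm₂.bilinear.smul_left, hba,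
          hT.zero_left₂] using this)
      have hEs : E₁ ∈ slice e P y₁ := by
        obtain ⟨ω, -, hω⟩ := exists_functional_eq_one (U := ⊥) (x := y₁) (by simpa using hy0)
        refine ⟨con e P ω E₁, (mem_slice_of_con e P hω fun ψ hψ => ?_).symm⟩
        obtain ⟨Z, rfl⟩ := hT.exists_eq_fr ψ
        exact hN Z (by rw [hT.symm₂.symm]; exact hψ)
      refine hns ⟨y₁, ?_, ?_⟩
      · have hEeq : E = y' • E₁ - y • φ₁ ∧ True := by
          refine ⟨?_, trivial⟩
          have e1 : p • u + τ • v = β' := by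
            conv_rhs => rw [hT.dec₁ huv β']
            rw [hp, hτ]; module
          rw [hE, hE₁, hφ₁, e1, hdv, hv', hu, hβ, hβ']
          simp only [pt_add_left, pt_smul_left]
          match_scalars <;> first | linear_combination hdetxy | linear_combination -hdetxy | ring
        rw [hEeq.1]
        exact Submodule.sub_mem _ (Submodule.smul_mem _ _ hEs)
          (Submodule.smul_mem _ _ (hφy ▸ pt_mem_slice e P v y₁))
      · have hφeq : φ = d₀ • (x • φ₁ - x' • E₁) := by
          have e1 : p • u + τ • v = β' := by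
            conv_rhs => rw [hT.dec₁ huv β']
            rw [hp, hτ]; module
          rw [hφ, hE₁, hφ₁, e1, hdv, hv', hu, hβ, hβ',
            hv₀, hβ₂]
          simp only [pt_add_left, pt_smul_left, smul_smul]
          match_scalars <;> field_simp <;> first | linear_combination hdetxy | linear_combination -hdetxy | ring
        rw [hφeq]
        exact Submodule.smul_mem _ _ (Submodule.sub_mem _
          (Submodule.smul_mem _ _ (hφy ▸ pt_mem_slice e P v y₁)) (Submodule.smul_mem _ _ hEs))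
    refine hT.goal_of_det hM hH hPl hQZ hZne ?_
    rw [map_smul, hφy, cc_pt, hZy, zero_smul, smul_zero, Symp.zero_right hT.symp₁]
  -- a parameter
  set ε := -α - βb * d * p + 2 * g * d * p with hε
  obtain ⟨s, hs0, hs⟩ : ∃ s : F, s ≠ 0 ∧ 2 * ε + 2 * g * p * s * (τ - p * s) ≠ 0 := by
    by_contra hc
    push Not at hc
    obtain ⟨l, hl0, hl1⟩ := hT.exists_sq_ne_one
    have i1 := hc 1 one_ne_zero
    have i2 := hc (-1) (by simp)
    have i3 := hc l hl0
    have i4 := hc (-l) (by simpa using hl0)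
    have : 4 * g * (p * p) * (l * l - 1) = 0 := by linear_combination i1 + i2 - i3 - i4
    simp only [mul_eq_zero, hp0, sub_eq_zero, hl1] at this
    have h4 : (4 : F) ≠ 0 := by
      rw [show (4 : F) = 2 * 2 by norm_num]; exact mul_ne_zero h2 h2
    simp [h4, hg] at this
  set k₀ := kron e P (Symp.T hT.symp₁ v s) r with hk₀
  have hk₀M : k₀ ∈ M := hH _ (Symp.T_mem_isom hT.symp₁ v s) _ hr
  have cu : ap (Symp.T hT.symp₁ v s) u = u + s • v := by rw [Symp.ap_T, huv, mul_one]
  have cv : ap (Symp.T hT.symp₁ v s) v = v := by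
    rw [Symp.ap_T, hT.symp₁.alternating, mul_zero, zero_smul, add_zero]
  set E' := pt e P (u + s • v) a + pt e P (d • v) b' with hE'
  set φ' := pt e P v a + pt e P (p • u + (p * s + τ) • v) b' with hφ'
  have hgE : ap k₀ E₁ = E' := by
    rw [hE₁, ap_add, hk₀, ap_kron, ap_kron, hra, hrb, cu, ap_smul, cv]
  have hgφ : ap k₀ (d₀ • φ₁) = d₀ • φ' := by
    rw [ap_smul, hφ₁, ap_add, hk₀, ap_kron, ap_kron, hra, hrb, cv, ap_add, ap_smul, ap_smul, cu,
      cv, hφ', show p • (u + s • v) + τ • v = p • u + (p * s + τ) • v by module]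
  have hPl' := hT.pl_map hM hPl hk₀M
  rw [hgE, hgφ] at hPl'
  obtain ⟨-, k, hkM, hkx⟩ := hPl'
  have hPl₄ := hT.pl_map hM hPl hkM
  refine hT.goal_of_inj hM hH hPl₄ fun Z hZ => ?_
  by_contra hc
  push Not at hc
  obtain ⟨z1, z2⟩ := hc
  have fE : ∀ w : Fin 2 → F, ∀ Y : Fin 3 → F, f (pt e P w Y) E' =
      f₁ w (u + s • v) * f₂ Y a + f₁ w (d • v) * f₂ Y b' := fun w Y => by
    rw [hE', hT.symp.bilinear.add_right, hT.form, hT.form]
  have fφ : ∀ w : Fin 2 → F, ∀ Y : Fin 3 → F, f (pt e P w Y) φ' =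
      f₁ w v * f₂ Y a + f₁ w (p • u + (p * s + τ) • v) * f₂ Y b' := fun w Y => by
    rw [hφ', hT.symp.bilinear.add_right, hT.form, hT.form]
  have hμ0 : μ ≠ 0 := fun h0 => by rw [h0, mul_zero] at hμd; exact zero_ne_one hμd
  have hd₀' : d₀ = μ⁻¹ := eq_inv_of_mul_eq_one_left hμd
  rw [hkx, hE₁, hT.symp.bilinear.smul_right, hT.symp.bilinear.add_left, hT.symp.bilinear.add_left,
    fE, fE, fφ, fφ, hE', hφ'] at z1
  rw [ap_smul, hkx, hφ₁, hT.symp.bilinear.smul_right, hT.symp.bilinear.add_left,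
    hT.symp.bilinear.add_left, fE, fE, fφ, fφ, hE', hφ'] at z2
  simp only [hT.symp₁.bilinear.add_right, hT.symp₁.bilinear.add_left,
    hT.symp₁.bilinear.smul_left, hT.symp₁.bilinear.smul_right, huv, hvu, hT.symp₁.alternating,
    map_add, map_sub, map_smul, cc_pt, hba, hab', ← hα, ← hgdef, hd₀'] at z1 z2
  have c1 := congrArg (fun w => f₁ w v) z1
  have c2 := congrArg (fun w => -f₁ w u) z1
  have c3 := congrArg (fun w => f₁ w v) z2
  have c4 := congrArg (fun w => -f₁ w u) z2
  simp only [hT.symp₁.bilinear.add_left, hT.symp₁.bilinear.smul_left, Symp.sub_left hT.symp₁,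
    huv, hvu, hT.symp₁.alternating, Symp.zero_left hT.symp₁] at c1 c2 c3 c4
  set X := f₂ a Z with hX
  set Y := f₂ b Z with hY
  set L := f₂ b' Z with hLdef
  field_simp at c1 c2 c3 c4
  have q1 : ε * X + 2 * s * α * p * L = 0 := by rw [hε]; linear_combination c1
  have q5 : 2 * g * (d * p) * X + α * (p * s + τ) * L = 0 := by
    refine (mul_eq_zero.mp (show (2 * s * p) * (2 * g * (d * p) * X + α * (p * s + τ) * L) = 0 by
      rw [hμ] at c2 c3
      linear_combination p * c2 - d * c3)).resolve_left (mul_ne_zero (mul_ne_zero h2 hs0) hp0)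
  have q4 : (ε + 2 * g * p * s * (τ - p * s)) * X - 2 * α * p * s * L = 0 := by
    refine (mul_eq_zero.mp (show (p * p) * ((ε + 2 * g * p * s * (τ - p * s)) * X -
        2 * α * p * s * L) = 0 by
      rw [hε, hμ] at *
      linear_combination p * p * c4 - p * τ * c3)).resolve_left (mul_ne_zero hp0 hp0)
  have hX0 : X = 0 := (mul_eq_zero.mp (show (2 * ε + 2 * g * p * s * (τ - p * s)) * X = 0 by
    linear_combination q1 + q4)).resolve_left hs
  have hL0 : L = 0 := by
    rw [hX0, mul_zero, zero_add] at q1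
    exact (mul_eq_zero.mp q1).resolve_left
      (mul_ne_zero (mul_ne_zero (mul_ne_zero h2 hs0) hQa) hp0)
  have hY0 : Y = 0 := by
    rw [hX0, hL0] at c2
    exact (mul_eq_zero.mp (show (μ * d) * Y = 0 by linear_combination c2)).resolve_left
      (mul_ne_zero hμ0 hd)
  exact hZ (hspan Z hX0 hY0 hL0)

end CfsgLib.Geometric.SOThree.Data
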