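import Cfsg.Agent.Lib.Geometric.SOTensor.ThreeBasic

/-!
Transvections from elements of the radical of the stabiliser of a Lagrangian `c ⊗ F^3`.
-/

set_option autoImplicit false
set_option linter.unusedSectionVars false

namespace CfsgLib.Geometric.SOThree.Data

open Matrix Tensor

variable {ι : Type} [Fintype ι] [DecidableEq ι] {F : Type*} [Field F] [Finite F]
variable {f : (ι → F) → (ι → F) → F} {e : ι ≃ Fin 2 × Fin 3} {P : GL ι F}
  {f₁ : (Fin 2 → F) → (Fin 2 → F) → F} {f₂ : (Fin 3 → F) → (Fin 3 → F) → F}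
variable (hT : Data f e P f₁ f₂)
include hT

omit hT in
/-- Contraction of the first factor with `f₁(·, c)`. -/
def row (hT : Data f e P f₁ f₂) (c : Fin 2 → F) : (ι → F) →ₗ[F] (Fin 3 → F) :=
  conr e P (Symp.fl hT.symp₁ c)

@[simp] lemma row_pt (c u : Fin 2 → F) (y : Fin 3 → F) :
    hT.row c (pt e P u y) = f₁ u c • y := by simp [row]

lemma f_row (x : ι → F) (c : Fin 2 → F) (y : Fin 3 → F) :
    f x (pt e P c y) = f₂ (hT.row c x) y := by
  rw [hT.f_pt, ← fr_apply hT y, row, apply_conr]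
  simp [cc]

lemma row_self (c : Fin 2 → F) (y : Fin 3 → F) : hT.row c (pt e P c y) = 0 := by
  rw [row_pt, hT.symp₁.alternating, zero_smul]

omit hT in
/-- An element moving along `c ⊗ F^3` by `S`. -/
def InK (hT : Data f e P f₁ f₂) (M : Subgroup (GL ι F)) (c : Fin 2 → F)
    (S : (Fin 3 → F) →ₗ[F] (Fin 3 → F)) : Prop :=
  ∃ m ∈ M, ∀ x, ap m x = x + pt e P c (S (hT.row c x))

omit hT in
/-- The symmetric map of two vectors. -/
def sym (hT : Data f e P f₁ f₂) (w v : Fin 3 → F) : (Fin 3 → F) →ₗ[F] (Fin 3 → F) :=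
  (hT.fr v).smulRight w + (hT.fr w).smulRight v

lemma sym_apply (w v r : Fin 3 → F) : hT.sym w v r = f₂ r v • w + f₂ r w • v := by simp [sym]

omit hT in
/-- A transvection at a pure tensor with singular second factor. -/
def Goal (hT : Data f e P f₁ f₂) (M : Subgroup (GL ι F)) : Prop :=
  ∃ (u : Fin 2 → F) (s : Fin 3 → F) (κ : F), u ≠ 0 ∧ s ≠ 0 ∧ f₂ s s = 0 ∧ κ ≠ 0 ∧
    Symp.T hT.symp (pt e P u s) κ ∈ M

variable {M : Subgroup (GL ι F)} (hM : M ≤ isom f)
  (hH : ∀ a ∈ isom f₁, ∀ b ∈ isom f₂, kron e P a b ∈ M)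

lemma inK_add {c : Fin 2 → F} {S S' : (Fin 3 → F) →ₗ[F] (Fin 3 → F)} (h : hT.InK M c S)
    (h' : hT.InK M c S') : hT.InK M c (S + S') := by
  obtain ⟨m, hm, hmx⟩ := h
  obtain ⟨m', hm', hmx'⟩ := h'
  refine ⟨m * m', M.mul_mem hm hm', fun x => ?_⟩
  rw [ap_mul, hmx', hmx, map_add, hT.row_self, add_zero, LinearMap.add_apply, pt_add_right]
  abel

lemma inK_zero (c : Fin 2 → F) : hT.InK M c 0 :=
  ⟨1, M.one_mem, fun x => by rw [ap_one, LinearMap.zero_apply, pt_zero_right, add_zero]⟩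

include hH in
lemma inK_conj {c : Fin 2 → F} {S : (Fin 3 → F) →ₗ[F] (Fin 3 → F)} (h : hT.InK M c S)
    {a : GL (Fin 2) F} {b : GL (Fin 3) F} (ha : a ∈ isom f₁) (hb : b ∈ isom f₂) {l : F}
    (hl : ap a c = l • c) :
    hT.InK M c ((l * l) • ((apEquiv b).toLinearMap.comp (S.comp (apEquiv b⁻¹).toLinearMap))) := by
  obtain ⟨m, hm, hmx⟩ := h
  refine ⟨kron e P a b * m * (kron e P a b)⁻¹,
    M.mul_mem (M.mul_mem (hH a ha b hb) hm) (M.inv_mem (hH a ha b hb)), fun x => ?_⟩
  have hrow : ((hT.row c).comp (apEquiv (kron e P a b)⁻¹).toLinearMap) =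
      l • (apEquiv b⁻¹).toLinearMap.comp (hT.row c) :=
    ext_pt e P fun u y => by
      have h1 : f₁ (ap a⁻¹ u) c = l * f₁ u c := by
        rw [← mem_isom_iff.mp ha (ap a⁻¹ u) c, ap_ap_inv, hl, hT.symp₁.bilinear.smul_right]
      simp [kron_inv, h1, smul_smul]
  have hrow' : hT.row c (ap (kron e P a b)⁻¹ x) = l • ap b⁻¹ (hT.row c x) :=
    LinearMap.congr_fun hrow x
  rw [ap_mul, ap_mul, hmx, ap_add, ap_ap_inv, ap_kron, hrow', map_smul, ap_smul, hl,
    pt_smul_right, pt_smul_left, smul_smul]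
  simp only [LinearMap.smul_apply, LinearMap.comp_apply, LinearEquiv.coe_coe, apEquiv_apply,
    pt_smul_right]

include hH in
lemma inK_smul {c : Fin 2 → F} (hc : c ≠ 0) {S : (Fin 3 → F) →ₗ[F] (Fin 3 → F)}
    (h : hT.InK M c S) (t : F) : hT.InK M c (t • S) := by
  have hsq : ∀ a : F, hT.InK M c ((a * a) • S) := by
    intro l
    by_cases hl : l = 0
    · rw [hl, mul_zero, zero_smul]; exact hT.inK_zero c
    obtain ⟨a, ha, hac⟩ := Symp.exists_isom_map hT.symp₁ hc (smul_ne_zero hl hc)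
    have h1 := hT.inK_conj hH h ha (one_mem (isom f₂)) hac
    convert h1 using 1
    exact congrArg ((l * l) • ·) (LinearMap.ext fun x => by simp [ap_one])
  obtain ⟨a, b, hab⟩ := Orth.exists_combination (F := F) one_ne_zero one_ne_zero hT.two t
  have h1 := hT.inK_add (hsq a) (hsq b)
  rw [← add_smul] at h1
  convert h1 using 2
  rw [← hab]; ring

include hH in
lemma inK_sum {c : Fin 2 → F} {α : Type*} (s : Finset α)
    (g : α → (Fin 3 → F) →ₗ[F] (Fin 3 → F)) (h : ∀ i ∈ s, hT.InK M c (g i)) :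
    hT.InK M c (∑ i ∈ s, g i) := by
  classical
  induction s using Finset.induction with
  | empty => rw [Finset.sum_empty]; exact hT.inK_zero c
  | insert i s his ih =>
    rw [Finset.sum_insert his]
    exact hT.inK_add (h i (Finset.mem_insert_self _ _))
      (ih fun j hj => h j (Finset.mem_insert_of_mem hj))

lemma exists_singular_avoid {v w : Fin 3 → F} (hv : v ≠ 0) (hw : w ≠ 0) :
    ∃ s, s ≠ 0 ∧ f₂ s s = 0 ∧ f₂ v s ≠ 0 ∧ f₂ w s ≠ 0 := by
  classical
  have := Fintype.ofFinite F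
  obtain ⟨s₀, -, hs₀, hQs⟩ := hT.exists_singular (N := ⊤)
    (by rw [finrank_top, Module.finrank_fin_fun])
  obtain ⟨t, z, ht, hQt, hzs, hzt, hQz⟩ := hT.exists_frame hs₀ hQs
  have hst : f₂ s₀ t = 1 := by rw [hT.symm₂.symm, ht]
  let pol : (Fin 3 → F) → Polynomial F := fun v => Polynomial.C (f₂ v t) +
    Polynomial.C (f₂ v z) * Polynomial.X +
    Polynomial.C (-(f₂ z z / 2) * f₂ v s₀) * Polynomial.X ^ 2
  have hpol : ∀ v, v ≠ 0 → pol v ≠ 0 := by
    intro v hv h0
    have c0 := congrArg (fun p => Polynomial.coeff p 0) h0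
    have c1 := congrArg (fun p => Polynomial.coeff p 1) h0
    have c2 := congrArg (fun p => Polynomial.coeff p 2) h0
    simp only [pol, Polynomial.coeff_add, Polynomial.coeff_C_mul, Polynomial.coeff_C,
      Polynomial.coeff_X, Polynomial.coeff_X_pow, Polynomial.coeff_zero] at c0 c1 c2
    norm_num [hQz, hT.two] at c0 c1 c2
    exact hv (by rw [hT.frame_dec hQs ht hQt hzs hzt hQz v, c0, c1, c2]; simp)
  have hdeg : ∀ v, (pol v).natDegree ≤ 2 := fun v => by
    rw [show pol v = Polynomial.C (-(f₂ z z / 2) * f₂ v s₀) * Polynomial.X ^ 2 +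
      Polynomial.C (f₂ v z) * Polynomial.X + Polynomial.C (f₂ v t) by simp only [pol]; ring]
    exact Polynomial.natDegree_quadratic_le
  obtain ⟨a, ha⟩ : ∃ a, (pol v * pol w).eval a ≠ 0 := by
    by_contra hc
    push Not at hc
    refine mul_ne_zero (hpol v hv) (hpol w hw)
      (Polynomial.eq_zero_of_natDegree_lt_card_of_eval_eq_zero' _ Finset.univ (fun a _ => hc a) ?_)
    have h1 := Polynomial.natDegree_mul_le (p := pol v) (q := pol w)
    have h2 := hdeg v
    have h3 := hdeg w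
    have h5 := hT.five
    rw [Nat.card_eq_fintype_card] at h5
    rw [Finset.card_univ]
    omega
  set s := t + a • z + (-(f₂ z z / 2) * a ^ 2) • s₀ with hs
  have hval : ∀ v, (pol v).eval a = f₂ v s := fun v => by
    simp only [pol, hs, Polynomial.eval_add, Polynomial.eval_mul, Polynomial.eval_C,
      Polynomial.eval_X, Polynomial.eval_pow, hT.symm₂.bilinear.add_right,
      hT.symm₂.bilinear.smul_right]
    ring
  rw [Polynomial.eval_mul, hval, hval, mul_ne_zero_iff] at ha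
  refine ⟨s, fun h => ha.1 (by rw [h, hT.zero_right₂]), ?_, ha.1, ha.2⟩
  simp only [hs, hT.symm₂.bilinear.add_left, hT.symm₂.bilinear.smul_left,
    hT.symm₂.bilinear.add_right, hT.symm₂.bilinear.smul_right, hQt, hzt, ht, hzs, hQs, hst,
    hT.symm₂.symm t z, hT.symm₂.symm s₀ z]
  have := hT.two
  field_simp
  ring

include hH in
/-- A symmetric map of two non-zero vectors gives a transvection. -/
theorem goal_of_sym {c : Fin 2 → F} (hc : c ≠ 0) {w v : Fin 3 → F} (hw : w ≠ 0) (hv : v ≠ 0)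
    (h : hT.InK M c (hT.sym w v)) : hT.Goal M := by
  classical
  have := Fintype.ofFinite F
  obtain ⟨s, hs, hQs, hvs, hws⟩ := hT.exists_singular_avoid hv hw
  obtain ⟨t, z, ht, hQt, hzs, hzt, hQz⟩ := hT.exists_frame hs hQs
  have hsz : f₂ s z = 0 := by rw [hT.symm₂.symm, hzs]
  let N : (Fin 3 → F) →ₗ[F] (Fin 3 → F) := (hT.fr s).smulRight z - (hT.fr z).smulRight s
  let N₂ : (Fin 3 → F) →ₗ[F] (Fin 3 → F) := (-(f₂ z z) / 2) • (hT.fr s).smulRight s
  have hN : ∀ y, N y = f₂ y s • z - f₂ y z • s := fun y => rfl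
  have hN₂ : ∀ y, N₂ y = (-(f₂ z z) / 2) • f₂ y s • s := fun y => rfl
  let B : F → (Fin 3 → F) →ₗ[F] (Fin 3 → F) := fun x => LinearMap.id + x • N + (x * x) • N₂
  have hB : ∀ x y, B x y = y + x • N y + (x * x) • N₂ y := fun x y => rfl
  have h2 := hT.two
  have hinv : ∀ x y, B x (B (-x) y) = y := by
    intro x y
    simp only [hB, hN, hN₂, hT.symm₂.bilinear.add_left, hT.symm₂.bilinear.smul_left, map_add,
      map_smul, map_sub, sub_eq_add_neg, ← neg_smul, hzs, hsz, hQs]
    match_scalars <;> field_simp <;> ring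
  have hiso : ∀ x y y', f₂ (B x y) (B x y') = f₂ y y' := by
    intro x y y'
    simp only [hB, hN, hN₂, hT.symm₂.bilinear.add_left, hT.symm₂.bilinear.smul_left,
      hT.symm₂.bilinear.add_right, hT.symm₂.bilinear.smul_right, sub_eq_add_neg, ← neg_smul,
      hzs, hsz, hQs, hT.symm₂.symm z y', hT.symm₂.symm s y']
    field_simp
    ring
  have hmem : ∀ x, hT.InK M c ((B x).comp ((hT.sym w v).comp (B (-x)))) := by
    intro x
    let E : (Fin 3 → F) ≃ₗ[F] (Fin 3 → F) := LinearEquiv.ofLinearMap (B x) (B (-x))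
      (LinearMap.ext (hinv x)) (LinearMap.ext fun y => by simpa using hinv (-x) y)
    set b : GL (Fin 3) F := ofEquiv E with hbdef
    have hb : ∀ y, ap b y = B x y := fun y => by rw [hbdef, ap_ofEquiv]; rfl
    have hb' : ∀ y, ap b⁻¹ y = B (-x) y := fun y => ap_injective b (by
      rw [ap_ap_inv, hb, hinv])
    have hbI : b ∈ isom f₂ := fun y y' => by
      change f₂ (ap b y) (ap b y') = f₂ y y'
      rw [hb, hb, hiso]
    have h1 := hT.inK_conj hH h (one_mem (isom f₁)) hbI (l := 1) (by rw [ap_one, one_smul])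
    convert h1 using 1
    refine LinearMap.ext fun y => ?_
    simp [hb, hb']
  set S := hT.sym w v with hS
  set q := Fintype.card F with hq
  have hq5 : 5 ≤ q := by have := hT.five; rwa [Nat.card_eq_fintype_card] at this
  have hA : hT.InK M c (∑ x : F, x ^ (q - 5) • (B x).comp (S.comp (B (-x)))) :=
    hT.inK_sum hH _ _ fun x _ => hT.inK_smul hH hc (hmem x) _
  have hsum : ∑ x : F, x ^ (q - 5) • (B x).comp (S.comp (B (-x))) = -(N₂.comp (S.comp N₂)) := by
    have hx : ∀ x : F, x ^ (q - 5) • (B x).comp (S.comp (B (-x))) =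
        x ^ (q - 5) • S + x ^ (q - 5 + 1) • (N.comp S - S.comp N) +
          x ^ (q - 5 + 2) • (N₂.comp S + S.comp N₂ - N.comp (S.comp N)) +
          x ^ (q - 5 + 3) • (N.comp (S.comp N₂) - N₂.comp (S.comp N)) +
          x ^ (q - 5 + 4) • N₂.comp (S.comp N₂) := fun x => LinearMap.ext fun y => by
      simp only [LinearMap.smul_apply, LinearMap.comp_apply, hB, LinearMap.add_apply,
        LinearMap.sub_apply, map_add, map_smul, pow_add]
      module
    have h0 : ∀ k, k < 4 → ∑ x : F, x ^ (q - 5 + k) = 0 := fun k hk =>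
      FiniteField.sum_pow_lt_card_sub_one F _ (by omega)
    have h4 : ∑ x : F, x ^ (q - 5 + 4) = -1 := by
      rw [← Finset.sum_erase_add _ _ (Finset.mem_univ (0 : F)), zero_pow (by omega), add_zero,
        Finset.sum_congr rfl (fun x hx => by
          rw [show q - 5 + 4 = q - 1 by omega,
            FiniteField.pow_card_sub_one_eq_one x (Finset.ne_of_mem_erase hx)]),
        Finset.sum_const, Finset.card_erase_of_mem (Finset.mem_univ _), Finset.card_univ,
        nsmul_one, Nat.cast_sub (by omega), FiniteField.cast_card_eq_zero]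
      simp
    have h00 := h0 0 (by omega)
    rw [add_zero] at h00
    simp only [hx, Finset.sum_add_distrib, ← Finset.sum_smul, h00, h0 1 (by omega),
      h0 2 (by omega), h0 3 (by omega), h4, zero_smul, zero_add, neg_one_smul]
  set κ := f₂ z z * f₂ z z / 4 * (2 * f₂ v s * f₂ w s) with hκ
  have hκ0 : κ ≠ 0 := by
    have h4 : (4 : F) ≠ 0 := by
      rw [show (4 : F) = 2 * 2 by norm_num]; exact mul_ne_zero h2 h2
    exact mul_ne_zero (div_ne_zero (mul_ne_zero hQz hQz) h4)
      (mul_ne_zero (mul_ne_zero h2 hvs) hws)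
  obtain ⟨m, hm, hmx⟩ := hT.inK_smul hH hc (hsum ▸ hA) (-1)
  refine ⟨c, s, κ, hc, hs, hQs, hκ0, ?_⟩
  convert hm using 1
  refine gl_ext fun x => ?_
  rw [Symp.ap_T, hT.f_row, hmx]
  congr 1
  simp only [LinearMap.smul_apply, LinearMap.neg_apply, neg_one_smul, neg_neg, LinearMap.comp_apply, hN₂, hS, hT.sym_apply, pt_smul_right,
    hT.symm₂.bilinear.smul_left, hT.symm₂.bilinear.add_left, smul_smul]
  congr 1
  rw [hκ, hT.symm₂.symm s v, hT.symm₂.symm s w]
  have h4 : (4 : F) ≠ 0 := by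
    rw [show (4 : F) = 2 * 2 by norm_num]; exact mul_ne_zero h2 h2
  field_simp
  ring

include hH in
/-- A transvection at a pure tensor gives one with singular second factor. -/
theorem goal_of_pureT {c : Fin 2 → F} (hc : c ≠ 0) {y : Fin 3 → F} (hy : y ≠ 0) {κ : F}
    (hκ : κ ≠ 0) (h : Symp.T hT.symp (pt e P c y) κ ∈ M) : hT.Goal M := by
  refine hT.goal_of_sym hH hc (w := y) (v := (κ / 2) • y) hy
    (smul_ne_zero (div_ne_zero hκ hT.two) hy) ⟨_, h, fun x => ?_⟩
  rw [Symp.ap_T, hT.f_row, ← pt_smul_right, hT.sym_apply, hT.symm₂.bilinear.smul_right, smul_smul,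
    ← add_smul]
  congr 3
  have := hT.two
  field_simp
  ring

lemma row_dec {u₁ u₂ : Fin 2 → F} (hdec : ∀ c, c = f₁ c u₂ • u₁ - f₁ c u₁ • u₂) (x : ι → F) :
    x = pt e P u₁ (hT.row u₂ x) - pt e P u₂ (hT.row u₁ x) := by
  have h : (LinearMap.id : (ι → F) →ₗ[F] (ι → F)) =
      (ptr e P u₁).comp (hT.row u₂) - (ptr e P u₂).comp (hT.row u₁) :=
    ext_pt e P fun u y => by
      show pt e P u y = pt e P u₁ (hT.row u₂ (pt e P u y)) - pt e P u₂ (hT.row u₁ (pt e P u y))
      rw [row_pt, row_pt, pt_smul_right, pt_smul_right, ← pt_smul_left, ← pt_smul_left,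
        ← pt_sub_left, ← hdec]
  exact LinearMap.congr_fun h x

/-- A transvection of the first factor. -/
lemma ap_kron_T (c : Fin 2 → F) (t : F) (x : ι → F) :
    ap (kron e P (Symp.T hT.symp₁ c t) (1 : GL (Fin 3) F)) x =
      x + t • pt e P c (hT.row c x) := by
  have h : (apEquiv (kron e P (Symp.T hT.symp₁ c t) (1 : GL (Fin 3) F))).toLinearMap =
      LinearMap.id + t • (ptr e P c).comp (hT.row c) :=
    ext_pt e P fun u y => by
      show ap _ (pt e P u y) = pt e P u y + t • pt e P c (hT.row c (pt e P u y))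
      rw [ap_kron, Symp.ap_T, ap_one, pt_add_left, pt_smul_left, row_pt, pt_smul_right, smul_smul]
  exact LinearMap.congr_fun h x

include hM hH

/-- A transvection anywhere gives one at a pure tensor. -/
theorem goal_of_T {E : ι → F} (hE : E ≠ 0) {κ : F} (hκ : κ ≠ 0)
    (h : Symp.T hT.symp E κ ∈ M) : hT.Goal M := by
  obtain ⟨u₁, u₂, -, hdec⟩ := hT.exists_basis₁
  obtain ⟨c, hc⟩ : ∃ c, hT.row c E ≠ 0 := by
    by_contra hc
    push Not at hc
    refine hE ?_
    rw [hT.row_dec hdec E, hc, hc, pt_zero_right, pt_zero_right, sub_zero]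
  have hc0 : c ≠ 0 := by
    rintro rfl
    refine hc ?_
    rw [row, show Symp.fl hT.symp₁ (0 : Fin 2 → F) = 0 from LinearMap.ext fun x => by
      simp [Symp.zero_right hT.symp₁]]
    funext j
    rw [conr_apply]
    simp
  set y₀ := hT.row c E with hy₀
  set D := pt e P c y₀ with hD
  have hmove : ∀ t : F, Symp.T hT.symp (E + t • D) κ ∈ M := by
    intro t
    have hk := hH _ (Symp.T_mem_isom hT.symp₁ c t) _ (one_mem (isom f₂))
    have h1 := M.mul_mem (M.mul_mem hk h) (M.inv_mem hk)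
    rwa [Symp.conj_T hT.symp (hM hk), hT.ap_kron_T] at h1
  have hED : f E D = f₂ y₀ y₀ := hT.f_row E c y₀
  by_cases h0 : f E D = 0
  · -- the commuting conjugates
    refine hT.goal_of_pureT hH hc0 hc (κ := 2 * κ) (mul_ne_zero hT.two hκ) ?_
    have hDE : f D E = 0 := by rw [hT.symp.skew, h0, neg_zero]
    have key : Symp.T hT.symp D (2 * κ) * (Symp.T hT.symp E κ * Symp.T hT.symp E κ) =
        Symp.T hT.symp (E + (1 : F) • D) κ * Symp.T hT.symp (E + (-1 : F) • D) κ := by
      refine gl_ext fun x => ?_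
      simp only [ap_mul, Symp.ap_T, hT.symp.bilinear.add_left, hT.symp.bilinear.smul_left,
        hT.symp.bilinear.add_right, hT.symp.bilinear.smul_right, hT.symp.alternating, h0, hDE]
      module
    rw [eq_mul_inv_of_mul_eq key]
    exact M.mul_mem (M.mul_mem (hmove 1) (hmove (-1))) (M.inv_mem (M.mul_mem h h))
  · set t := -(κ * f E D)⁻¹ with ht
    have ht0 : t ≠ 0 := neg_ne_zero.mpr (inv_ne_zero (mul_ne_zero hκ h0))
    have h1 := M.mul_mem (M.mul_mem (hmove t) h) (M.inv_mem (hmove t))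
    rw [Symp.conj_T hT.symp (hM (hmove t))] at h1
    refine hT.goal_of_pureT hH hc0 hc (κ := (-t) * (-t) * κ)
      (mul_ne_zero (mul_ne_zero (neg_ne_zero.mpr ht0) (neg_ne_zero.mpr ht0)) hκ) ?_
    rw [← Symp.T_smul hT.symp D (-t) κ]
    convert h1 using 2
    rw [Symp.ap_T, hT.symp.bilinear.add_right, hT.symp.alternating, hT.symp.bilinear.smul_right]
    match_scalars
    · rw [ht]; field_simp; ring
    · rw [ht]; field_simp; ring

/-- A quadratic element at a totally isotropic line pair with a pure vector gives a transvection. -/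
theorem goal_of_quad {E : ι → F} (hE : E ≠ 0) {c : Fin 2 → F} (hc : c ≠ 0) {w : Fin 3 → F}
    (hw : w ≠ 0) (hEW : f E (pt e P c w) = 0) {m : GL ι F} (hm : m ∈ M) {l : F} (hl : l ≠ 0)
    (hmx : ∀ x, ap m x = x + l • (f x E • pt e P c w + f x (pt e P c w) • E)) : hT.Goal M := by
  have hyw : f₂ (hT.row c E) w = 0 := by rw [← hT.f_row]; exact hEW
  by_cases hy : hT.row c E = 0
  · -- `E` is a pure tensor at `c`
    obtain ⟨u₀, hu₀⟩ := (hT.symp₁.nondegenerate c hc).2
    set u := (f₁ c u₀)⁻¹ • u₀ with hu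
    have hcu : f₁ c u = 1 := by rw [hu, hT.symp₁.bilinear.smul_right, inv_mul_cancel₀ hu₀]
    have hdec' := hT.dec₁ hcu
    have hEe : E = pt e P c (hT.row u E) := by
      conv_lhs => rw [hT.row_dec hdec' E, hy, pt_zero_right, sub_zero]
    set y := hT.row u E
    have hy0 : y ≠ 0 := fun h => hE (by rw [hEe, h, pt_zero_right])
    refine hT.goal_of_sym hH hc (w := w) (v := l • y) hw (smul_ne_zero hl hy0)
      ⟨m, hm, fun x => ?_⟩
    rw [hmx, hEe, hT.f_row, hT.f_row, hT.sym_apply, hT.symm₂.bilinear.smul_right, smul_smul,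
      pt_add_right, pt_smul_right, pt_smul_right]
    module
  set y₀ := hT.row c E with hy₀
  set φ₀ := f₂ y₀ y₀ with hφ₀
  set δ := -(l * l * φ₀) / 2 with hδ
  have hk := hH _ (Symp.T_mem_isom hT.symp₁ c 1) _ (one_mem (isom f₂))
  set g := kron e P (Symp.T hT.symp₁ c 1) (1 : GL (Fin 3) F) with hg
  have hgE : ap g E = E + pt e P c y₀ := by rw [hg, hT.ap_kron_T, one_smul]
  have hgW : ap g (pt e P c w) = pt e P c w := by
    rw [hg, hT.ap_kron_T, hT.row_self, pt_zero_right, smul_zero, add_zero]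
  set m' := g * m * g⁻¹
  have hm' : m' ∈ M := M.mul_mem (M.mul_mem hk hm) (M.inv_mem hk)
  have hm'x : ∀ x, ap m' x = x + l • (f x (E + pt e P c y₀) • pt e P c w +
      f x (pt e P c w) • (E + pt e P c y₀)) := by
    intro x
    obtain ⟨y, rfl⟩ : ∃ y, x = ap g y := ⟨ap g⁻¹ x, (ap_ap_inv g x).symm⟩
    rw [ap_mul, ap_mul, ap_inv_ap, hmx, ← hgE, ← mem_isom_iff.mp (hM hk) y E,
      ← mem_isom_iff.mp (hM hk) y (pt e P c w), hgW, ap_add, ap_smul, ap_add, ap_smul, ap_smul,
      hgW]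
  refine hT.goal_of_sym hH hc (w := w) (v := l • y₀ + δ • w) hw (fun h0 => ?_)
    ⟨m' * m⁻¹, M.mul_mem hm' (M.inv_mem hm), fun z => ?_⟩
  · have h1 := congrArg (fun r => f₂ y₀ r) h0
    simp only [hT.symm₂.bilinear.add_right, hT.symm₂.bilinear.smul_right, hyw, mul_zero, add_zero,
      hT.zero_right₂, mul_eq_zero, hl, false_or] at h1
    rw [hδ, hφ₀, h1] at h0
    simp [hl] at h0
    exact hy h0
  obtain ⟨y, rfl⟩ : ∃ y, z = ap m y := ⟨ap m⁻¹ z, (ap_ap_inv m z).symm⟩
  rw [ap_mul, ap_inv_ap, hm'x, hmx]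
  simp only [map_add, map_smul, hT.row_self, hT.sym_apply, hT.symp.bilinear.add_right, hT.f_row,
    smul_zero, zero_add, ← hy₀]
  simp only [hT.symm₂.bilinear.add_left, hT.symm₂.bilinear.smul_left, hT.symm₂.bilinear.add_right,
    hT.symm₂.bilinear.smul_right, hyw, pt_add_right, pt_smul_right, ← hφ₀, hδ]
  have := hT.two
  match_scalars <;> field_simp <;> ring

end CfsgLib.Geometric.SOThree.Data
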