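import Cfsg.Agent.Lib.Geometric.SOTensor.Step

/-!
A group containing the factorwise isometries and an element outside the stabiliser that fixes the
slice of a singular vector pointwise contains a transvection centred at a pure tensor.
-/

set_option autoImplicit false
set_option linter.unusedSectionVars false

namespace CfsgLib.Geometric.SOTensor.Data

open Matrix Tensor

variable {ι : Type} [Fintype ι] [DecidableEq ι] {F : Type*} [Field F]
variable {f : (ι → F) → (ι → F) → F} {n : ℕ} {e : ι ≃ Fin 2 × Fin n} {P : GL ι F}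
  {f₁ : (Fin 2 → F) → (Fin 2 → F) → F} {f₂ : (Fin n → F) → (Fin n → F) → F}
variable [Finite F] (hT : Data f e P f₁ f₂)
include hT

omit hT in
/-- An element of the radical of the slice stabiliser with given linear part. -/
def Rad (hT : Data f e P f₁ f₂) (M : Subgroup (GL ι F)) (s : Fin n → F)
    (Λ : (Fin 2 → F) →ₗ[F] (ι → F)) : Prop :=
  ∃ m ∈ M, ∀ x, ap m x - x - Λ (hT.cc s x) ∈ slice e P s

omit hT in
/-- A central element of that radical. -/
def Cent (hT : Data f e P f₁ f₂) (M : Subgroup (GL ι F)) (s : Fin n → F)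
    (D : (Fin 2 → F) → (Fin 2 → F)) : Prop :=
  ∃ m ∈ M, ∀ x, ap m x = x + pt e P (D (hT.cc s x)) s

variable {M : Subgroup (GL ι F)} {s : Fin n → F}

lemma cc_slice (hQs : f₂ s s = 0) {y : ι → F} (hy : y ∈ slice e P s) : hT.cc s y = 0 := by
  obtain ⟨u, rfl⟩ := hy
  rw [ptl_apply, cc_pt, hQs, zero_smul]

/-- An isometry fixing the slice pointwise keeps the contraction. -/
lemma cc_ap {m : GL ι F} (hm : m ∈ isom f) (hfix : ∀ u, ap m (pt e P u s) = pt e P u s)
    (x : ι → F) : hT.cc s (ap m x) = hT.cc s x := by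
  by_contra hne
  obtain ⟨u, hu⟩ := (hT.symp₁.nondegenerate _ (sub_ne_zero.mpr hne)).2
  apply hu
  rw [Symp.sub_left hT.symp₁, ← hT.f_pt, ← hT.f_pt]
  conv_lhs => arg 1; rw [← hfix u]
  rw [mem_isom_iff.mp hm, sub_self]

/-- A vector killed by the contractions at `s^⊥` lies in the slice. -/
lemma mem_slice_of_cc (hs : s ≠ 0) {x : ι → F} (h : ∀ y, f₂ s y = 0 → hT.cc y x = 0) :
    x ∈ slice e P s := by
  obtain ⟨ω, -, hω⟩ := exists_functional_eq_one (U := ⊥) (x := s) (by simpa using hs)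
  refine ⟨con e P ω x, (mem_slice_of_con e P hω fun φ hφ => ?_).symm⟩
  obtain ⟨y, rfl⟩ := hT.exists_eq_fr φ
  exact h y hφ

/-- On the orthogonal of the slice the moved part is adjoint to the linear part. -/
lemma rad_perp {m : GL ι F} (hm : m ∈ isom f) {Λ : (Fin 2 → F) →ₗ[F] (ι → F)}
    (hm' : ∀ x, ap m x - x - Λ (hT.cc s x) ∈ slice e P s)
    (hfix : ∀ u, ap m (pt e P u s) = pt e P u s) (hΛ : ∀ c, hT.cc s (Λ c) = 0) {y : ι → F}
    (hy : hT.cc s y = 0) :
    ap m y - y ∈ slice e P s ∧ ∀ p, f (ap m y - y) p = -f y (Λ (hT.cc s p)) := by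
  have h1 : ap m y - y ∈ slice e P s := by
    have := hm' y
    rwa [hy, map_zero, sub_zero] at this
  refine ⟨h1, fun p => ?_⟩
  obtain ⟨a, ha⟩ := h1
  obtain ⟨b, hb⟩ := hm' p
  rw [ptl_apply] at ha hb
  have hmy : ap m y = y + pt e P a s := by rw [ha]; abel
  have hmp : ap m p = p + Λ (hT.cc s p) + pt e P b s := by rw [hb]; abel
  have h2 := mem_isom_iff.mp hm y p
  have h3 : f (ap m y) (pt e P b s) = 0 := by
    rw [hT.f_pt, hT.cc_ap hm hfix, hy, Symp.zero_left hT.symp₁]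
  have h4 : f (pt e P a s) (Λ (hT.cc s p)) = 0 := by
    rw [hT.pt_f, hΛ, Symp.zero_right hT.symp₁]
  rw [hmp, hT.symp.bilinear.add_right, h3, add_zero, hmy, hT.symp.bilinear.add_left,
    hT.symp.bilinear.add_right, hT.symp.bilinear.add_right, h4, add_zero] at h2
  rw [← ha]
  linear_combination h2

/-- The radical element of the second factor. -/
lemma rad_ptl (hQs : f₂ s s = 0) (hH : ∀ a ∈ isom f₁, ∀ b ∈ isom f₂, kron e P a b ∈ M)
    {a : Fin n → F} (ha : f₂ s a = 0) :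
    ∃ b ∈ isom f₂, ap b s = s ∧ (∀ y, f₂ y s = 0 → ap b y = y - f₂ y a • s) ∧
      ∀ x, ap (kron e P (1 : GL (Fin 2) F) b) x - x - pt e P (hT.cc s x) a ∈ slice e P s := by
  have has : f₂ a s = 0 := by rw [hT.symm₂.symm]; exact ha
  let S : (Fin n → F) →ₗ[F] (Fin n → F) := (hT.fr s).smulRight a - (hT.fr a).smulRight s -
    ((f₂ a a / 2) • hT.fr s).smulRight s
  have hS : ∀ y, S y = f₂ y s • a - f₂ y a • s - (f₂ a a / 2 * f₂ y s) • s := fun y => rfl
  have hpres : ∀ x y, f₂ (x + S x) (y + S y) = f₂ x y := by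
    intro x y
    simp only [hS, sub_eq_add_neg, ← neg_smul, hT.symm₂.bilinear.add_left,
      hT.symm₂.bilinear.add_right, hT.symm₂.bilinear.smul_left, hT.symm₂.bilinear.smul_right,
      hQs, ha, has, hT.symm₂.symm a y, hT.symm₂.symm s y]
    have := hT.two
    field_simp
    ring
  have hinj : Function.Injective (LinearMap.id + S : (Fin n → F) →ₗ[F] (Fin n → F)) := by
    rw [injective_iff_map_eq_zero]
    intro x hx
    by_contra hne
    obtain ⟨y, hy⟩ := (hT.symm₂.nondegenerate x hne).2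
    apply hy
    rw [← hpres x y, show x + S x = 0 from hx, hT.zero_left₂]
  set b : GL (Fin n) F := ofEquiv (LinearEquiv.ofInjectiveEndo _ hinj) with hb
  have hap : ∀ y, ap b y = y + S y := fun y => by rw [hb, ap_ofEquiv]; rfl
  refine ⟨b, fun x y => ?_, ?_, fun y hy => ?_, fun x => ?_⟩
  · change f₂ (ap b x) (ap b y) = f₂ x y
    rw [hap, hap]; exact hpres x y
  · rw [hap, hS, hQs, ha]; simp
  · rw [hap, hS, hy]; module
  · have h : (apEquiv (kron e P (1 : GL (Fin 2) F) b)).toLinearMap =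
        LinearMap.id + (ptl e P a).comp (hT.cc s) -
          (ptl e P s).comp (hT.cc a + (f₂ a a / 2) • hT.cc s) :=
      ext_pt e P fun u y => by
        simp only [LinearEquiv.coe_coe, apEquiv_apply, ap_kron, ap_one, hap, hS, pt_add_right,
          pt_sub_right, pt_smul_right, pt_smul_left, LinearMap.sub_apply, LinearMap.add_apply,
          LinearMap.id_apply, LinearMap.comp_apply, LinearMap.smul_apply, cc_pt, map_add, map_smul,
          ptl_apply, smul_smul]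
        module
    have h' := LinearMap.congr_fun h x
    simp only [LinearEquiv.coe_coe, apEquiv_apply, LinearMap.sub_apply, LinearMap.add_apply,
      LinearMap.id_apply, LinearMap.comp_apply, LinearMap.smul_apply, ptl_apply] at h'
    rw [h']
    refine mem_slice e P |>.mpr ⟨-(hT.cc a x + (f₂ a a / 2) • hT.cc s x), ?_⟩
    rw [← ptl_apply e P s (-_), map_neg, ptl_apply]
    abel

/-- Two radical elements with non-symmetric pairing give a central one. -/
lemma cent_of_rad (hs : s ≠ 0) (hQs : f₂ s s = 0) (hM : M ≤ isom f)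
    {Λ Λ' : (Fin 2 → F) →ₗ[F] (ι → F)} (hΛ : ∀ c, hT.cc s (Λ c) = 0)
    (hΛ' : ∀ c, hT.cc s (Λ' c) = 0) (h : hT.Rad M s Λ) (h' : hT.Rad M s Λ')
    (hne : ∃ c c', f (Λ c) (Λ' c') ≠ f (Λ' c) (Λ c')) :
    ∃ D : (Fin 2 → F) →ₗ[F] (Fin 2 → F), (∀ c c', f₁ (D c) c' = f₁ (D c') c) ∧
      (∃ c, D c ≠ 0) ∧ hT.Cent M s D := by
  obtain ⟨m, hm, hmx⟩ := h
  obtain ⟨m', hm', hmx'⟩ := h'
  have hfix : ∀ {k : GL ι F} {L : (Fin 2 → F) →ₗ[F] (ι → F)}, k ∈ isom f →
      (∀ c, hT.cc s (L c) = 0) → (∀ x, ap k x - x - L (hT.cc s x) ∈ slice e P s) →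
      ∀ u, ap k (pt e P u s) = pt e P u s := by
    intro k L hk hL hkx u
    obtain ⟨a, ha⟩ := hkx (pt e P u s)
    rw [cc_pt, hQs, zero_smul, map_zero, sub_zero, ptl_apply] at ha
    by_contra hne
    obtain ⟨p, hp⟩ := (hT.symp.nondegenerate _ (sub_ne_zero.mpr hne)).1
    apply hp
    obtain ⟨y, rfl⟩ : ∃ y, ap k y = p := ⟨ap k⁻¹ p, ap_ap_inv k p⟩
    have h1 := mem_isom_iff.mp hk y (pt e P u s)
    obtain ⟨b, hb⟩ := hkx y
    rw [ptl_apply] at hb
    have hky : ap k y = y + L (hT.cc s y) + pt e P b s := by rw [hb]; abel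
    have h2 : f (ap k y) (pt e P u s) = f y (pt e P u s) := by
      rw [hky, hT.symp.bilinear.add_left, hT.symp.bilinear.add_left, hT.f_pt (L _), hL,
        Symp.zero_left hT.symp₁, hT.form, hQs, mul_zero, add_zero, add_zero]
    rw [Symp.sub_right hT.symp, h1, h2, sub_self]
  have hf1 := hfix (hM hm) hΛ hmx
  have hf2 := hfix (hM hm') hΛ' hmx'
  obtain ⟨ω, -, hω⟩ := exists_functional_eq_one (U := ⊥) (x := s) (by simpa using hs)
  let A : (Fin 2 → F) →ₗ[F] (ι → F) :=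
    ((apEquiv m).toLinearMap - LinearMap.id).comp Λ' -
      ((apEquiv m').toLinearMap - LinearMap.id).comp Λ
  let D : (Fin 2 → F) →ₗ[F] (Fin 2 → F) := (con e P ω).comp A
  have hA : ∀ c, A c = (ap m (Λ' c) - Λ' c) - (ap m' (Λ c) - Λ c) := fun c => rfl
  have r1 := fun c => hT.rad_perp (hM hm) hmx hf1 hΛ (hΛ' c)
  have r2 := fun c => hT.rad_perp (hM hm') hmx' hf2 hΛ' (hΛ c)
  have hAD : ∀ c, A c = pt e P (D c) s := by
    intro c
    obtain ⟨a, ha⟩ : A c ∈ slice e P s := by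
      rw [hA]; exact (slice e P s).sub_mem (r1 c).1 (r2 c).1
    rw [ptl_apply] at ha
    show A c = pt e P (con e P ω (A c)) s
    rw [← ha, con_pt, hω, one_smul]
  obtain ⟨t, ht, -⟩ := hT.exists_partner hs hQs
  have hst : f₂ s t = 1 := by rw [hT.symm₂.symm, ht]
  have hform : ∀ c c', f₁ (D c) c' = -f (Λ' c) (Λ c') + f (Λ c) (Λ' c') := by
    intro c c'
    have h1 : f (A c) (pt e P c' t) = f₁ (D c) c' := by
      rw [hAD, hT.form, hst, mul_one]
    rw [← h1, hA, Symp.sub_left hT.symp, (r1 c).2, (r2 c).2, cc_pt, ht, one_smul]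
    ring
  have hMm := M.mul_mem hm hm'
  have hMm' := M.mul_mem hm' hm
  refine ⟨D, fun c c' => ?_, ?_, (m * m') * (m' * m)⁻¹, M.mul_mem hMm (M.inv_mem hMm'), fun x => ?_⟩
  · rw [hform, hform, hT.symp.skew (Λ' c) (Λ c'), hT.symp.skew (Λ c) (Λ' c')]
    ring
  · obtain ⟨c, c', hcc⟩ := hne
    refine ⟨c, fun h0 => hcc ?_⟩
    have := hform c c'
    rw [h0, Symp.zero_left hT.symp₁] at this
    linear_combination -this
  obtain ⟨y, rfl⟩ : ∃ y, ap (m' * m) y = x := ⟨ap (m' * m)⁻¹ x, ap_ap_inv _ x⟩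
  have hcy : hT.cc s (ap (m' * m) y) = hT.cc s y := by
    rw [ap_mul, hT.cc_ap (hM hm') hf2, hT.cc_ap (hM hm) hf1]
  rw [hcy, ap_mul (g := m * m'), ap_inv_ap, ← hAD, hA, ap_mul, ap_mul]
  obtain ⟨a, ha⟩ := hmx y
  obtain ⟨a', ha'⟩ := hmx' y
  rw [ptl_apply] at ha ha'
  have hy1 : ap m y = y + Λ (hT.cc s y) + pt e P a s := by rw [ha]; abel
  have hy2 : ap m' y = y + Λ' (hT.cc s y) + pt e P a' s := by rw [ha']; abel
  conv_lhs => rw [hy2]
  conv_rhs => rw [hy1]
  rw [ap_add, ap_add, ap_add, ap_add, hy1, hy2, hf1, hf2]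
  abel

/-- A central element gives a transvection. -/
lemma transvection_of_cent (hQs : f₂ s s = 0)
    (hH : ∀ a ∈ isom f₁, ∀ b ∈ isom f₂, kron e P a b ∈ M)
    {D : (Fin 2 → F) →ₗ[F] (Fin 2 → F)} (hsym : ∀ c c', f₁ (D c) c' = f₁ (D c') c)
    (hD : ∃ c, D c ≠ 0) (h : hT.Cent M s D) :
    ∃ (u : Fin 2 → F) (κ : F), u ≠ 0 ∧ κ ≠ 0 ∧ Symp.T hT.symp (pt e P u s) κ ∈ M := by
  obtain ⟨u, hu⟩ : ∃ u, f₁ (D u) u ≠ 0 := by
    by_contra hc
    push Not at hc
    obtain ⟨c, hc0⟩ := hD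
    obtain ⟨p, hp⟩ := (hT.symp₁.nondegenerate _ hc0).2
    have h1 := hc (c + p)
    rw [map_add, hT.symp₁.bilinear.add_left, hT.symp₁.bilinear.add_right,
      hT.symp₁.bilinear.add_right, hc, hc, hsym p c, zero_add, add_zero, ← two_mul] at h1
    exact hp ((mul_eq_zero.mp h1).resolve_left hT.two)
  have hu0 : u ≠ 0 := fun h => hu (by rw [h, map_zero, Symp.zero_left hT.symp₁])
  obtain ⟨m, hm, hmx⟩ := h
  have hconj : ∀ t : F, ∀ x, ap (kron e P (Symp.T hT.symp₁ u t) 1 * m *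
      (kron e P (Symp.T hT.symp₁ u t) (1 : GL (Fin n) F))⁻¹) x =
        x + pt e P (ap (Symp.T hT.symp₁ u t)
          (D (ap (Symp.T hT.symp₁ u t)⁻¹ (hT.cc s x)))) s := by
    intro t x
    have hI := hT.kron_isom (Symp.T_mem_isom hT.symp₁ u t) (one_mem (isom f₂))
    have hcc : hT.cc s (ap (kron e P (Symp.T hT.symp₁ u t) (1 : GL (Fin n) F))⁻¹ x) =
        ap (Symp.T hT.symp₁ u t)⁻¹ (hT.cc s x) := by
      have hl : (hT.cc s).comp
          (apEquiv (kron e P (Symp.T hT.symp₁ u t) (1 : GL (Fin n) F))⁻¹).toLinearMap =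
          (apEquiv (Symp.T hT.symp₁ u t)⁻¹).toLinearMap.comp (hT.cc s) :=
        ext_pt e P fun a y => by
          simp [kron_inv, ap_smul]
      exact LinearMap.congr_fun hl x
    rw [ap_mul, ap_mul, hmx, ap_add, ap_ap_inv, hcc, ap_kron, ap_one]
  have hTm : ∀ t, kron e P (Symp.T hT.symp₁ u t) (1 : GL (Fin n) F) ∈ M := fun t =>
    hH _ (Symp.T_mem_isom hT.symp₁ u t) _ (one_mem _)
  have hmem : ∀ t, kron e P (Symp.T hT.symp₁ u t) 1 * m *
      (kron e P (Symp.T hT.symp₁ u t) (1 : GL (Fin n) F))⁻¹ ∈ M := fun t =>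
    M.mul_mem (M.mul_mem (hTm t) hm) (M.inv_mem (hTm t))
  refine ⟨u, -(2 * f₁ (D u) u), hu0, neg_ne_zero.mpr (mul_ne_zero hT.two hu), ?_⟩
  have hAM := hmem 1
  have hBM := hmem (-1)
  have hA := hconj 1
  have hB := hconj (-1)
  generalize kron e P (Symp.T hT.symp₁ u 1) 1 * m *
    (kron e P (Symp.T hT.symp₁ u 1) (1 : GL (Fin n) F))⁻¹ = A at hAM hA
  generalize kron e P (Symp.T hT.symp₁ u (-1)) 1 * m *
    (kron e P (Symp.T hT.symp₁ u (-1)) (1 : GL (Fin n) F))⁻¹ = B at hBM hB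
  convert M.mul_mem (M.mul_mem (M.mul_mem hAM hBM) (M.inv_mem hm)) (M.inv_mem hm)
    using 1
  apply gl_ext
  intro x
  -- all factors are translations by the slice
  have hTi : ∀ t c, ap (Symp.T hT.symp₁ u t)⁻¹ c = c - (t * f₁ c u) • u := fun t c => by
    apply ap_injective (Symp.T hT.symp₁ u t)
    rw [ap_ap_inv, ap_sub, ap_smul, Symp.ap_T, Symp.ap_T, hT.symp₁.alternating]
    module
  have hmi : ∀ x, ap m⁻¹ x = x - pt e P (D (hT.cc s x)) s := fun x => by
    apply ap_injective m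
    rw [ap_ap_inv, hmx, map_sub, cc_pt, hQs, zero_smul, sub_zero]
    abel
  rw [ap_mul, ap_mul, ap_mul, hmi, hmi, hB, hA]
  simp only [map_sub, map_add, cc_pt, hQs, zero_smul, sub_zero, add_zero]
  rw [Symp.ap_T, hT.f_pt]
  simp only [hTi, Symp.ap_T, map_sub, map_smul, Symp.sub_left hT.symp₁,
    hT.symp₁.bilinear.smul_left, hT.symp₁.alternating]
  simp only [← ptl_apply e P s, map_add, map_sub, map_smul]
  match_scalars <;> ring

/-- The linear part is scalar on one factor or gives a transvection. -/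
lemma scalar_or_cent (hs : s ≠ 0) (hQs : f₂ s s = 0) (hM : M ≤ isom f)
    (hH : ∀ a ∈ isom f₁, ∀ b ∈ isom f₂, kron e P a b ∈ M)
    {Λ : (Fin 2 → F) →ₗ[F] (ι → F)} (hΛ : ∀ c, hT.cc s (Λ c) = 0) (h : hT.Rad M s Λ)
    {u₀ : Fin 2 → F} {α : (Fin 2 → F) →ₗ[F] F} (hα : α u₀ = 1) :
    (∃ (u : Fin 2 → F) (κ : F), u ≠ 0 ∧ κ ≠ 0 ∧ Symp.T hT.symp (pt e P u s) κ ∈ M) ∨
      ∀ c, Λ c - pt e P c (conr e P α (Λ u₀)) ∈ slice e P s := by
  by_cases hne : ∃ a, f₂ s a = 0 ∧ ∃ c c', f (Λ c) (ptl e P a c') ≠ f (ptl e P a c) (Λ c')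
  · obtain ⟨a, ha, hcc⟩ := hne
    have hl : ∀ c, hT.cc s (ptl e P a c) = 0 := fun c => by
      rw [ptl_apply, cc_pt, hT.symm₂.symm, ha, zero_smul]
    obtain ⟨b, hb, -, -, hbx⟩ := hT.rad_ptl hQs hH ha
    obtain ⟨D, hsym, hD, hC⟩ := hT.cent_of_rad hs hQs hM hΛ hl h
      ⟨_, hH 1 (one_mem _) b hb, hbx⟩ hcc
    exact Or.inl (hT.transvection_of_cent hQs hH hsym hD hC)
  push Not at hne
  refine Or.inr fun c => hT.mem_slice_of_cc hs fun b hb => ?_
  obtain ⟨t, ht⟩ := hT.scalar_of_selfadjoint ((hT.cc b).comp Λ) fun p p' => by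
    have := hne b hb p p'
    rw [ptl_apply, ptl_apply, hT.f_pt, hT.pt_f] at this
    exact this
  have ht' : ∀ p, hT.cc b (Λ p) = t • p := ht
  have hv : f₂ (conr e P α (Λ u₀)) b = t := by
    rw [← fr_apply hT b, apply_conr]
    show α (hT.cc b (Λ u₀)) = t
    rw [ht', map_smul, hα, smul_eq_mul, mul_one]
  rw [map_sub, cc_pt, hv, ht', sub_self]

/-- A transvection at a pure tensor. -/
theorem exists_transvection (hs : s ≠ 0) (hQs : f₂ s s = 0) (hM : M ≤ isom f)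
    (hH : ∀ a ∈ isom f₁, ∀ b ∈ isom f₂, kron e P a b ∈ M) {k : GL ι F} (hk : k ∈ M)
    (hkT : k ∉ Cfsg.Geo.tensorProductSubgroup 2 n e P)
    (hfix : ∀ u, ap k (pt e P u s) = pt e P u s) :
    ∃ (u : Fin 2 → F) (κ : F), u ≠ 0 ∧ κ ≠ 0 ∧ Symp.T hT.symp (pt e P u s) κ ∈ M := by
  by_contra hno
  obtain ⟨u₀, u₀', h12, -⟩ := hT.exists_basis₁
  have hu₀ : u₀ ≠ 0 := fun h => one_ne_zero (α := F) (by
    rw [← h12, h, Symp.zero_left hT.symp₁])
  obtain ⟨α, -, hα⟩ := exists_functional_eq_one (U := ⊥) (x := u₀) (by simpa using hu₀)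
  have hkI := hM hk
  let β : (Fin n → F) →ₗ[F] (Fin n → F) :=
    (conr e P α).comp ((apEquiv k).toLinearMap.comp (ptr e P u₀))
  have hβ : ∀ y, β y = conr e P α (ap k (pt e P u₀ y)) := fun y => rfl
  -- the action on the orthogonal of the slice
  have hscal : ∀ a, f₂ s a = 0 → ∀ c, ap k (pt e P c a) - pt e P c (β a) ∈ slice e P s := by
    intro a ha c
    have hl : ∀ c, hT.cc s ((apEquiv k).toLinearMap.comp (ptl e P a) c) = 0 := fun c => by
      rw [LinearMap.comp_apply, LinearEquiv.coe_coe, apEquiv_apply, hT.cc_ap hkI hfix, ptl_apply,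
        cc_pt, hT.symm₂.symm, ha, zero_smul]
    obtain ⟨b, hb, hbs, -, hbx⟩ := hT.rad_ptl hQs hH ha
    have hm := M.mul_mem (M.mul_mem hk (hH 1 (one_mem _) b hb)) (M.inv_mem hk)
    have hrad : hT.Rad M s ((apEquiv k).toLinearMap.comp (ptl e P a)) := by
      refine ⟨_, hm, fun x => ?_⟩
      have hc : hT.cc s (ap k⁻¹ x) = hT.cc s x := by
        conv_rhs => rw [← ap_ap_inv k x, hT.cc_ap hkI hfix]
      obtain ⟨p, hp⟩ := hbx (ap k⁻¹ x)
      rw [hc, ptl_apply] at hp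
      refine ⟨p, ?_⟩
      rw [ptl_apply, ← hfix p, hp, LinearMap.comp_apply, LinearEquiv.coe_coe, apEquiv_apply,
        ptl_apply, ap_sub, ap_sub, ap_ap_inv, ap_mul, ap_mul]
    exact (hT.scalar_or_cent hs hQs hM hH hl hrad hα).resolve_left hno c
  have hβs : ∀ a, f₂ s a = 0 → f₂ (β a) s = 0 := by
    intro a ha
    rw [hβ, ← fr_apply hT s, apply_conr]
    show α (hT.cc s _) = 0
    rw [hT.cc_ap hkI hfix, cc_pt, hT.symm₂.symm, ha, zero_smul, map_zero]
  have hβf : ∀ a a', f₂ s a = 0 → f₂ s a' = 0 → f₂ (β a) (β a') = f₂ a a' := by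
    intro a a' ha ha'
    have hu : ∀ u a, f₂ s a = 0 → ∃ p, ap k (pt e P u a) = pt e P u (β a) + pt e P p s := by
      intro u a ha
      obtain ⟨p, hp⟩ := hscal a ha u
      exact ⟨p, by rw [← ptl_apply e P s p, hp]; abel⟩
    obtain ⟨p, hp⟩ := hu u₀ a ha
    obtain ⟨p', hp'⟩ := hu u₀' a' ha'
    have := mem_isom_iff.mp hkI (pt e P u₀ a) (pt e P u₀' a')
    rw [hp, hp', hT.symp.bilinear.add_left, hT.symp.bilinear.add_right, hT.symp.bilinear.add_right,
      hT.form, hT.form, hT.form, hT.form, hT.form, h12, hβs a ha,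
      hT.symm₂.symm s (β a'), hβs a' ha', hQs] at this
    linear_combination this
  -- an element of the second factor with the same action
  obtain ⟨t, ht, hQt⟩ := hT.exists_partner hs hQs
  have hst : f₂ s t = 1 := by rw [hT.symm₂.symm, ht]
  let π : (Fin n → F) →ₗ[F] (Fin n → F) :=
    LinearMap.id - (hT.fr s).smulRight t - (hT.fr t).smulRight s
  have hπ : ∀ y, π y = y - f₂ y s • t - f₂ y t • s := fun y => rfl
  have hπs : ∀ y, f₂ (π y) s = 0 ∧ f₂ (π y) t = 0 := fun y => by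
    simp [hπ, sub_eq_add_neg, ← neg_smul, hT.symm₂.bilinear.add_left, hT.symm₂.bilinear.smul_left,
      ht, hst, hQs, hQt]
  let γ : (Fin n → F) →ₗ[F] (Fin n → F) := β - ((hT.fr t).comp β).smulRight s
  have hγ : ∀ a, γ a = β a - f₂ (β a) t • s := fun a => rfl
  let B : (Fin n → F) →ₗ[F] (Fin n → F) :=
    (hT.fr s).smulRight t + (hT.fr t).smulRight s + γ.comp π
  have hB : ∀ y, B y = f₂ y s • t + f₂ y t • s + γ (π y) := fun y => rfl
  have hπs' : ∀ y, f₂ s (π y) = 0 := fun y => by rw [hT.symm₂.symm, (hπs y).1]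
  have hγs : ∀ y, f₂ (γ (π y)) s = 0 ∧ f₂ (γ (π y)) t = 0 := fun y => by
    simp [hγ, sub_eq_add_neg, ← neg_smul, hT.symm₂.bilinear.add_left,
      hT.symm₂.bilinear.smul_left, hst, hQs, hβs _ (hπs' y)]
  have hBf : ∀ x y, f₂ (B x) (B y) = f₂ x y := by
    intro x y
    have e1 : f₂ (γ (π x)) (γ (π y)) = f₂ (π x) (π y) := by
      rw [← hβf _ _ (hπs' x) (hπs' y)]
      simp [hγ, sub_eq_add_neg, ← neg_smul, hT.symm₂.bilinear.add_left,
        hT.symm₂.bilinear.add_right, hT.symm₂.bilinear.smul_left, hT.symm₂.bilinear.smul_right,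
        hβs _ (hπs' x), hβs _ (hπs' y), hT.symm₂.symm s (β (π y)), hQs]
    have e2 : f₂ (π x) (π y) = f₂ x y - f₂ x s * f₂ y t - f₂ x t * f₂ y s := by
      simp only [hπ, sub_eq_add_neg, ← neg_smul, hT.symm₂.bilinear.add_left,
        hT.symm₂.bilinear.add_right, hT.symm₂.bilinear.smul_left, hT.symm₂.bilinear.smul_right,
        ht, hst, hQs, hQt, hT.symm₂.symm t y, hT.symm₂.symm s y]
      ring
    rw [hB, hB]
    simp only [hT.symm₂.bilinear.add_left, hT.symm₂.bilinear.add_right,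
      hT.symm₂.bilinear.smul_left, hT.symm₂.bilinear.smul_right, ht, hst, hQs, hQt,
      (hγs x).1, (hγs x).2, hT.symm₂.symm t (γ _), hT.symm₂.symm s (γ _), (hγs y).1, (hγs y).2,
      e1, e2]
    ring
  have hBinj : Function.Injective B := (injective_iff_map_eq_zero _).mpr fun x hx => by
    by_contra hne
    obtain ⟨y, hy⟩ := (hT.symm₂.nondegenerate x hne).2
    exact hy (by rw [← hBf, hx, hT.zero_left₂])
  set b₀ : GL (Fin n) F := ofEquiv (LinearEquiv.ofInjectiveEndo B hBinj) with hb₀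
  have hb₀ap : ∀ y, ap b₀ y = B y := fun y => by rw [hb₀, ap_ofEquiv]; rfl
  have hb₀I : b₀ ∈ isom f₂ := fun x y => by
    change f₂ (ap b₀ x) (ap b₀ y) = f₂ x y
    rw [hb₀ap, hb₀ap, hBf]
  have hb₀s : ap b₀ s = s := by
    rw [hb₀ap, hB, hπ, hQs, hst]; simp
  set k₂ := (kron e P (1 : GL (Fin 2) F) b₀)⁻¹ * k with hk₂
  have hk₂M : k₂ ∈ M := M.mul_mem (M.inv_mem (hH 1 (one_mem _) b₀ hb₀I)) hk
  have hk₂fix : ∀ u, ap k₂ (pt e P u s) = pt e P u s := fun u => by
    apply ap_injective (kron e P (1 : GL (Fin 2) F) b₀)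
    rw [hk₂, ap_mul, ap_ap_inv, hfix, ap_kron, ap_one, hb₀s]
  have hk₂a : ∀ c a, f₂ s a = 0 → ap k₂ (pt e P c a) - pt e P c a ∈ slice e P s := by
    intro c a ha
    have has : f₂ a s = 0 := by rw [hT.symm₂.symm, ha]
    obtain ⟨p, hp⟩ := hscal a ha c
    rw [ptl_apply] at hp
    have hβst : β s = s := by rw [hβ, hfix, conr_pt, hα, one_smul]
    have hBa : ∃ r : F, B a = β a + r • s :=
      ⟨f₂ a t - f₂ a t - f₂ (β a - f₂ a t • s) t, by
        rw [hB, hπ, has, zero_smul, zero_add, sub_zero, hγ, map_sub, map_smul, hβst]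
        module⟩
    obtain ⟨r, hr⟩ := hBa
    refine ⟨p - r • c, ap_injective (kron e P (1 : GL (Fin 2) F) b₀) ?_⟩
    rw [ptl_apply, hk₂, ap_sub, ap_mul, ap_ap_inv, ap_kron, ap_kron, ap_one, ap_one, hb₀s, hb₀ap,
      hr, pt_add_right, pt_smul_right, ← ptl_apply e P s (_ - _), map_sub, map_smul, ptl_apply,
      ptl_apply, hp]
    abel
  -- the linear part
  set Λ := ((apEquiv k₂).toLinearMap - LinearMap.id).comp (ptl e P t)
  have hΛap : ∀ c, Λ c = ap k₂ (pt e P c t) - pt e P c t := fun c => rfl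
  have hΛ : ∀ c, hT.cc s (Λ c) = 0 := fun c => by
    rw [hΛap, map_sub, hT.cc_ap (hM hk₂M) hk₂fix, sub_self]
  have hrad : ∀ x, ap k₂ x - x - Λ (hT.cc s x) ∈ slice e P s := by
    intro x
    refine hT.mem_slice_of_cc hs fun b hb => ?_
    have hl : (hT.cc b).comp ((apEquiv k₂).toLinearMap - LinearMap.id - Λ.comp (hT.cc s)) = 0 :=
      ext_pt e P fun u y => by
        simp only [LinearMap.comp_apply, LinearMap.sub_apply, LinearEquiv.coe_coe, apEquiv_apply,
          LinearMap.id_apply, LinearMap.zero_apply, cc_pt, map_smul, hΛap]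
        obtain ⟨p, hp⟩ := hk₂a u (y - f₂ y s • t) (by
          rw [sub_eq_add_neg, ← neg_smul, hT.symm₂.bilinear.add_right,
            hT.symm₂.bilinear.smul_right, hst, hT.symm₂.symm s y]
          ring)
        have h0 : hT.cc b (ptl e P s p) = 0 := by
          rw [ptl_apply, cc_pt, hb, zero_smul]
        rw [hp, pt_sub_right, pt_smul_right, ap_sub, ap_smul] at h0
        simp only [pt_smul_left, ap_smul, map_sub, map_smul, cc_pt] at h0 ⊢
        linear_combination (norm := module) h0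
    exact LinearMap.congr_fun hl x
  have hscal₂ := (hT.scalar_or_cent hs hQs hM hH hΛ ⟨k₂, hk₂M, hrad⟩ hα).resolve_left hno
  set a' := conr e P α (Λ u₀) with ha'
  have ha's : f₂ s a' = 0 := by
    rw [hT.symm₂.symm, ha', ← fr_apply hT s, apply_conr]
    show α (hT.cc s _) = 0
    rw [hΛ, map_zero]
  obtain ⟨b, hb, hbs, -, hbx⟩ := hT.rad_ptl hQs hH ha's
  have hbfix : ∀ u, ap (kron e P (1 : GL (Fin 2) F) b) (pt e P u s) = pt e P u s := fun u => by
    rw [ap_kron, ap_one, hbs]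
  set k₃ := (kron e P (1 : GL (Fin 2) F) b)⁻¹ * k₂ with hk₃
  have hk₃M : k₃ ∈ M := M.mul_mem (M.inv_mem (hH 1 (one_mem _) b hb)) hk₂M
  have hk₃fix : ∀ u, ap k₃ (pt e P u s) = pt e P u s := fun u => by
    apply ap_injective (kron e P (1 : GL (Fin 2) F) b)
    rw [hk₃, ap_mul, ap_ap_inv, hk₂fix, hbfix]
  have hk₃S : ∀ x, ap k₃ x - x ∈ slice e P s := by
    intro x
    obtain ⟨p₁, hp₁⟩ := hrad x
    obtain ⟨p₂, hp₂⟩ := hscal₂ (hT.cc s x)
    obtain ⟨p₃, hp₃⟩ := hbx x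
    refine ⟨p₁ + p₂ - p₃, ap_injective (kron e P (1 : GL (Fin 2) F) b) ?_⟩
    rw [ptl_apply, hbfix, ← ptl_apply e P s, map_sub, map_add, hp₁, hp₂, hp₃, hk₃, ap_sub,
      ap_mul (g := (kron e P (1 : GL (Fin 2) F) b)⁻¹), ap_ap_inv]
    abel
  obtain ⟨ω, -, hω⟩ := exists_functional_eq_one (U := ⊥) (x := s) (by simpa using hs)
  let D : (Fin 2 → F) →ₗ[F] (Fin 2 → F) :=
    (con e P ω).comp (((apEquiv k₃).toLinearMap - LinearMap.id).comp (ptl e P t))
  have hperp : ∀ y, hT.cc s y = 0 → ap k₃ y = y := by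
    intro y hy
    have h := hT.rad_perp (hM hk₃M) (Λ := 0) (by simpa using hk₃S) hk₃fix (by simp) hy
    by_contra hne
    obtain ⟨p, hp⟩ := (hT.symp.nondegenerate _ (sub_ne_zero.mpr hne)).2
    exact hp (by rw [h.2, LinearMap.zero_apply, Symp.zero_right hT.symp, neg_zero])
  have hk₃ap : ∀ x, ap k₃ x = x + pt e P (D (hT.cc s x)) s := by
    intro x
    obtain ⟨p, hp⟩ := hk₃S (pt e P (hT.cc s x) t)
    rw [ptl_apply] at hp
    have hy : hT.cc s (x - pt e P (hT.cc s x) t) = 0 := by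
      rw [map_sub, cc_pt, ht, one_smul, sub_self]
    have h := hperp _ hy
    rw [ap_sub] at h
    have hDp : D (hT.cc s x) = p := by
      show con e P ω (ap k₃ (pt e P (hT.cc s x) t) - pt e P (hT.cc s x) t) = p
      rw [← hp, con_pt, hω, one_smul]
    rw [hDp, hp]
    linear_combination (norm := module) h
  have hsym : ∀ c c', f₁ (D c) c' = f₁ (D c') c := by
    intro c c'
    have h := mem_isom_iff.mp (hM hk₃M) (pt e P c t) (pt e P c' t)
    rw [hk₃ap, hk₃ap, cc_pt, cc_pt, ht, one_smul, one_smul, hT.symp.bilinear.add_left,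
      hT.symp.bilinear.add_right, hT.symp.bilinear.add_right, hT.form, hT.form, hT.form, hT.form,
      hQt, hst, ht, hQs, hT.symp₁.skew c (D c')] at h
    linear_combination h
  by_cases hD : ∃ c, D c ≠ 0
  · exact hno (hT.transvection_of_cent hQs hH hsym hD ⟨k₃, hk₃M, hk₃ap⟩)
  push Not at hD
  have h1 : k₃ = 1 := gl_ext fun x => by rw [hk₃ap, hD, pt_zero_left, add_zero, ap_one]
  rw [hk₃, inv_mul_eq_one, hk₂, eq_inv_mul_iff_mul_eq] at h1
  exact hkT (h1 ▸ mul_mem (kron_mem e P _ _) (kron_mem e P _ _))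

end CfsgLib.Geometric.SOTensor.Data
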